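import Cfsg.Agent.Lib.Helper17.ChevTri

set_option autoImplicit false

/-! Unipotent elements and the height filtration. -/

namespace Cfsg.Agent.Lib.Helper18

open Cfsg.Lie Matrix Cfsg.Agent.Lib.Helper17

/-- weight of a basis vector from a table of heights. -/
def htWt (D : ChevalleyDatum) (w : ℕ → ℕ) (c : ℕ) : D.Idx → ℕ
  | Sum.inl _ => c
  | Sum.inr s => w s.val

/-- Table check. -/
def triOKw (D : ChevalleyDatum) (w : ℕ → ℕ) (c : ℕ) : Bool :=
  (List.range D.nroots).all fun r =>
    !(decide (D.IsPosRoot r)) ||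
      (decide (c < w r) && decide (w (D.negIdx.getD r 0) < c) &&
        (D.chain.getD r #[]).toList.all fun e => e.2.toList.all fun q => decide (w e.1 < w q.1))

lemma triOKw_spec {D : ChevalleyDatum} {w : ℕ → ℕ} {c : ℕ} (hD : triOKw D w c = true) {r : ℕ}
    (hr : D.IsPosRoot r) :
    c < w r ∧ w (D.negIdx.getD r 0) < c ∧
      ∀ e ∈ (D.chain.getD r #[]).toList, ∀ q ∈ e.2.toList, w e.1 < w q.1 := by
  unfold triOKw at hD
  rw [List.all_eq_true] at hD
  have h := hD r (List.mem_range.mpr hr.1)
  simp only [hr, decide_true, Bool.not_true, Bool.false_or, Bool.and_eq_true, decide_eq_true_eq,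
    List.all_eq_true] at h
  exact ⟨h.1.1, h.1.2, h.2⟩

lemma chainCoeff_eq_nil_w {D : ChevalleyDatum} {w : ℕ → ℕ} {r s u : ℕ}
    (h : ∀ e ∈ (D.chain.getD r #[]).toList, ∀ q ∈ e.2.toList, w e.1 < w q.1) (hus : w u ≤ w s) :
    D.chainCoeff r s u = [] := by
  rw [List.eq_nil_iff_forall_not_mem]
  intro km hkm
  unfold ChevalleyDatum.chainCoeff at hkm
  rw [List.mem_flatMap] at hkm
  obtain ⟨e, he, hkm⟩ := hkm
  rw [List.mem_filter] at he
  rw [List.mem_map] at hkm
  obtain ⟨q, hq, rfl⟩ := hkm
  rw [List.mem_filter] at hq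
  have h1 : e.1 = s := by simpa using he.2
  have h2 : q.1.1 = u := by simpa using hq.2
  have h3 : e.2.toList[q.2]? = some q.1 := List.mem_zipIdx_iff_getElem?.mp hq.1
  have h4 : q.1 ∈ e.2.toList := List.mem_of_getElem? h3
  have := h e he.1 q.1 h4
  rw [h1, h2] at this
  omega

theorem filt_x_sub_one_w {F : Type*} [Field F] {D : ChevalleyDatum} {w : ℕ → ℕ} {c : ℕ}
    (hD : triOKw D w c = true) {r : ℕ}
    (hr : D.IsPosRoot r) (t : F) : Filt (htWt D w c) 1 (D.x F r t - 1) := by
  obtain ⟨h1, h2, h3⟩ := triOKw_spec hD hr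
  have hr' := hr.1
  unfold ChevalleyDatum.x
  rw [dif_pos hr']
  intro row col hlt
  rw [Matrix.sub_apply]
  rcases col with i | s
  · rcases row with i' | u
    · simp [ChevalleyDatum.xMat, Matrix.one_apply]
    · simp only [ChevalleyDatum.xMat, Matrix.of_apply]
      by_cases hu : u = ⟨r, hr'⟩
      · exfalso
        subst hu
        simp only [htWt] at hlt
        omega
      · rw [if_neg hu]; simp
  · simp only [ChevalleyDatum.xMat, Matrix.of_apply]
    by_cases hs : s = ⟨r, hr'⟩
    · rw [if_pos hs]
      rcases row with i' | u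
      · simp
      · subst hs
        simp [Matrix.one_apply]
    · rw [if_neg hs]
      by_cases hs2 : s.val = D.negIdx.getD r 0
      · rw [if_pos hs2]
        rcases row with i' | u
        · exfalso
          simp only [htWt] at hlt
          rw [hs2] at hlt
          omega
        · by_cases hu : u = s
          · subst hu; simp
          · simp only [if_neg hu]
            by_cases hu2 : u = ⟨r, hr'⟩
            · exfalso
              subst hu2
              simp only [htWt] at hlt
              rw [hs2] at hlt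
              omega
            · rw [if_neg hu2]
              simp [hu]
      · rw [if_neg hs2]
        rcases row with i' | u
        · simp
        · have hus : w u.val ≤ w s.val := by
            simp only [htWt] at hlt
            omega
          simp only [chainCoeff_eq_nil_w h3 hus]
          simp [Matrix.one_apply]

theorem posUnipotent_le_unitri_w {F : Type*} [Field F] {D : ChevalleyDatum} {w : ℕ → ℕ} {c B : ℕ}
    (hD : triOKw D w c = true) (hB : ∀ i, htWt D w c i < B) :
    D.posUnipotent F ≤ unitri (htWt D w c) F B hB 1 le_rfl := by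
  unfold ChevalleyDatum.posUnipotent
  rw [Subgroup.closure_le]
  rintro g ⟨r, t, hr, hg⟩
  show Filt (htWt D w c) 1 ((g : Matrix D.Idx D.Idx F) - 1)
  rw [hg]
  exact filt_x_sub_one_w hD hr t

/-- the exponent of `U`. -/
theorem pow_eq_one_of_mem_U {F : Type*} [Field F] {D : ChevalleyDatum} {w : ℕ → ℕ} {c B : ℕ}
    (hD : triOKw D w c = true) (hB : ∀ i, htWt D w c i < B) (p : ℕ) [Fact p.Prime] [CharP F p] {k : ℕ}
    (hk : B ≤ p ^ k) {u : GL D.Idx F} (hu : u ∈ D.posUnipotent F) : u ^ (p ^ k) = 1 := by
  have h1 : Filt (htWt D w c) 1 ((u : Matrix D.Idx D.Idx F) - 1) := posUnipotent_le_unitri_w hD hB hu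
  have h2 : ((u : Matrix D.Idx D.Idx F) - 1) ^ (p ^ k) = 0 := by
    apply Filt.eq_zero hB
    exact (h1.pow (p ^ k)).mono (by omega)
  rcases isEmpty_or_nonempty D.Idx with hne | hne
  · apply Units.ext
    exact Subsingleton.elim _ _
  have : CharP (Matrix D.Idx D.Idx F) p := Matrix.charP p
  rw [sub_pow_char_pow_of_commute p k (Commute.one_right _), one_pow, sub_eq_zero] at h2
  apply Units.ext
  rw [Units.val_pow_eq_pow_val, h2, Units.val_one]

end Cfsg.Agent.Lib.Helper18
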