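import Cfsg.Agent.Lib.Helper18.ChevWeylCox

set_option autoImplicit false

/-! The orders of the products of two simple reflections (table check). -/

namespace Cfsg.Agent.Lib.Helper18

open Cfsg.Lie Matrix

variable {D : ChevalleyDatum}

/-- iteration by `Nat.rec`. -/
def iterB (k : ℕ) (f : ℕ → ℕ) (x : ℕ) : ℕ := Nat.rec x (fun _ y => f y) k

lemma iterB_succ (k : ℕ) (f : ℕ → ℕ) (x : ℕ) : iterB (k + 1) f x = f (iterB k f x) := rfl

/-- the check: `Mt` is the table of the orders of `w_i w_j`. -/
def ordB (T n l Mt : ℕ) : Bool :=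
  allB l fun i => allB l fun j =>
    band (Nat.blt 0 (lk Mt l i j))
    (band (allB n fun r => Nat.beq (iterB (lk Mt l i j) (fun x => lk T n i (lk T n j x)) r) r)
      (allB (lk Mt l i j) fun k => bor (Nat.beq k 0)
        (anyB n fun r => !(Nat.beq (iterB k (fun x => lk T n i (lk T n j x)) r) r))))

theorem refl_eq_of_agree {S T : ℕ} (h1 : agreeB D S T = true) :
    ∀ i r, i < D.rank → r < D.nroots → D.reflectRoot i r = lk T D.nroots i r := by
  simp only [agreeB, band_eq_true, allB_iff, nbeq_iff, beq_iff_eq] at h1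
  exact fun i r hi hr => (h1.2 i hi).2 r hr

theorem orderOf_of_check {S T Mt : ℕ} (hT : Tab D) (h1 : agreeB D S T = true)
    (h2 : ordB T D.nroots D.rank Mt = true) (i j : Fin D.rank) :
    orderOf (reflPerm hT i * reflPerm hT j) = lk Mt D.rank i j := by
  have hR := refl_eq_of_agree h1
  simp only [ordB, band_eq_true, bor_eq_true, allB_iff, anyB_iff, nbeq_iff, blt_iff,
    Bool.not_eq_true', nbeq_false_iff] at h2
  obtain ⟨h0, ha, hb⟩ := h2 i i.2 j j.2
  have key : ∀ (k : ℕ) (r : Fin D.nroots),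
      ((((reflPerm hT i * reflPerm hT j) ^ k) r : Fin D.nroots) : ℕ) =
        iterB k (fun x => lk T D.nroots i (lk T D.nroots j x)) r := by
    intro k r
    induction k with
    | zero => rfl
    | succ k ih =>
      rw [pow_succ', Equiv.Perm.mul_apply, Equiv.Perm.mul_apply, reflPerm_apply, reflPerm_apply,
        iterB_succ, ← ih, hR j _ j.2 (Fin.is_lt _), hR i _ i.2]
      rw [← hR j _ j.2 (Fin.is_lt _)]
      exact hT.refl_lt j _ j.2 (Fin.is_lt _)
  rw [orderOf_eq_iff h0]
  constructor
  · ext r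
    rw [key, ha r r.2]
    rfl
  · intro m hm hm0 h
    rcases hb m hm with h3 | ⟨r, hr, h3⟩
    · omega
    · apply h3
      rw [← key m ⟨r, hr⟩, h]
      rfl

end Cfsg.Agent.Lib.Helper18
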