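import Cfsg.Agent.Lib.Helper54.Dihedral

set_option autoImplicit false

/-! Two involutions whose product has order `n ≥ 3` generate a dihedral group of order `2n`. -/

namespace Cfsg.Agent.Lib.Helper18

open DihedralGroup Cfsg.Agent.Lib.Helper54

theorem nonempty_closure_equiv_dihedral {G : Type*} [Group G] (x y : G) (n : ℕ) (hn : 3 ≤ n)
    (hx : x * x = 1) (hy : y * y = 1) (hxy : orderOf (x * y) = n) :
    Nonempty (↥(Subgroup.closure ({x, y} : Set G)) ≃* DihedralGroup n) := by
  have hm : NeZero n := ⟨by omega⟩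
  set a := x * y with ha
  have hxi : x⁻¹ = x := inv_eq_of_mul_eq_one_left hx
  have hyi : y⁻¹ = y := inv_eq_of_mul_eq_one_left hy
  have hax : x * a * x⁻¹ = a⁻¹ := by
    rw [ha, mul_inv_rev, hxi, hyi, ← mul_assoc, hx, one_mul]
  have hxa : x ∉ Subgroup.zpowers a := by
    intro h
    obtain ⟨k, hk⟩ := Subgroup.mem_zpowers_iff.mp h
    have hc : x * a = a * x := by rw [← hk, ← zpow_add_one, ← zpow_one_add, add_comm]
    have h2 : a = a⁻¹ := by rw [← hax, hc, mul_inv_cancel_right]
    have h3 : a ^ 2 = 1 := by rw [sq]; nth_rewrite 1 [h2]; exact inv_mul_cancel a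
    have h4 := orderOf_dvd_of_pow_eq_one h3
    rw [hxy] at h4
    have := Nat.le_of_dvd (by norm_num) h4
    omega
  let f : DihedralGroup n →* G := MonoidHom.mk' (dihedralMap a x) (dihedralMap_mul a x hxy hx hax)
  have hinj : Function.Injective f := by
    rw [injective_iff_map_eq_one]
    intro u hu
    rcases u with i | i
    · change a ^ i.val = 1 at hu
      have h1 : orderOf a ∣ i.val := orderOf_dvd_of_pow_eq_one hu
      rw [hxy] at h1
      have h2 : i.val = 0 := Nat.eq_zero_of_dvd_of_lt h1 (ZMod.val_lt i)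
      rw [ZMod.val_eq_zero] at h2
      rw [h2]; rfl
    · exfalso
      change x * a ^ i.val = 1 at hu
      apply hxa
      rw [eq_inv_of_mul_eq_one_left hu]
      exact Subgroup.inv_mem _ (Subgroup.pow_mem _ (Subgroup.mem_zpowers a) _)
  have hrange : f.range = Subgroup.closure ({x, y} : Set G) := by
    have hxm : x ∈ Subgroup.closure ({x, y} : Set G) := Subgroup.subset_closure (by simp)
    have hym : y ∈ Subgroup.closure ({x, y} : Set G) := Subgroup.subset_closure (by simp)
    apply le_antisymm
    · rintro _ ⟨u, rfl⟩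
      rcases u with i | i
      · exact Subgroup.pow_mem _ (mul_mem hxm hym) _
      · exact mul_mem hxm (Subgroup.pow_mem _ (mul_mem hxm hym) _)
    · rw [Subgroup.closure_le]
      rintro g (rfl | rfl)
      · refine ⟨sr 0, ?_⟩
        change g * a ^ (0 : ZMod n).val = g
        rw [ZMod.val_zero, pow_zero, mul_one]
      · refine ⟨sr 1, ?_⟩
        change x * a ^ (1 : ZMod n).val = g
        have : Fact (1 < n) := ⟨by omega⟩
        rw [ZMod.val_one, pow_one, ha, ← mul_assoc, hx, one_mul]
  exact ⟨((MonoidHom.ofInjective hinj).trans (MulEquiv.subgroupCongr hrange)).symm⟩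

end Cfsg.Agent.Lib.Helper18
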