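import Cfsg.Agent.Lib.Helper18.ChevTab
import Cfsg.Agent.Lib.Helper18.InvCount

set_option autoImplicit false

/-! Enumerating a permutation group given by generators, with packed codes of permutations. -/

namespace Cfsg.Agent.Lib.Helper18

lemma byte_eq (x r : ℕ) : byte x r = x / 256 ^ r % 256 := by
  unfold byte
  show (x >>> (8 * r)) &&& 255 = _
  rw [Nat.shiftRight_eq_div_pow, pow_mul]
  exact Nat.and_two_pow_sub_one_eq_mod _ 8

/-- `Σ_{i<n} f (k+i) 256^i`. -/
def packA (f : ℕ → ℕ) : ℕ → ℕ → ℕ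
  | _, 0 => 0
  | k, n + 1 => Nat.add (f k) (Nat.mul 256 (packA f (Nat.succ k) n))

lemma byte_packA (f : ℕ → ℕ) : ∀ (n k i : ℕ), (∀ j, j < n → f (k + j) < 256) → i < n →
    byte (packA f k n) i = f (k + i) := by
  intro n
  induction n with
  | zero => intro k i _ hi; omega
  | succ n ih =>
    intro k i hf hi
    have h0 : f k < 256 := hf 0 (by omega)
    show byte (f k + 256 * packA f (k + 1) n) i = _
    rcases i with _ | i
    · rw [byte_eq, pow_zero, Nat.div_one, Nat.add_mul_mod_self_left, Nat.mod_eq_of_lt h0]; rfl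
    · have h1 := ih (k + 1) i (fun j hj => by
        have := hf (j + 1) (by omega)
        rwa [show k + 1 + j = k + (j + 1) by omega]) (by omega)
      rw [byte_eq] at h1 ⊢
      rw [pow_succ', ← Nat.div_div_eq_div_mul, Nat.add_mul_div_left _ _ (by norm_num),
        Nat.div_eq_of_lt h0, zero_add, h1]
      congr 1
      omega

lemma packA_congr {f f' : ℕ → ℕ} : ∀ (n k : ℕ), (∀ j, j < n → f (k + j) = f' (k + j)) →
    packA f k n = packA f' k n := by
  intro n
  induction n with
  | zero => intro _ _; rfl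
  | succ n ih =>
    intro k h
    show f k + 256 * packA f (k + 1) n = f' k + 256 * packA f' (k + 1) n
    have h0 : f k = f' k := h 0 (by omega)
    rw [h0, ih (k + 1) (fun j hj => by
      have := h (j + 1) (by omega)
      rwa [show k + 1 + j = k + (j + 1) by omega])]

/-- counting. -/
def cntB : ℕ → (ℕ → Bool) → ℕ
  | 0, _ => 0
  | k + 1, f => Nat.add (cntB k f) (cond (f k) 1 0)

lemma cntB_eq (n : ℕ) (f : ℕ → Bool) : cntB n f = ∑ i ∈ Finset.range n, if f i = true then 1 else 0 := by
  induction n with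
  | zero => rfl
  | succ n ih =>
    rw [Finset.sum_range_succ, ← ih]
    show cntB n f + cond (f n) 1 0 = _
    cases f n <;> simp

variable {n : ℕ}

/-- the code of a permutation. -/
def code (π : Equiv.Perm (Fin n)) : ℕ :=
  packA (fun r => if h : r < n then ((π ⟨r, h⟩ : Fin n) : ℕ) else 0) 0 n

lemma byte_code (hn : n ≤ 256) (π : Equiv.Perm (Fin n)) (r : Fin n) : byte (code π) r = (π r : Fin n) := by
  unfold code
  rw [byte_packA _ n 0 r _ r.2]
  · simp
  · intro j hj
    simp only [zero_add, hj, dif_pos]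
    exact lt_of_lt_of_le (π ⟨j, hj⟩).2 hn

lemma code_injective (hn : n ≤ 256) : Function.Injective (code (n := n)) := by
  intro π π' h
  ext r
  rw [← byte_code hn π r, ← byte_code hn π' r, h]

/-- left multiplication on codes. -/
def mulC (n : ℕ) (G : ℕ → ℕ) (x : ℕ) : ℕ := packA (fun r => G (byte x r)) 0 n

lemma code_mul (hn : n ≤ 256) (g π : Equiv.Perm (Fin n)) (G : ℕ → ℕ)
    (hG : ∀ r : Fin n, ((g r : Fin n) : ℕ) = G r) : code (g * π) = mulC n G (code π) := by
  unfold mulC
  conv_lhs => unfold code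
  apply packA_congr
  intro j hj
  simp only [zero_add, hj, dif_pos]
  rw [Equiv.Perm.mul_apply, hG, ← byte_code hn π ⟨j, hj⟩]

/-- the code of the identity. -/
def code1 (n : ℕ) : ℕ := packA (fun r => r) 0 n

lemma code_one : code (1 : Equiv.Perm (Fin n)) = code1 n := by
  unfold code code1
  apply packA_congr
  intro j hj
  simp [hj]

/-- the number of inversions, on codes. -/
def invC (n x : ℕ) : ℕ := cntB n fun r => band (Nat.ble (n / 2) r) (Nat.blt (byte x r) (n / 2))

lemma invc_eq_invC (hn : n ≤ 256) (π : Equiv.Perm (Fin n)) :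
    invc (fun r : Fin n => n / 2 ≤ (r : ℕ)) π = invC n (code π) := by
  unfold invc invC
  rw [cntB_eq, Finset.card_filter, ← Fin.sum_univ_eq_sum_range
    (fun i => if band (Nat.ble (n / 2) i) (Nat.blt (byte (code π) i) (n / 2)) = true then 1 else 0) n]
  apply Finset.sum_congr rfl
  intro r _
  rw [byte_code hn π r]
  simp only [band_eq_true, Nat.ble_eq, blt_iff, not_le]

/-- membership in a list of codes. -/
def memB (x : ℕ) (xs : List ℕ) : Bool := xs.any fun y => Nat.beq x y

lemma memB_iff {x : ℕ} {xs : List ℕ} : memB x xs = true ↔ x ∈ xs := by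
  unfold memB
  rw [List.any_eq_true]
  constructor
  · rintro ⟨y, hy, e⟩
    rw [nbeq_iff.mp e]; exact hy
  · intro h
    exact ⟨x, h, nbeq_iff.mpr rfl⟩

/-- the check: the list contains the identity, is stable under the generators, and every element other than the
identity has a descent. -/
def enumB (n m : ℕ) (Gf : ℕ → ℕ → ℕ) (xs : List ℕ) : Bool :=
  band (memB (code1 n) xs) (xs.all fun x =>
    band (allB m fun k => memB (mulC n (Gf k) x) xs)
      (bor (Nat.beq x (code1 n)) (anyB m fun k =>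
        band (Nat.blt (invC n (mulC n (Gf k) x)) (invC n x))
          (Nat.beq (mulC n (Gf k) (mulC n (Gf k) x)) x))))

open Classical in
theorem sum_closure_enum (hn : n ≤ 256) (m : ℕ) (g : ℕ → Equiv.Perm (Fin n)) (Gf : ℕ → ℕ → ℕ)
    (hg : ∀ k, k < m → ∀ r : Fin n, ((g k r : Fin n) : ℕ) = Gf k r)
    (hinv : ∀ k, k < m → g k * g k = 1) (xs : List ℕ) (hchk : enumB n m Gf xs = true)
    (hnd : xs.Nodup) (F : ℕ → ℕ) :
    ∑ π ∈ Finset.univ.filter (fun π : Equiv.Perm (Fin n) =>
        π ∈ Subgroup.closure {s | ∃ k, k < m ∧ s = g k}),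
      F (invc (fun r : Fin n => n / 2 ≤ (r : ℕ)) π) = (xs.map fun x => F (invC n x)).sum := by
  simp only [enumB, band_eq_true, bor_eq_true, List.all_eq_true, allB_iff, anyB_iff, memB_iff,
    nbeq_iff, blt_iff] at hchk
  obtain ⟨h1, h2⟩ := hchk
  have ha : ∀ π ∈ Subgroup.closure {s | ∃ k, k < m ∧ s = g k}, code π ∈ xs := by
    intro π hπ
    induction hπ using Subgroup.closure_induction_left with
    | one => rw [code_one]; exact h1
    | mul_left s hs y _ ih =>
      obtain ⟨k, hk, rfl⟩ := hs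
      rw [code_mul hn (g k) y (Gf k) (hg k hk)]
      exact (h2 _ ih).1 k hk
    | inv_mul_cancel s hs y _ ih =>
      obtain ⟨k, hk, rfl⟩ := hs
      have : (g k)⁻¹ = g k := inv_eq_of_mul_eq_one_left (hinv k hk)
      rw [this, code_mul hn (g k) y (Gf k) (hg k hk)]
      exact (h2 _ ih).1 k hk
  have hb : ∀ (N : ℕ) (x : ℕ), x ∈ xs → invC n x = N →
      ∃ π ∈ Subgroup.closure {s | ∃ k, k < m ∧ s = g k}, code π = x := by
    intro N
    induction N using Nat.strong_induction_on with
    | _ N ih =>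
      intro x hx hN
      rcases (h2 x hx).2 with e | ⟨k, hk, hlt, e⟩
      · exact ⟨1, one_mem _, by rw [code_one, e]⟩
      · obtain ⟨π', hπ', e'⟩ := ih _ (hN ▸ hlt) _ ((h2 x hx).1 k hk) rfl
        refine ⟨g k * π', mul_mem (Subgroup.subset_closure ⟨k, hk, rfl⟩) hπ', ?_⟩
        rw [code_mul hn (g k) π' (Gf k) (hg k hk), e', e]
  rw [← List.sum_toFinset _ hnd]
  apply Finset.sum_bij (fun π _ => code π)
  · intro π hπ
    exact List.mem_toFinset.mpr (ha π (Finset.mem_filter.mp hπ).2)
  · intro π _ π' _ e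
    exact code_injective hn e
  · intro x hx
    obtain ⟨π, hπ, e⟩ := hb _ x (List.mem_toFinset.mp hx) rfl
    exact ⟨π, Finset.mem_filter.mpr ⟨Finset.mem_univ _, hπ⟩, e⟩
  · intro π _
    rw [invc_eq_invC hn]

/-- a sum of powers as a polynomial. -/
theorem sum_pow_eq (lens : List ℕ) (N q : ℕ) (h : ∀ x ∈ lens, x < N) :
    (lens.map fun x => q ^ x).sum = ∑ k ∈ Finset.range N, lens.count k * q ^ k := by
  rw [Finset.sum_list_map_count]
  simp only [smul_eq_mul]
  apply Finset.sum_subset
  · intro x hx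
    exact Finset.mem_range.mpr (h x (List.mem_toFinset.mp hx))
  · intro x _ hx
    rw [List.count_eq_zero_of_not_mem (fun h' => hx (List.mem_toFinset.mpr h')), zero_mul]

end Cfsg.Agent.Lib.Helper18
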