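import Cfsg.Agent.Lib.Helper18.F4Dih
import Cfsg.Agent.Lib.Helper18.FixOrder
import Cfsg.Agent.Lib.Helper18.PermEnum

set_option autoImplicit false
set_option maxRecDepth 100000

/-! `²F₄(2^(2m+1))`: the order of `U¹` and the sum over `W¹`. -/

namespace Cfsg.Agent.Lib.Helper18

open Cfsg.Lie Matrix Cfsg.Agent.Lib.Helper36 Cfsg.Agent.Lib.Helper17 Cfsg.Agent.Lib.Lead.FixTwist
  Cfsg.Agent.Lib.Lead.ChevSpecial

open Classical in
/-- counting inversions by a list. -/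
lemma invc_wPerm_of_list {D : ChevalleyDatum} (hT : Tab D) (L : List ℕ) (hL : ∀ i ∈ L, i < D.rank) (l : List ℕ)
    (hnd : l.Nodup)
    (h1 : ∀ r < D.nroots, D.IsPosRoot r → D.IsNegRoot (wAct D L r) → r ∈ l)
    (h2 : ∀ r ∈ l, D.IsPosRoot r ∧ D.IsNegRoot (wAct D L r)) :
    invc (fun r : Fin D.nroots => D.IsPosRoot r) (wPerm hT L hL) = l.length := by
  rw [← List.toFinset_card_of_nodup hnd]
  unfold invc
  apply Finset.card_bij (fun (r : Fin D.nroots) _ => (r : ℕ))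
  · intro r hr
    rw [Finset.mem_filter] at hr
    have hneg : D.IsNegRoot (wAct D L r) := by
      rcases hT.pos_or_neg (hT.wAct_lt hL r.2) with h | h
      · exact absurd h hr.2.2
      · exact h
    exact List.mem_toFinset.mpr (h1 r r.2 hr.2.1 hneg)
  · intro r _ r' _ e
    exact Fin.ext e
  · intro r hr
    have hr' := h2 r (List.mem_toFinset.mp hr)
    refine ⟨⟨r, hr'.1.1⟩, ?_, rfl⟩
    rw [Finset.mem_filter]
    exact ⟨Finset.mem_univ _, hr'.1, fun h => hT.not_pos_and_neg h hr'.2⟩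

namespace F4Tw

variable {K : Type*} [Field K] [Fintype K] {m : ℕ} (W : F4Tw K m)

lemma Um_nW {O : List ℕ} (hO : O ∈ orbsF4) : Um chevF4 K (W.X.hB.nW O) = W.X.hB.UmW O := by
  have := W.X.hB.Um_eq_UmW W.X.hT.toTabs (one_mem _) (sTabF4.lt O hO)
  rwa [one_mul] at this

lemma act_nW {O : List ℕ} (hO : O ∈ orbsF4) (hn : W.X.hB.nW O ∈ chevF4.monomialSubgroup K) :
    W.X.act (W.X.hB.nW O) hn = wPerm W.X.hT.tab O (sTabF4.lt O hO) := by
  have := W.X.act_hnW (one_mem _) (sTabF4.lt O hO) (by rw [one_mul]; exact hn)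
  rw [← this]
  exact W.X.act_congr (one_mul _).symm hn

lemma card_pair : Nat.card ↥(W.X.hB.UmW [0, 3] ⊓ W.T.F) = Fintype.card K := by
  rw [← Nat.card_eq_fintype_card]
  symm
  apply Nat.card_congr
  refine Equiv.ofBijective (fun t => ⟨W.X.hB.wg (f4PairWord (2 ^ m) 33 24 t),
    W.pairWord_mem_UmW t, W.pair_mem_F pairPos t⟩) ⟨?_, ?_⟩
  · intro t t' h
    have h1 := congrArg Subtype.val h
    simp only at h1
    rw [← W.coe_pair pairPos, ← W.coe_pair pairPos] at h1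
    exact (W.pair_inj h1).1
  · rintro ⟨u, hu, hf⟩
    obtain ⟨t, rfl⟩ := W.exists_pairWord_of_fixed hu hf
    exact ⟨t, rfl⟩

lemma card_quad : Nat.card ↥(W.X.hB.UmW [1, 2, 1, 2] ⊓ W.T.F) = Fintype.card K ^ 2 := by
  rw [sq, ← Fintype.card_prod, ← Nat.card_eq_fintype_card]
  symm
  apply Nat.card_congr
  refine Equiv.ofBijective (fun t : K × K => ⟨W.X.hB.wg (b2ClassWord (2 ^ m) 27 25 28 30 t.1 t.2),
    W.word_mem_UmW t.1 t.2, W.word_mem_F quadPos t.1 t.2⟩) ⟨?_, ?_⟩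
  · rintro ⟨t, v⟩ ⟨t', v'⟩ h
    have h1 := congrArg Subtype.val h
    simp only at h1
    rw [← W.coe_word quadPos, ← W.coe_word quadPos] at h1
    have h2 := (W.sys quadPos).word_inj W.huniq (Subtype.ext h1)
    rw [h2.1, h2.2]
  · rintro ⟨u, hu, hf⟩
    obtain ⟨t, v, rfl⟩ := W.exists_word_of_fixed hu hf
    exact ⟨(t, v), rfl⟩

open Classical in
lemma hq : ∀ O (hO : O ∈ W.fixBN.orbs), Nat.card ↥(Um chevF4 K (W.fixBN.sO O) ⊓ W.fixBN.F) ^ 2 =
      (Fintype.card K) ^ invc (fun r : Fin chevF4.nroots => chevF4.IsPosRoot r)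
        (W.X.act (W.fixBN.sO O) (W.fixBN.sO_mem_N hO)) := by
  intro O hO
  have hO' : O ∈ orbsF4 := hO
  have e1 : Um chevF4 K (W.fixBN.sO O) = W.X.hB.UmW O := W.Um_nW hO'
  have e2 : W.X.act (W.fixBN.sO O) (W.fixBN.sO_mem_N hO) = wPerm W.X.hT.tab O (sTabF4.lt O hO') :=
    W.act_nW hO' _
  rw [e1, e2]
  simp only [orbsF4, List.mem_cons, List.not_mem_nil, or_false] at hO'
  rcases hO' with rfl | rfl
  · rw [invc_wPerm_of_list W.X.hT.tab [0, 3] _ [24, 33] (by decide) f4_rootsA1 f4_rootsA1']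
    have := W.card_pair
    exact congrArg (· ^ 2) this
  · rw [invc_wPerm_of_list W.X.hT.tab [1, 2, 1, 2] _ [25, 27, 28, 30] (by decide) f4_rootsB2 f4_rootsB2']
    have := W.card_quad
    have h2 : Nat.card ↥(W.X.hB.UmW [1, 2, 1, 2] ⊓ W.T.F) ^ 2 = (Fintype.card K ^ 2) ^ 2 := by rw [this]
    rw [← pow_mul] at h2
    exact h2

include W in
lemma card_U1 : Nat.card ↥(chevF4.posUnipotent K ⊓ twistedF4 K (2 ^ m)) = Fintype.card K ^ 12 := by
  have h := FixB.card_U1_sq W.fixBN W.hq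
  have e : chevF4.nroots / 2 = 12 * 2 := by decide +kernel
  rw [e, pow_mul] at h
  exact Nat.pow_left_injective (n := 2) (by norm_num) h

end F4Tw

end Cfsg.Agent.Lib.Helper18
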