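import Cfsg.Agent.Lib.Helper18.F4Inst3
import Cfsg.Agent.Lib.Helper18.FixCoreInst

set_option autoImplicit false
set_option maxRecDepth 100000

/-! The normal core of `B¹` in `²F₄`. -/

namespace Cfsg.Agent.Lib.Helper18

open Cfsg.Lie Matrix Cfsg.Agent.Lib.Lead.FixTwist

namespace F4Tw

variable {K : Type*} [Field K] [Fintype K] {m : ℕ} (W : F4Tw K m)

lemma exists_wit : ∀ i < chevF4.rank, ∃ u ∈ chevF4.posUnipotent K ⊓ W.G1, u ∉ W.X.hB.Up i := by
  have s0 : chevF4.simple 0 = 33 := by decide +kernel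
  have s1 : chevF4.simple 1 = 27 := by decide +kernel
  have s2 : chevF4.simple 2 = 25 := by decide +kernel
  have s3 : chevF4.simple 3 = 24 := by decide +kernel
  have hp1 : ∀ p ∈ f4PairWord (2 ^ m) 33 24 (1 : K), chevF4.IsPosRoot p.1 := by
    intro p hp
    simp only [f4PairWord, List.mem_cons, List.not_mem_nil, or_false] at hp
    rcases hp with rfl | rfl
    · exact (f4_rootsA1' 33 (by simp)).1
    · exact (f4_rootsA1' 24 (by simp)).1
  have hp2 : ∀ p ∈ b2ClassWord (2 ^ m) 27 25 28 30 (1 : K) 0, chevF4.IsPosRoot p.1 := by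
    intro p hp
    simp only [b2ClassWord, List.mem_cons, List.not_mem_nil, or_false] at hp
    rcases hp with rfl | rfl | rfl | rfl
    · exact (f4_rootsB2' 27 (by simp)).1
    · exact (f4_rootsB2' 25 (by simp)).1
    · exact (f4_rootsB2' 28 (by simp)).1
    · exact (f4_rootsB2' 30 (by simp)).1
  intro i hi
  have hi' : i < 4 := hi
  interval_cases i
  · refine ⟨_, ⟨W.X.hB.wg_mem_U _ hp1, W.pairPos_mem 1⟩, W.X.hB.wg_not_mem_Up W.X.hT hi _ hp1 ?_⟩
    simp [Base.coefW, f4PairWord, s0]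
  · refine ⟨_, ⟨W.X.hB.wg_mem_U _ hp2, W.wordPos_mem 1 0⟩, W.X.hB.wg_not_mem_Up W.X.hT hi _ hp2 ?_⟩
    simp [Base.coefW, b2ClassWord, s1]
  · refine ⟨_, ⟨W.X.hB.wg_mem_U _ hp2, W.wordPos_mem 1 0⟩, W.X.hB.wg_not_mem_Up W.X.hT hi _ hp2 ?_⟩
    simp [Base.coefW, b2ClassWord, s2]
  · refine ⟨_, ⟨W.X.hB.wg_mem_U _ hp1, W.pairPos_mem 1⟩, W.X.hB.wg_not_mem_Up W.X.hT hi _ hp1 ?_⟩
    simp [Base.coefW, f4PairWord, s3]

end F4Tw

theorem normalCore_F4 {K : Type*} [Field K] [Fintype K] {m : ℕ} (hK : Fintype.card K = 2 ^ (2 * m + 1)) :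
    ((chevF4.borelSubgroup K ⊓ twistedF4 K (2 ^ m)).subgroupOf (twistedF4 K (2 ^ m))).normalCore = ⊥ := by
  obtain ⟨W⟩ := exists_F4Tw hK
  exact FixB.normalCore_eq_bot W.fixBN (cartan_neg_of_mem memF4) W.exists_wit

end Cfsg.Agent.Lib.Helper18
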