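import Cfsg.Agent.Lib.Helper18.FixOrder
import Cfsg.Agent.Lib.Helper18.ChevWeylOrd
import Cfsg.Agent.Lib.Helper18.ChevLong
import Cfsg.Agent.S0320

set_option autoImplicit false

/-! `N¹ / H¹` is a Coxeter group (over the interface `FixBN`). -/

namespace Cfsg.Agent.Lib.Helper18

open Cfsg.Lie Matrix Cfsg.Agent.Lib.Helper6 Cfsg.Agent.Lib.Lead.FixTwist

variable {D : ChevalleyDatum} {K : Type*} [Field K]

/-- the order of a permutation given by a function on `ℕ`. -/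
theorem orderOf_of_iter {n : ℕ} (π : Equiv.Perm (Fin n)) (f : ℕ → ℕ)
    (hf : ∀ r : Fin n, ((π r : Fin n) : ℕ) = f r) {m : ℕ} (h0 : 0 < m)
    (ha : ∀ r < n, iterB m f r = r) (hb : ∀ k < m, k = 0 ∨ ∃ r < n, iterB k f r ≠ r) :
    orderOf π = m := by
  have key : ∀ (k : ℕ) (r : Fin n), (((π ^ k) r : Fin n) : ℕ) = iterB k f r := by
    intro k r
    induction k with
    | zero => rfl
    | succ k ih => rw [pow_succ', Equiv.Perm.mul_apply, hf, iterB_succ, ih]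
  rw [orderOf_eq_iff h0]
  constructor
  · ext r
    rw [key, ha r r.2]
    rfl
  · intro k hk hk0 h
    rcases hb k hk with h3 | ⟨r, hr, h3⟩
    · omega
    · apply h3
      rw [← key k ⟨r, hr⟩, h]
      rfl

/-- the check: `w_L w_{L'}` has order `m`. -/
def ordW (T n : ℕ) (L L' : List ℕ) (m : ℕ) : Bool :=
  band (Nat.blt 0 m)
    (band (allB n fun r => Nat.beq (iterB m (fun x => wActT T n L (wActT T n L' x)) r) r)
      (allB m fun k => bor (Nat.beq k 0)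
        (anyB n fun r => !(Nat.beq (iterB k (fun x => wActT T n L (wActT T n L' x)) r) r))))

theorem orderOf_wPerm_mul {S Tt : ℕ} (hT : Tab D) (hA : agreeB D S Tt = true) {L L' : List ℕ}
    (hL : ∀ i ∈ L, i < D.rank) (hL' : ∀ i ∈ L', i < D.rank) {m : ℕ}
    (h : ordW Tt D.nroots L L' m = true) : orderOf (wPerm hT L hL * wPerm hT L' hL') = m := by
  simp only [ordW, band_eq_true, bor_eq_true, allB_iff, anyB_iff, nbeq_iff, blt_iff,
    Bool.not_eq_true', nbeq_false_iff] at h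
  obtain ⟨h0, ha, hb⟩ := h
  apply orderOf_of_iter _ (fun x => wActT Tt D.nroots L (wActT Tt D.nroots L' x)) _ h0 ha hb
  intro r
  rw [Equiv.Perm.mul_apply, wPerm_apply, wPerm_apply, wAct_eq_wActT hT hA hL (hT.wAct_lt hL' r.2),
    wAct_eq_wActT hT hA hL' r.2]

namespace FixB

variable {X : BNData D K} (T : FixBN X)

instance normalT : ((T.bnPair.B ⊓ T.bnPair.N).subgroupOf T.bnPair.N).Normal := by
  constructor
  intro t ht n
  rw [Subgroup.mem_subgroupOf] at ht ⊢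
  exact ⟨T.bnPair.conj_mem n n.2 t ht, (n * t * n⁻¹).2⟩

/-- the action of `N¹` (as the `N` of the pair) on the roots. -/
noncomputable def σN : ↥T.bnPair.N →* Equiv.Perm (Fin D.nroots) where
  toFun n := X.act n.1.1 ((T.mem_N1 n.1).1 n.2)
  map_one' := (X.act_eq_one_iff _).2 (one_mem _)
  map_mul' a b := X.act_mul ((T.mem_N1 a.1).1 a.2) ((T.mem_N1 b.1).1 b.2)

lemma σN_eq_one_iff (w : ↥T.bnPair.N) : σN T w = 1 ↔ (w : ↥T.G1) ∈ T.bnPair.B := by
  show X.act w.1.1 ((T.mem_N1 w.1).1 w.2) = 1 ↔ w.1 ∈ T.B1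
  rw [X.act_eq_one_iff, T.mem_B1, ← X.hB.B_inf_N X.hT.toTabs]
  exact ⟨fun h => h.1, fun h => ⟨h, (T.mem_N1 w.1).1 w.2⟩⟩

noncomputable def σbar :
    (↥T.bnPair.N ⧸ (T.bnPair.B ⊓ T.bnPair.N).subgroupOf T.bnPair.N) →* Equiv.Perm (Fin D.nroots) :=
  QuotientGroup.lift _ (σN T) (by
    intro w hw
    rw [Subgroup.mem_subgroupOf] at hw
    exact (σN_eq_one_iff T w).2 hw.1)

lemma σbar_injective : Function.Injective (σbar T) := by
  rw [injective_iff_map_eq_one]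
  intro w hw
  induction w using QuotientGroup.induction_on with | H n => ?_
  have h1 : σN T n = 1 := hw
  rw [QuotientGroup.eq_one_iff, Subgroup.mem_subgroupOf]
  exact ⟨(σN_eq_one_iff T n).1 h1, n.2⟩

/-- `N ⊓ G¹` into the `N` of the pair. -/
def ιN : ↥(D.monomialSubgroup K ⊓ T.G1) →* ↥T.bnPair.N where
  toFun n := ⟨⟨n.1, n.2.2⟩, (T.mem_N1 _).2 n.2.1⟩
  map_one' := rfl
  map_mul' _ _ := rfl

lemma ιN_surjective : Function.Surjective (ιN T) :=
  fun w => ⟨⟨w.1.1, (T.mem_N1 w.1).1 w.2, w.1.2⟩, rfl⟩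

theorem exists_cox_hom {ι : Type*} (o : ι → List ℕ) (ho : ∀ i, o i ∈ T.orbs)
    (hinj : Function.Injective o) (hsurj : ∀ O ∈ T.orbs, ∃ i, o i = O) (M : CoxeterMatrix ι)
    (hM : ∀ i j : ι, orderOf (wPerm X.hT.tab (o i) (T.orb_lt _ (ho i)) *
      wPerm X.hT.tab (o j) (T.orb_lt _ (ho j))) = M i j) :
    ∃ φ : ↥(D.monomialSubgroup K ⊓ T.G1) →* M.Group, Function.Surjective φ ∧
      φ.ker = (D.diagonalSubgroup K ⊓ T.G1).subgroupOf (D.monomialSubgroup K ⊓ T.G1) := by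
  let P := T.bnPair
  have h := Cfsg.Agent.S0320.hyp P
  let sG : ι → ↥T.G1 := fun i => ⟨T.sO (o i), T.sO_mem _ (ho i)⟩
  have hsS : ∀ i, sG i ∈ P.S := fun i => ⟨o i, ho i, rfl⟩
  let eS : ι ≃ P.S := Equiv.ofBijective (fun i => ⟨sG i, hsS i⟩) (by
    constructor
    · intro i j hij
      have h1 : T.sO (o i) = T.sO (o j) := congrArg (fun s : P.S => ((s : ↥T.G1) : GL D.Idx K)) hij
      apply hinj
      apply T.orb_inj _ (ho i) _ (ho j)
      intro r hr
      have h2 := T.act_sO (ho i)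
      have h3 := T.act_sO (ho j)
      have h4 : X.act (T.sO (o i)) (T.sO_mem_N (ho i)) = X.act (T.sO (o j)) (T.sO_mem_N (ho j)) :=
        X.act_congr h1 _
      rw [h2, h3] at h4
      exact congrArg (fun π : Equiv.Perm (Fin D.nroots) => ((π ⟨r, hr⟩ : Fin D.nroots) : ℕ)) h4
    · rintro ⟨s, O, hO, e⟩
      obtain ⟨i, rfl⟩ := hsurj O hO
      exact ⟨i, Subtype.ext (Subtype.ext e.symm)⟩)
  have hσ : ∀ i, σbar T (Cfsg.Agent.S0320.fW P (eS i)) = wPerm X.hT.tab (o i) (T.orb_lt _ (ho i)) :=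
    fun i => T.act_sO (ho i)
  let cs0 : CoxeterSystem h.mat (↥P.N ⧸ (P.B ⊓ P.N).subgroupOf P.N) :=
    h.mat.toCoxeterSystem.map (MulEquiv.ofBijective h.phi h.phi_bijective)
  have hmat : h.mat.reindex eS.symm = M := by
    ext i j
    rw [CoxeterMatrix.reindex_apply, Equiv.symm_symm, h.mat_apply, ← hM,
      ← orderOf_injective (σbar T) (σbar_injective T), map_mul, hσ, hσ]
  let cs1 : CoxeterSystem (h.mat.reindex eS.symm) (↥P.N ⧸ (P.B ⊓ P.N).subgroupOf P.N) :=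
    cs0.reindex eS.symm
  clear_value cs1
  revert cs1
  rw [hmat]
  intro cs1
  refine ⟨cs1.mulEquiv.toMonoidHom.comp ((QuotientGroup.mk' _).comp (ιN T)), ?_, ?_⟩
  · exact cs1.mulEquiv.surjective.comp ((QuotientGroup.mk'_surjective _).comp (ιN_surjective T))
  · ext n
    rw [MonoidHom.mem_ker, Subgroup.mem_subgroupOf]
    show cs1.mulEquiv (QuotientGroup.mk (ιN T n)) = 1 ↔ _
    rw [map_eq_one_iff _ cs1.mulEquiv.injective, QuotientGroup.eq_one_iff,
      Subgroup.mem_subgroupOf, ← X.hB.B_inf_N X.hT.toTabs]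
    constructor
    · intro h1
      exact ⟨⟨(T.mem_B1 _).1 h1.1, n.2.1⟩, n.2.2⟩
    · intro h1
      exact ⟨(T.mem_B1 _).2 h1.1.1, (ιN T n).2⟩

end FixB

end Cfsg.Agent.Lib.Helper18
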