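import Cfsg.Agent.Lib.Helper18.F4Inst3
import Cfsg.Agent.Lib.Helper18.FixCox
import Cfsg.Agent.Lib.Helper18.DihClosure

set_option autoImplicit false
set_option maxRecDepth 100000

/-! `N¹ / H¹` of `²F₄` is dihedral of order 16. -/

namespace Cfsg.Agent.Lib.Helper18

open Cfsg.Lie Matrix Cfsg.Agent.Lib.Lead.FixTwist

theorem wPerm_mul_self_of {D : ChevalleyDatum} (hT : Tab D) (L : List ℕ) (hL : ∀ i ∈ L, i < D.rank)
    (h : ∀ r, r < D.nroots → wAct D L (wAct D L r) = r) : wPerm hT L hL * wPerm hT L hL = 1 := by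
  ext r
  exact h r r.2

theorem ordWF4 : ordW reflTF4 48 [0, 3] [1, 2, 1, 2] 8 = true := by decide +kernel

namespace F4Tw

variable {K : Type*} [Field K] [Fintype K] {m : ℕ} (W : F4Tw K m)

/-- the two generators of `W¹`. -/
noncomputable def w1 : Equiv.Perm (Fin chevF4.nroots) := wPerm W.X.hT.tab [0, 3] (sTabF4.lt _ (by simp [orbsF4]))
noncomputable def w2 : Equiv.Perm (Fin chevF4.nroots) :=
  wPerm W.X.hT.tab [1, 2, 1, 2] (sTabF4.lt _ (by simp [orbsF4]))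

lemma W1gens_eq : FixB.W1gens W.fixBN = {W.w1, W.w2} := by
  ext π
  constructor
  · rintro ⟨O, hO, rfl⟩
    have hO' : O ∈ orbsF4 := hO
    simp only [orbsF4, List.mem_cons, List.not_mem_nil, or_false] at hO'
    rcases hO' with rfl | rfl
    · exact Or.inl rfl
    · exact Or.inr rfl
  · rintro (rfl | rfl)
    · exact ⟨[0, 3], by show [0, 3] ∈ orbsF4; simp [orbsF4], rfl⟩
    · exact ⟨[1, 2, 1, 2], by show [1, 2, 1, 2] ∈ orbsF4; simp [orbsF4], rfl⟩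

lemma w1_sq : W.w1 * W.w1 = 1 :=
  wPerm_mul_self_of _ _ _ (sTabF4.orb_sq [0, 3] (by simp [orbsF4]))

lemma w2_sq : W.w2 * W.w2 = 1 :=
  wPerm_mul_self_of _ _ _ (sTabF4.orb_sq [1, 2, 1, 2] (by simp [orbsF4]))

lemma orderOf_w1w2 : orderOf (W.w1 * W.w2) = 8 := orderOf_wPerm_mul _ agreeF4 _ _ ordWF4

end F4Tw

theorem exists_dih_F4 {K : Type*} [Field K] [Fintype K] {m : ℕ} (hK : Fintype.card K = 2 ^ (2 * m + 1)) :
    ∃ φ : ↥(chevF4.monomialSubgroup K ⊓ twistedF4 K (2 ^ m)) →* DihedralGroup 8, Function.Surjective φ ∧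
      φ.ker = (chevF4.diagonalSubgroup K ⊓ twistedF4 K (2 ^ m)).subgroupOf
        (chevF4.monomialSubgroup K ⊓ twistedF4 K (2 ^ m)) := by
  obtain ⟨W⟩ := exists_F4Tw hK
  obtain ⟨e⟩ := nonempty_closure_equiv_dihedral W.w1 W.w2 8 (by norm_num) W.w1_sq W.w2_sq W.orderOf_w1w2
  rw [← W.W1gens_eq] at e
  exact FixB.exists_hom_of_equiv W.fixBN e

end Cfsg.Agent.Lib.Helper18
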