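import Cfsg.Agent.Lib.Helper18.F4H

set_option autoImplicit false
set_option maxRecDepth 100000

/-! The order of `²F₄(2^(2m+1))`. -/

namespace Cfsg.Agent.Lib.Helper18

open Cfsg.Lie Matrix Cfsg.Agent.Lib.Helper6 Cfsg.Agent.Lib.Lead.FixTwist

lemma invc_congr' {R : Type*} [Fintype R] [DecidableEq R] {Pos Pos' : R → Prop} [DecidablePred Pos]
    [DecidablePred Pos'] (h : ∀ r, Pos r ↔ Pos' r) (π : Equiv.Perm R) : invc Pos π = invc Pos' π := by
  unfold invc
  congr 1
  ext r
  simp [h]

namespace FixB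

variable {D : ChevalleyDatum} {K : Type*} [Field K] {X : BNData D K} (T : FixBN X)

open Classical in
theorem sum_W1 {S Tt : ℕ} (hA : agreeB D S Tt = true) (hn : D.nroots ≤ 256) (xs : List ℕ)
    (hchk : enumB D.nroots T.orbs.length (fun k => wActT Tt D.nroots (T.orbs.getD k [])) xs = true)
    (hnd : xs.Nodup) (F : ℕ → ℕ) :
    ∑ π ∈ Finset.univ.filter (fun π : Equiv.Perm (Fin D.nroots) => π ∈ Subgroup.closure (W1gens T)),
      F (invc (fun r : Fin D.nroots => D.IsPosRoot r) π) = (xs.map fun x => F (invC D.nroots x)).sum := by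
  have hTt := X.hT.tab
  set g : ℕ → Equiv.Perm (Fin D.nroots) := fun k =>
    if h : k < T.orbs.length then wPerm hTt (T.orbs[k]) (T.orb_lt _ (List.getElem_mem h)) else 1 with hg
  have hgk : ∀ k (h : k < T.orbs.length),
      g k = wPerm hTt (T.orbs[k]) (T.orb_lt _ (List.getElem_mem h)) := by
    intro k h
    simp only [hg, dif_pos h]
  have hW : W1gens T = {s | ∃ k, k < T.orbs.length ∧ s = g k} := by
    ext s
    constructor
    · rintro ⟨O, hO, rfl⟩
      obtain ⟨k, hk, rfl⟩ := List.mem_iff_getElem.mp hO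
      exact ⟨k, hk, (hgk k hk).symm⟩
    · rintro ⟨k, hk, rfl⟩
      exact ⟨T.orbs[k], List.getElem_mem hk, hgk k hk⟩
  rw [hW, ← sum_closure_enum hn T.orbs.length g _ ?_ ?_ xs hchk hnd F]
  · apply Finset.sum_congr rfl
    intro π _
    exact congrArg F (invc_congr' (fun r : Fin D.nroots => hTt.pos_iff r r.2) π)
  · intro k hk r
    rw [hgk k hk, wPerm_apply, wAct_eq_wActT hTt hA (T.orb_lt _ (List.getElem_mem hk)) r.2,
      List.getD_eq_getElem _ _ hk]
  · intro k hk
    rw [hgk k hk]
    ext r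
    exact T.orb_sq _ (List.getElem_mem hk) r r.2

end FixB

def enumF4 : List ℕ := [0x102030405060708090a0b0c0d0e0f101112131415161718191a1b1c1d1e1f202122232425262728292a2b2c2d2e2f,
  0x504030201060b09080e070d0c0a17151e121c1b10190f20161f14131d111a182523222821272624292e2d2c2b2a2f,
  0x10002070f111003080a09131214210406050c0b0d161518171a192224232a292b0e1b1d1c2625272c1f1e20282d2f2e,
  0x1110f07020010130a08210314120918162a0c2422061a042b15290d0b23051917261d1b2c0e27251c1f2f2d28201e2e,
  0x500040b171e1503090e081c121b250206010d070c1910200f1f162328222e292d0a141d132721262c1a1118242b2f2a,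
  0x51e170b0400151c0e0925031b120820192e0d2823061f022d10290c072201160f271d142c0a2621131a2f2b2418112a,
  0x11010f13182a16070a2108240c22260210001403121a062b0429151d2c1b2f1f2d090d230b270e25281905171c202e1e,
  0x112a18130f011624210a2607220c082b1a2f142c1d1029022d061f12031b00150427230d2809250e0b192e201c17051e,
  0x1e05171c202e190b0e2509280d23270415001b03121f062d0229101d2c142f1a2b080c2207260a212416010f13182a11,
  0x1e2e201c17051928250e270b230d092d1f2f1b2c1d1529042b061a12031400100226220c2408210a07162a18130f0111,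
  0x2a1118242b2f1a1321260a2c141d270f160122070c29102d021f0623280d2e192008121b0325090e1c1500040b171e05,
  0x2a2f2b2418111a2c262127131d140a2d292e222823161f0f2010190c070d010602251b121c080e0903151e170b040005,
  0x2e1e20282d2f1f1c25270e2c1b1d26171905230b0d29152b041a0622240c2a16180912140321080a13100002070f1101,
  0x2e2f2d28201e1f2c2725261c1d1b0e2b292a232422191a171815160d0b0c05060421141213090a080310110f07020001,
  0x2f2a2b2c2d2e292426272128222325181a111d13141f16200f19101b1c121e15170a0c0d070e08090b06010203040500,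
  0x2f2e2d2c2b2a292827262524232221201f1e1d1c1b1a191817161514131211100f0e0d0c0b0a09080706050403020100]

def lensF4 : List ℕ := [24, 20, 22, 18, 18, 14, 16, 12, 12, 8, 10, 6, 6, 2, 4, 0]

theorem enumF4_chk : enumB 48 2 (fun k => wActT reflTF4 48 (orbsF4.getD k [])) enumF4 = true := by
  decide +kernel

theorem enumF4_nodup : enumF4.Nodup := by decide +kernel

theorem enumF4_lens : enumF4.map (invC 48) = lensF4 := by decide +kernel

namespace F4Tw

variable {K : Type*} [Field K] [Fintype K] {m : ℕ} (W : F4Tw K m)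

include W in
theorem card_G1 : Nat.card ↥(twistedF4 K (2 ^ m)) =
    Fintype.card K ^ 12 * (Fintype.card K - 1) ^ 2 *
      ((1 + Fintype.card K) * (1 + Fintype.card K ^ 2) * (1 + Fintype.card K ^ 3) * (1 + Fintype.card K ^ 6)) := by
  classical
  have h := FixB.card_G1_sq W.fixBN W.hq
  set q := Fintype.card K with hq
  have h2 := FixB.sum_W1 W.fixBN agreeF4 (by decide) enumF4 enumF4_chk enumF4_nodup (fun k => Nat.sqrt (q ^ k))
  have h3 : (enumF4.map fun x => Nat.sqrt (q ^ invC chevF4.nroots x)) = lensF4.map fun k => Nat.sqrt (q ^ k) := by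
    rw [← enumF4_lens, List.map_map]; rfl
  rw [h3] at h2
  have hs : ∀ k, Nat.sqrt (q ^ (2 * k)) = q ^ k := by
    intro k
    rw [mul_comm, pow_mul, sq, Nat.sqrt_eq]
  have e : chevF4.nroots / 2 = 2 * 12 := by decide +kernel
  have h4 : Nat.card ↥(twistedF4 K (2 ^ m)) = _ := h
  have h5 : Nat.card ↥(chevF4.diagonalSubgroup K ⊓ W.fixBN.G1) = (q - 1) ^ 2 := W.card_H1
  have h6 : lensF4 = [12, 10, 11, 9, 9, 7, 8, 6, 6, 4, 5, 3, 3, 1, 2, 0].map fun k => 2 * k := by decide
  have h7 : (lensF4.map fun k => Nat.sqrt (q ^ k)).sum =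
      (1 + q) * (1 + q ^ 2) * (1 + q ^ 3) * (1 + q ^ 6) := by
    rw [h6, List.map_map]
    simp only [List.map_cons, List.map_nil, List.sum_cons, List.sum_nil, Function.comp, hs]
    ring
  rw [h4, h2, e, hs, h5, h7]

end F4Tw

end Cfsg.Agent.Lib.Helper18
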