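import Cfsg.Agent.Lib.Helper18.ChevHt
import Cfsg.Agent.Lib.Helper18.F4Order

set_option autoImplicit false
set_option maxRecDepth 100000

/-! The exponent of a Sylow 2-subgroup of `²F₄(q)` divides 32. -/

namespace Cfsg.Agent.Lib.Helper18

open Cfsg.Lie Matrix Cfsg.Agent.Lib.Helper17
open scoped Pointwise

/-- `11 +` the height of a root of `F₄`. -/
def htF4 : List ℕ := [0, 1, 2, 3, 4, 5, 6, 4, 5, 6, 7, 7, 8, 9, 10, 6, 7, 8, 8, 9, 10, 9, 10, 10, 12, 12, 13, 12, 13, 14, 14, 15, 16, 12, 13, 14, 15, 15, 16, 17, 18, 16, 17, 18, 19, 20, 21, 22]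

theorem triOKw_F4 : triOKw chevF4 (fun s => htF4.getD s 0) 11 = true := by decide +kernel

theorem htF4_lt : ∀ s < chevF4.nroots, htF4.getD s 0 < 23 := by decide +kernel

lemma htWt_F4_lt : ∀ i, htWt chevF4 (fun s => htF4.getD s 0) 11 i < 23 := by
  rintro (i | s)
  · show 11 < 23
    norm_num
  · exact htF4_lt s s.2

theorem pow_32_of_mem_U {K : Type*} [Field K] [CharP K 2] {u : GL chevF4.Idx K}
    (hu : u ∈ chevF4.posUnipotent K) : u ^ 32 = 1 := by
  have : Fact (Nat.Prime 2) := ⟨Nat.prime_two⟩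
  exact pow_eq_one_of_mem_U triOKw_F4 htWt_F4_lt 2 (k := 5) (by norm_num) hu

/-- the exponent of the `p`-elements from a Sylow subgroup. -/
theorem pow_eq_one_of_pElement {G : Type*} [Group G] [Finite G] {p : ℕ} [Fact p.Prime] (P : Subgroup G)
    (hP : IsPGroup p P) (hidx : ¬ p ∣ P.index) {n : ℕ} (hexp : ∀ u ∈ P, u ^ n = 1) {x : G}
    (hx : ∃ j : ℕ, orderOf x = p ^ j) : x ^ n = 1 := by
  obtain ⟨j, hj⟩ := hx
  have hz : IsPGroup p (Subgroup.zpowers x) := IsPGroup.of_card (n := j) (by rw [Nat.card_zpowers, hj])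
  obtain ⟨Q, hQ⟩ := hz.exists_le_sylow
  obtain ⟨g, hg⟩ := MulAction.exists_smul_eq G Q (hP.toSylow hidx)
  have h1 : MulAut.conj g • x ∈ MulAut.conj g • (Q : Subgroup G) :=
    Subgroup.smul_mem_pointwise_smul x (MulAut.conj g) Q (hQ (Subgroup.mem_zpowers x))
  have h2 : MulAut.conj g • (Q : Subgroup G) = P := by
    have := congrArg (fun S : Sylow p G => (S : Subgroup G)) hg
    exact this
  rw [h2] at h1
  have h3 := hexp _ h1
  have h4 : MulAut.conj g • x = g * x * g⁻¹ := rfl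
  rw [h4, conj_pow] at h3
  have h5 : x ^ n = g⁻¹ * (g * x ^ n * g⁻¹) * g := by group
  rw [h5, h3]
  group

namespace F4Tw

variable {K : Type*} [Field K] [Fintype K] {m : ℕ} (W : F4Tw K m)

include W in
theorem pow_32 (x : ↥(twistedF4 K (2 ^ m))) (hx : ∃ j : ℕ, orderOf x = 2 ^ j) : x ^ 32 = 1 := by
  have : Fact (Nat.Prime 2) := ⟨Nat.prime_two⟩
  have := W.char2
  set P : Subgroup ↥(twistedF4 K (2 ^ m)) :=
    (chevF4.posUnipotent K ⊓ twistedF4 K (2 ^ m)).subgroupOf (twistedF4 K (2 ^ m)) with hP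
  have hcard : Nat.card ↥P = Fintype.card K ^ 12 := by
    rw [← W.card_U1]
    exact Nat.card_congr (Subgroup.subgroupOfEquivOfLe inf_le_right).toEquiv
  have hPp : IsPGroup 2 ↥P := IsPGroup.of_card (n := (2 * m + 1) * 12) (by rw [hcard, W.hK, pow_mul])
  have hidx : ¬ 2 ∣ P.index := by
    have h1 := P.card_mul_index
    rw [hcard, W.card_G1, mul_assoc] at h1
    have hpos : 0 < Fintype.card K ^ 12 := pow_pos Fintype.card_pos 12
    have h2 := Nat.eq_of_mul_eq_mul_left hpos h1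
    rw [h2, W.hK]
    set q := 2 ^ (2 * m + 1) with hq
    have he : Even q := ⟨2 ^ (2 * m), by rw [hq, pow_succ]; ring⟩
    have hq1 : 1 ≤ q := Nat.one_le_two_pow
    have ho : Odd (q - 1) := Nat.Even.sub_odd hq1 he odd_one
    have hk : ∀ k, k ≠ 0 → Odd (1 + q ^ k) := fun k hk => odd_one.add_even (he.pow_of_ne_zero hk)
    have h3 : Odd ((q - 1) ^ 2 * ((1 + q) * (1 + q ^ 2) * (1 + q ^ 3) * (1 + q ^ 6))) := by
      have := hk 1 one_ne_zero
      rw [pow_one] at this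
      exact (ho.pow).mul (((this.mul (hk 2 (by norm_num))).mul (hk 3 (by norm_num))).mul (hk 6 (by norm_num)))
    intro h4
    exact (Nat.not_even_iff_odd.mpr h3) (even_iff_two_dvd.mpr h4)
  refine pow_eq_one_of_pElement P hPp hidx ?_ hx
  intro u hu
  have hu' : (u : GL chevF4.Idx K) ∈ chevF4.posUnipotent K := (Subgroup.mem_subgroupOf.mp hu).1
  apply Subtype.ext
  exact pow_32_of_mem_U hu'

end F4Tw

end Cfsg.Agent.Lib.Helper18
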