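import Cfsg.Agent.Lib.Helper18.FixOrder
import Cfsg.Agent.Lib.Helper18.FixCoreB

set_option autoImplicit false

/-! The fixed points of `H` in a twisted group whose longest element is `-1`. -/

namespace Cfsg.Agent.Lib.Helper18

open Cfsg.Lie Matrix Cfsg.Agent.Lib.Helper6 Cfsg.Agent.Lib.Lead.FixTwist

variable {D : ChevalleyDatum} {K : Type*} [Field K]

namespace Base

variable (hB : Base D K)
include hB

lemma xg_inj {r : ℕ} (hr : r < D.nroots) {t t' : K} (h : hB.xg r t = hB.xg r t') : t = t' := by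
  have h3 : hB.xg r (t + -t') = 1 := by
    rw [← hB.xg_add, h, ← hB.xg_inv, mul_inv_cancel]
  have h4 := (hB.xg_eq_one_iff hr _).1 h3
  linear_combination h4

/-- `χ_{-s} χ_s = 1`. -/
lemma chi_neg_mul (hT : Tab D)
    (hneg : ∀ i < D.rank, ∀ s < D.nroots, D.cartan i (D.neg s) = - D.cartan i s) {h : GL D.Idx K}
    (hh : h ∈ D.diagonalSubgroup K) {χ : Fin D.nroots → K} (hχ : (h : Matrix D.Idx D.Idx K) = dg D χ)
    (s : ℕ) (hs : s < D.nroots) : χ ⟨D.neg s, hT.neg_lt hs⟩ * χ ⟨s, hs⟩ = 1 := by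
  obtain ⟨c, hc, rfl⟩ := hB.exists_hprod hh
  have e := hB.coe_hprod c hc
  rw [hχ] at e
  have e' := dg_injective e
  rw [e']
  show ((List.range D.rank).map fun i => c i ^ D.cartan i (D.neg s)).prod *
    ((List.range D.rank).map fun i => c i ^ D.cartan i s).prod = 1
  rw [← List.prod_map_mul]
  apply List.prod_eq_one
  intro x hx
  obtain ⟨i, hi, rfl⟩ := List.mem_map.mp hx
  have hi' := List.mem_range.mp hi
  rw [hneg i hi' s hs, _root_.zpow_neg, inv_mul_cancel₀ (zpow_ne_zero _ (hc i hi'))]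

/-- an element of `N` acting as `-1` on the roots inverts `H`. -/
theorem conj_H_of_neg (hT : Tab D)
    (hneg : ∀ i < D.rank, ∀ s < D.nroots, D.cartan i (D.neg s) = - D.cartan i s)
    {h0 : GL D.Idx K} (hh0 : h0 ∈ D.diagonalSubgroup K) {L : List ℕ} (hL : ∀ i ∈ L, i < D.rank)
    (hw0 : ∀ r < D.nroots, wAct D L r = D.neg r) {h : GL D.Idx K} (hh : h ∈ D.diagonalSubgroup K) :
    (h0 * hB.nW L) * h * (h0 * hB.nW L)⁻¹ = h⁻¹ := by
  set n0 := h0 * hB.nW L with hn0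
  have hn0N : n0 ∈ D.monomialSubgroup K := mul_mem (Base.H_le_N hh0) (hB.nW_mem hT hL)
  have hgH : n0 * h * n0⁻¹ * h ∈ D.diagonalSubgroup K := mul_mem ((hB.N_conj_H hT hn0N).1 h hh) hh
  obtain ⟨χ, _, hχ⟩ := hB.exists_dg hh
  obtain ⟨χ', _, hχ'⟩ := hB.exists_dg hgH
  have key : ∀ s : Fin D.nroots, χ' s = 1 := by
    intro s
    have hns := hT.neg_lt s.2
    obtain ⟨c, hc, hconj⟩ := hB.hnW_conj_xg hT hh0 hL hns
    rw [hw0 _ hns, hT.neg_neg s.2, ← hn0] at hconj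
    have h1 := hB.H_conj_xg' hgH hχ' s 1
    have h2 := hB.H_conj_xg' hh hχ s 1
    have h3 := hB.H_conj_xg' hh hχ ⟨D.neg s, hns⟩ (c⁻¹ * (χ s * 1))
    have h4 : n0⁻¹ * hB.xg s (χ s * 1) * n0 = hB.xg (D.neg s) (c⁻¹ * (χ s * 1)) := by
      have := hconj (c⁻¹ * (χ s * 1))
      rw [mul_inv_cancel_left₀ hc] at this
      rw [← this]; group
    have h5 : n0 * h * n0⁻¹ * h * hB.xg s 1 * (n0 * h * n0⁻¹ * h)⁻¹ =
        n0 * (h * (n0⁻¹ * (h * hB.xg s 1 * h⁻¹) * n0) * h⁻¹) * n0⁻¹ := by group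
    rw [h5, h2, h4, h3, hconj] at h1
    have h6 := hB.xg_inj s.2 h1
    have h7 := hB.chi_neg_mul hT hneg hh hχ s s.2
    have h8 : c * (χ ⟨D.neg s, hns⟩ * (c⁻¹ * (χ s * 1))) = (c * c⁻¹) * (χ ⟨D.neg s, hns⟩ * χ s) := by ring
    rw [h8, h7, mul_inv_cancel₀ hc] at h6
    rw [mul_one, mul_one] at h6
    exact h6.symm
  have hg1 : n0 * h * n0⁻¹ * h = 1 := by
    apply Units.ext
    rw [hχ', show χ' = fun _ => (1 : K) from funext key, dg_one]; rfl
  exact eq_inv_of_mul_eq_one_left hg1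

end Base

namespace FixB

variable {X : BNData D K} (T : FixBN X)

lemma conj_cn_V {v : GL D.Idx K} (hv : v ∈ D.negUnipotent K) :
    (T.cn T.chain)⁻¹ * v * T.cn T.chain ∈ D.posUnipotent K := by
  obtain ⟨h, hh, e⟩ := T.cn_eq T.chain_mem
  set n0 := T.cn T.chain with hn0
  have hL := T.chain_long
  have hT := X.hT.tab
  rw [X.hB.negUnipotent_eq] at hv
  induction hv using Subgroup.closure_induction with
  | mem x hx =>
    obtain ⟨s, t, hs, rfl⟩ := hx
    have hLr : ∀ i ∈ (cw T.chain).reverse, i < D.rank := fun i hi => hL.lt i (List.mem_reverse.mp hi)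
    have hr := hL.neg s hs
    obtain ⟨c, hc, hconj⟩ := X.hB.hnW_conj_xg hT hh hL.lt hr.1
    have e2 : wAct D (cw T.chain) (wAct D (cw T.chain).reverse s) = s := by
      have := hT.wAct_reverse hLr hs.1
      rwa [List.reverse_reverse] at this
    have h1 := hconj (c⁻¹ * t)
    rw [e2, mul_inv_cancel_left₀ hc, ← e] at h1
    rw [← h1]
    have : n0⁻¹ * (n0 * X.hB.xg (wAct D (cw T.chain).reverse s) (c⁻¹ * t) * n0⁻¹) * n0 =
        X.hB.xg (wAct D (cw T.chain).reverse s) (c⁻¹ * t) := by group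
    rw [this]
    exact X.hB.xg_mem_pos hr _
  | one => simp
  | mul x y _ _ hx hy =>
    have : n0⁻¹ * (x * y) * n0 = (n0⁻¹ * x * n0) * (n0⁻¹ * y * n0) := by group
    rw [this]; exact mul_mem hx hy
  | inv x _ hx =>
    have : n0⁻¹ * x⁻¹ * n0 = (n0⁻¹ * x * n0)⁻¹ := by group
    rw [this]; exact inv_mem hx

/-- the fixed points of `V` lie in `G¹`. -/
theorem V_fixed_le {v : GL D.Idx K} (hv : v ∈ D.negUnipotent K) (hfix : v ∈ T.F) : v ∈ T.G1 := by
  have hn := T.cn_mem T.chain_mem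
  have hnF := T.G1_fixed _ hn
  have h1 := T.U_fixed_le (conj_cn_V T hv) (mul_mem (mul_mem (inv_mem hnF) hfix) hnF)
  have : v = T.cn T.chain * ((T.cn T.chain)⁻¹ * v * T.cn T.chain) * (T.cn T.chain)⁻¹ := by group
  rw [this]
  exact mul_mem (mul_mem hn h1) (inv_mem hn)

/-- the fixed points of `H` normalise `G¹`. -/
theorem H_conj_mem_G1 (S : Set (GL D.Idx K)) (hS : T.G1 = Subgroup.closure S)
    (hS' : ∀ g ∈ S, g ∈ D.posUnipotent K ∨ g ∈ D.negUnipotent K)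
    {h : GL D.Idx K} (hh : h ∈ D.diagonalSubgroup K) (hf : h ∈ T.F) {g : GL D.Idx K} (hg : g ∈ T.G1) :
    h * g * h⁻¹ ∈ T.G1 := by
  have hg' := hg
  rw [hS] at hg'
  induction hg' using Subgroup.closure_induction with
  | mem x hx =>
    have hx1 : x ∈ T.G1 := by rw [hS]; exact Subgroup.subset_closure hx
    have hxF : h * x * h⁻¹ ∈ T.F := mul_mem (mul_mem hf (T.G1_fixed _ hx1)) (inv_mem hf)
    rcases hS' x hx with hU | hV
    · exact T.U_fixed_le (X.hB.H_conj_U hh hU) hxF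
    · exact V_fixed_le T (X.hB.H_conj_V hh hV) hxF
  | one => simp
  | mul x y hx hy ihx ihy =>
    have : h * (x * y) * h⁻¹ = (h * x * h⁻¹) * (h * y * h⁻¹) := by group
    rw [this]
    exact mul_mem (ihx (by rw [hS]; exact hx)) (ihy (by rw [hS]; exact hy))
  | inv x hx ihx =>
    have : h * x⁻¹ * h⁻¹ = (h * x * h⁻¹)⁻¹ := by group
    rw [this]
    exact inv_mem (ihx (by rw [hS]; exact hx))

/-- squares of fixed points of `H` lie in `G¹` when `w₀ = -1`. -/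
theorem H_sq_mem_G1 (S : Set (GL D.Idx K)) (hS : T.G1 = Subgroup.closure S)
    (hS' : ∀ g ∈ S, g ∈ D.posUnipotent K ∨ g ∈ D.negUnipotent K)
    (hneg : ∀ i < D.rank, ∀ s < D.nroots, D.cartan i (D.neg s) = - D.cartan i s)
    (hw0 : ∀ r < D.nroots, wAct D (cw T.chain) r = D.neg r)
    {h : GL D.Idx K} (hh : h ∈ D.diagonalSubgroup K) (hf : h ∈ T.F) : h * h ∈ T.G1 := by
  have hn := T.cn_mem T.chain_mem
  obtain ⟨h0, hh0, e⟩ := T.cn_eq T.chain_mem
  have h1 := X.hB.conj_H_of_neg X.hT.tab hneg hh0 T.chain_long.lt hw0 (inv_mem hh)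
  rw [← e, inv_inv] at h1
  have h2 := mul_mem (H_conj_mem_G1 T S hS hS' hh hf hn) (inv_mem hn)
  have h3 : h * T.cn T.chain * h⁻¹ * (T.cn T.chain)⁻¹ = h * (T.cn T.chain * h⁻¹ * (T.cn T.chain)⁻¹) := by group
  rw [h3, h1] at h2
  exact h2

/-- `H ∩ G¹ = H ∩ F` when `w₀ = -1` and `H` has odd order. -/
theorem H_inf_G1_of_odd [Finite K] (S : Set (GL D.Idx K)) (hS : T.G1 = Subgroup.closure S)
    (hS' : ∀ g ∈ S, g ∈ D.posUnipotent K ∨ g ∈ D.negUnipotent K)
    (hneg : ∀ i < D.rank, ∀ s < D.nroots, D.cartan i (D.neg s) = - D.cartan i s)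
    (hw0 : ∀ r < D.nroots, wAct D (cw T.chain) r = D.neg r)
    (hodd : Odd (Nat.card ↥(D.diagonalSubgroup K))) :
    D.diagonalSubgroup K ⊓ T.G1 = D.diagonalSubgroup K ⊓ T.F := by
  apply le_antisymm
  · exact fun g hg => ⟨hg.1, T.G1_fixed g hg.2⟩
  · intro h hh
    refine ⟨hh.1, ?_⟩
    obtain ⟨k, hk⟩ := hodd
    have h1 : h ^ Nat.card ↥(D.diagonalSubgroup K) = 1 := by
      have := pow_card_eq_one' (G := ↥(D.diagonalSubgroup K)) (x := ⟨h, hh.1⟩)
      exact congrArg Subtype.val this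
    have h2 : h = h ^ (k + 1) * h ^ (k + 1) := by
      rw [← pow_add, show k + 1 + (k + 1) = (2 * k + 1) + 1 by ring, ← hk, pow_succ, h1, one_mul]
    rw [h2]
    exact H_sq_mem_G1 T S hS hS' hneg hw0 (pow_mem hh.1 _) (pow_mem hh.2 _)

end FixB

end Cfsg.Agent.Lib.Helper18
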