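import Cfsg.Agent.Lib.Helper18.F4Card
import Cfsg.Agent.Lib.Helper18.FixH
import Cfsg.Agent.Lib.Helper18.FixCoreInst
import Cfsg.Agent.Lib.Helper36.ChevField

set_option autoImplicit false
set_option maxRecDepth 100000

/-! `²F₄(2^(2m+1))`: the order of `H¹`. -/

namespace Cfsg.Agent.Lib.Helper18

open Cfsg.Lie Matrix Cfsg.Agent.Lib.Helper36 Cfsg.Agent.Lib.Helper17 Cfsg.Agent.Lib.Lead.FixTwist
  Cfsg.Agent.Lib.Lead.ChevSpecial

theorem f4_w0 : ∀ r < chevF4.nroots, wAct chevF4 (cw chainF4t) r = chevF4.neg r := by decide +kernel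

lemma Base.wg_mem_V {D : ChevalleyDatum} {K : Type*} [Field K] (hB : Base D K) (w : List (ℕ × K))
    (hw : ∀ p ∈ w, D.IsNegRoot p.1) : hB.wg w ∈ D.negUnipotent K := by
  apply Subgroup.list_prod_mem
  intro x hx
  obtain ⟨p, hp, rfl⟩ := List.mem_map.mp hx
  exact hB.xg_mem_neg (hw p hp) _

/-- four parameters. -/
def mk4 {G : Type*} (a b c d : G) : Fin chevF4.rank → G :=
  fun i => if i.1 = 0 then a else if i.1 = 1 then b else if i.1 = 2 then c else d

lemma eq_mk4 {G : Type*} (c : Fin chevF4.rank → G) :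
    c = mk4 (c ⟨0, by decide⟩) (c ⟨1, by decide⟩) (c ⟨2, by decide⟩) (c ⟨3, by decide⟩) := by
  funext i
  obtain ⟨i, hi⟩ := i
  have hi' : i < 4 := hi
  unfold mk4
  interval_cases i <;> rfl

lemma mk4_inj {G : Type*} {a b c d a' b' c' d' : G} (h : mk4 a b c d = mk4 a' b' c' d') :
    a = a' ∧ b = b' ∧ c = c' ∧ d = d' :=
  ⟨congrFun h ⟨0, by decide⟩, congrFun h ⟨1, by decide⟩, congrFun h ⟨2, by decide⟩, congrFun h ⟨3, by decide⟩⟩

namespace F4Tw

variable {K : Type*} [Field K] [Fintype K] {m : ℕ} (W : F4Tw K m)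

include W in
lemma gens_UV : ∀ g ∈ {g : GL chevF4.Idx K | ∃ w ∈ f4Words K (2 ^ m),
    (g : Matrix chevF4.Idx chevF4.Idx K) = chevF4.wordMat K w},
    g ∈ chevF4.posUnipotent K ∨ g ∈ chevF4.negUnipotent K := by
  rintro x ⟨w, hw, e⟩
  have ex : x = W.X.hB.wg w := Units.ext (by rw [e, W.X.hB.coe_wg])
  rw [ex]
  rcases hw with ⟨t, rfl | rfl⟩ | ⟨t, u, rfl | rfl⟩
  · left
    apply W.X.hB.wg_mem_U
    intro p hp
    simp only [f4PairWord, List.mem_cons, List.not_mem_nil, or_false] at hp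
    rcases hp with rfl | rfl <;> (dsimp only; decide)
  · right
    apply W.X.hB.wg_mem_V
    intro p hp
    simp only [f4PairWord, List.mem_cons, List.not_mem_nil, or_false] at hp
    rcases hp with rfl | rfl <;> (dsimp only; decide)
  · left
    apply W.X.hB.wg_mem_U
    intro p hp
    simp only [b2ClassWord, List.mem_cons, List.not_mem_nil, or_false] at hp
    rcases hp with rfl | rfl | rfl | rfl <;> (dsimp only; decide)
  · right
    apply W.X.hB.wg_mem_V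
    intro p hp
    simp only [b2ClassWord, List.mem_cons, List.not_mem_nil, or_false] at hp
    rcases hp with rfl | rfl | rfl | rfl <;> (dsimp only; decide)

omit W in
lemma card_H' : Nat.card ↥(chevF4.diagonalSubgroup K) = (Fintype.card K - 1) ^ chevF4.rank := by
  have := card_H_F4 K
  rwa [one_mul] at this


include W in
lemma odd_H : Odd (Nat.card ↥(chevF4.diagonalSubgroup K)) := by
  rw [card_H', W.hK]
  apply Odd.pow
  rw [pow_succ]
  have : 0 < 2 ^ (2 * m) := by positivity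
  exact ⟨2 ^ (2 * m) - 1, by omega⟩

lemma H_inf_G1 : chevF4.diagonalSubgroup K ⊓ twistedF4 K (2 ^ m) = chevF4.diagonalSubgroup K ⊓ W.T.F :=
  FixB.H_inf_G1_of_odd W.fixBN _ rfl W.gens_UV (cartan_neg_of_mem memF4) f4_w0 W.odd_H

lemma hHom_inj : Function.Injective W.X.hB.hHom :=
  hHom_injective_of_card W.X.hB W.X.hT.tab card_H'

lemma hHom_mk4 (a b c d : Kˣ) : W.X.hB.hHom (mk4 a b c d) =
    W.X.hB.hg 33 a * W.X.hB.hg 27 b * W.X.hB.hg 25 c * W.X.hB.hg 24 d := by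
  rw [Base.hHom_apply]
  unfold Base.hprod Base.hl
  have e : List.range chevF4.rank = [0, 1, 2, 3] := by decide
  have s0 : chevF4.simple 0 = 33 := by decide +kernel
  have s1 : chevF4.simple 1 = 27 := by decide +kernel
  have s2 : chevF4.simple 2 = 25 := by decide +kernel
  have s3 : chevF4.simple 3 = 24 := by decide +kernel
  have e0 : extU (mk4 a b c d) 0 = (a : K) := extU_coe (mk4 a b c d) ⟨0, by decide⟩
  have e1 : extU (mk4 a b c d) 1 = (b : K) := extU_coe (mk4 a b c d) ⟨1, by decide⟩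
  have e2 : extU (mk4 a b c d) 2 = (c : K) := extU_coe (mk4 a b c d) ⟨2, by decide⟩
  have e3 : extU (mk4 a b c d) 3 = (d : K) := extU_coe (mk4 a b c d) ⟨3, by decide⟩
  rw [e]
  simp only [List.map_cons, List.map_nil, List.prod_cons, List.prod_nil, mul_one, s0, s1, s2, s3, e0, e1, e2, e3,
    mul_assoc]

lemma hgH {r : ℕ} (hr : r < chevF4.nroots) (a : Kˣ) : W.X.hB.hg r a ∈ chevF4.diagonalSubgroup K :=
  W.X.hB.hg_mem hr a.ne_zero

lemma s_mk4 (a b c d : Kˣ) : W.T.s (W.X.hB.hHom (mk4 a b c d)) =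
    W.X.hB.hHom (mk4 (d ^ 2 ^ m) (c ^ 2 ^ m) (b ^ 2 ^ (m + 1)) (a ^ 2 ^ (m + 1))) := by
  rw [W.hHom_mk4, W.hHom_mk4]
  have l33 : 33 < chevF4.nroots := by decide
  have l27 : 27 < chevF4.nroots := by decide
  have l25 : 25 < chevF4.nroots := by decide
  have l24 : 24 < chevF4.nroots := by decide
  have hG := W.X.hB.H_le_group W.X.hT.tab
  rw [W.T.s_mul (hG (mul_mem (mul_mem (W.hgH l33 a) (W.hgH l27 b)) (W.hgH l25 c))) (hG (W.hgH l24 d)),
    W.T.s_mul (hG (mul_mem (W.hgH l33 a) (W.hgH l27 b))) (hG (W.hgH l25 c)),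
    W.T.s_mul (hG (W.hgH l33 a)) (hG (W.hgH l27 b)),
    W.T.s_hg l33, W.T.s_hg l27, W.T.s_hg l25, W.T.s_hg l24, W.hρR, W.hf, W.hf, W.hf, W.hf]
  have r33 : rhoRF4 33 = 24 := by decide +kernel
  have r27 : rhoRF4 27 = 25 := by decide +kernel
  have r25 : rhoRF4 25 = 27 := by decide +kernel
  have r24 : rhoRF4 24 = 33 := by decide +kernel
  have k33 : kF4 33 = 1 := by decide +kernel
  have k27 : kF4 27 = 1 := by decide +kernel
  have k25 : kF4 25 = 0 := by decide +kernel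
  have k24 : kF4 24 = 0 := by decide +kernel
  rw [r33, r27, r25, r24, k33, k27, k25, k24, add_zero]
  have hA := W.hgH l24 (a ^ 2 ^ (m + 1))
  have hBb := W.hgH l25 (b ^ 2 ^ (m + 1))
  have hC := W.hgH l27 (c ^ 2 ^ m)
  have hD := W.hgH l33 (d ^ 2 ^ m)
  simp only [Units.val_pow_eq_pow_val] at hA hBb hC hD ⊢
  set A := W.X.hB.hg 24 ((a : K) ^ 2 ^ (m + 1))
  set B := W.X.hB.hg 25 ((b : K) ^ 2 ^ (m + 1))
  set C := W.X.hB.hg 27 ((c : K) ^ 2 ^ m)
  set E := W.X.hB.hg 33 ((d : K) ^ 2 ^ m)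
  have c1 := W.X.hB.H_comm hA hBb
  have c2 := W.X.hB.H_comm hA hC
  have c3 := W.X.hB.H_comm hA hD
  have c4 := W.X.hB.H_comm hBb hC
  have c5 := W.X.hB.H_comm hBb hD
  have c6 := W.X.hB.H_comm hC hD
  calc A * B * C * E = A * B * (C * E) := by group
    _ = A * B * (E * C) := by rw [c6]
    _ = A * (B * E) * C := by group
    _ = A * (E * B) * C := by rw [c5]
    _ = (A * E) * (B * C) := by group
    _ = (E * A) * (C * B) := by rw [c3, c4]
    _ = E * (A * C) * B := by group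
    _ = E * (C * A) * B := by rw [c2]
    _ = E * C * (A * B) := by group
    _ = E * C * (B * A) := by rw [c1]
    _ = E * C * B * A := by group

include W in
lemma pow_q (a : Kˣ) : (a ^ 2 ^ m) ^ 2 ^ (m + 1) = a := by
  apply Units.ext
  rw [← pow_mul, ← pow_add, show m + (m + 1) = 2 * m + 1 by ring, Units.val_pow_eq_pow_val, W.pow_card]

/-- the order of `H ∩ F`. -/
lemma card_H_fix : Nat.card ↥(chevF4.diagonalSubgroup K ⊓ W.T.F) = (Fintype.card K - 1) ^ 2 := by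
  classical
  rw [sq, ← Fintype.card_units, ← Fintype.card_prod, ← Nat.card_eq_fintype_card]
  symm
  apply Nat.card_congr
  have hmemH : ∀ c, W.X.hB.hHom c ∈ chevF4.diagonalSubgroup K := by
    intro c
    rw [← W.X.hB.range_hHom W.X.hT.tab]
    exact ⟨c, rfl⟩
  refine Equiv.ofBijective (fun p : Kˣ × Kˣ => ⟨W.X.hB.hHom (mk4 (p.1 ^ 2 ^ m) (p.2 ^ 2 ^ m) p.2 p.1),
    hmemH _, W.X.hB.H_le_group W.X.hT.tab (hmemH _), ?_⟩) ⟨?_, ?_⟩
  · rw [W.s_mk4, W.pow_q, W.pow_q]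
  · rintro ⟨a, b⟩ ⟨a', b'⟩ h
    have h1 := mk4_inj (W.hHom_inj (congrArg Subtype.val h))
    exact Prod.ext h1.2.2.2 h1.2.2.1
  · rintro ⟨g, hg, hf⟩
    rw [← W.X.hB.range_hHom W.X.hT.tab] at hg
    obtain ⟨c, rfl⟩ := hg
    have h1 := hf.2
    rw [eq_mk4 c, W.s_mk4] at h1
    have h2 := mk4_inj (W.hHom_inj h1)
    refine ⟨(c ⟨3, by decide⟩, c ⟨2, by decide⟩), ?_⟩
    apply Subtype.ext
    show W.X.hB.hHom _ = W.X.hB.hHom c
    rw [h2.1, h2.2.1, ← eq_mk4 c]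

include W in
lemma card_H1 : Nat.card ↥(chevF4.diagonalSubgroup K ⊓ twistedF4 K (2 ^ m)) = (Fintype.card K - 1) ^ 2 := by
  rw [W.H_inf_G1, W.card_H_fix]

end F4Tw

end Cfsg.Agent.Lib.Helper18
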