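import Cfsg.Agent.Lib.Helper18.F4Sys
import Cfsg.Agent.Lib.Helper17.ChevOrd

set_option autoImplicit false
set_option maxRecDepth 100000

/-! `²F₄(2^(2m+1))` as a `FixBN`. -/

namespace Cfsg.Agent.Lib.Helper18

open Cfsg.Lie Matrix Cfsg.Agent.Lib.Helper36 Cfsg.Agent.Lib.Helper17 Cfsg.Agent.Lib.Lead.FixTwist
  Cfsg.Agent.Lib.Lead.ChevSpecial

/-- uniqueness of the coordinates of an ordered product of positive root elements. -/
theorem wg_ord_inj {D : ChevalleyDatum} {F : Type*} [Field F] (hB : Base D F)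
    (hD : D ∈ [chevG2, chevB2, chevD4, chevF4, chevE6, chevE7, chevE8]) (L : List ℕ)
    (hL : ∀ r ∈ L, D.IsPosRoot r) (hs : L.Pairwise (· < ·)) (t t' : ℕ → F)
    (h : hB.wg (L.map fun r => (r, t r)) = hB.wg (L.map fun r => (r, t' r))) : ∀ r ∈ L, t r = t' r := by
  obtain ⟨T, W, hc⟩ := exists_checks D hD
  apply ordProd_inj hc (triOK_of_mem hD) (ordOK_of_mem hD) L hL hs
  have := congrArg (fun g : GL D.Idx F => (g : Matrix D.Idx D.Idx F)) h
  simp only [hB.coe_wg] at this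
  exact this

/-- a pair of orthogonal roots (short, long) exchanged by the twisting. -/
structure Pair (r r' : ℕ) : Prop where
  lr : r < chevF4.nroots
  lr' : r' < chevF4.nroots
  c : (r, r') ∈ f4CommPairs
  ρr : rhoRF4 r = r'
  ρr' : rhoRF4 r' = r
  kr : kF4 r = 1
  kr' : kF4 r' = 0

theorem pairPos : Pair 33 24 := ⟨by decide, by decide, by decide, by decide, by decide, by decide, by decide⟩
theorem pairNeg : Pair 14 23 := ⟨by decide, by decide, by decide, by decide, by decide, by decide, by decide⟩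

namespace F4Tw

variable {K : Type*} [Field K] [Fintype K] {m : ℕ} (W : F4Tw K m)

lemma mem_F_coe {g : ↥(chevF4.group K)} (h : W.T.σ g = g) : (g : GL chevF4.Idx K) ∈ W.T.F := by
  refine ⟨g.2, ?_⟩
  rw [W.T.s_of_mem g.2]
  exact congrArg Subtype.val h

lemma σ_of_mem_F {g : GL chevF4.Idx K} (h : g ∈ W.T.F) : W.T.σ ⟨g, h.1⟩ = ⟨g, h.1⟩ := by
  apply Subtype.ext
  rw [← W.T.s_of_mem h.1]
  exact h.2

lemma coe_word {a b ab aab : ℕ} (Q : Quad a b ab aab) (t u : K) :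
    (((W.sys Q).word t u : ↥(chevF4.group K)) : GL chevF4.Idx K) =
      W.X.hB.wg (b2ClassWord (2 ^ m) a b ab aab t u) := by
  have : Fact (Nat.Prime 2) := ⟨Nat.prime_two⟩
  have := W.char2
  have e1 : (W.sys Q).f t = t ^ (2 ^ m) := iterateFrobenius_def 2 m t
  have e2 : (W.sys Q).F u = u ^ (2 ^ (m + 1)) := iterateFrobenius_def 2 (m + 1) u
  unfold SuzWord.Sys.word
  rw [e1, e2]
  simp only [b2ClassWord, Base.wg, List.map_cons, List.map_nil, List.prod_cons, List.prod_nil, mul_one]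
  rw [pow_succ (t) (2 ^ m), pow_succ 2 m, mul_comm (2 ^ m) 2]
  show W.X.hB.xg a _ * W.X.hB.xg b _ * W.X.hB.xg ab _ * W.X.hB.xg aab _ = _
  simp only [mul_assoc]

lemma word_mem_F {a b ab aab : ℕ} (Q : Quad a b ab aab) (t u : K) :
    W.X.hB.wg (b2ClassWord (2 ^ m) a b ab aab t u) ∈ W.T.F := by
  rw [← W.coe_word Q]
  exact W.mem_F_coe ((W.sys Q).s_word t u)

/-- the image of a product over a pair. -/
lemma σ_pair {r r' : ℕ} (P : Pair r r') (b a : K) :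
    W.T.σ (W.xG r' P.lr' b * W.xG r P.lr a) =
      W.xG r' P.lr' (a ^ (2 ^ (m + 1))) * W.xG r P.lr (b ^ (2 ^ m)) := by
  have h1 := W.σ_xG r P.lr a (P.ρr ▸ P.lr')
  have h2 := W.σ_xG r' P.lr' b (P.ρr' ▸ P.lr)
  simp only [P.ρr, P.kr] at h1
  simp only [P.ρr', P.kr', add_zero] at h2
  rw [map_mul, h1, h2]
  exact Subtype.ext (W.comm P.c _ _).eq

lemma coe_pair {r r' : ℕ} (P : Pair r r') (t : K) :
    ((W.xG r' P.lr' t * W.xG r P.lr (t ^ (2 ^ m)) : ↥(chevF4.group K)) : GL chevF4.Idx K) =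
      W.X.hB.wg (f4PairWord (2 ^ m) r r' t) := by
  simp only [f4PairWord, Base.wg, List.map_cons, List.map_nil, List.prod_cons, List.prod_nil, mul_one]
  exact (W.comm P.c _ _).eq.symm

lemma pair_mem_F {r r' : ℕ} (P : Pair r r') (t : K) :
    W.X.hB.wg (f4PairWord (2 ^ m) r r' t) ∈ W.T.F := by
  rw [← W.coe_pair P]
  apply W.mem_F_coe
  rw [W.σ_pair P, ← pow_mul, ← pow_add]
  have : m + (m + 1) = 2 * m + 1 := by ring
  rw [this, W.pow_card]

/-- the twisted group. -/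
abbrev G1 (_ : F4Tw K m) : Subgroup (GL chevF4.Idx K) := twistedF4 K (2 ^ m)

lemma wg_mem_G1 {w : List (ℕ × K)} (hw : w ∈ f4Words K (2 ^ m)) : W.X.hB.wg w ∈ W.G1 :=
  Subgroup.subset_closure ⟨w, hw, W.X.hB.coe_wg w⟩

lemma pairPos_mem (t : K) : W.X.hB.wg (f4PairWord (2 ^ m) 33 24 t) ∈ W.G1 :=
  W.wg_mem_G1 (Or.inl ⟨t, Or.inl rfl⟩)
lemma pairNeg_mem (t : K) : W.X.hB.wg (f4PairWord (2 ^ m) 14 23 t) ∈ W.G1 :=
  W.wg_mem_G1 (Or.inl ⟨t, Or.inr rfl⟩)
lemma wordPos_mem (t u : K) : W.X.hB.wg (b2ClassWord (2 ^ m) 27 25 28 30 t u) ∈ W.G1 :=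
  W.wg_mem_G1 (Or.inr ⟨t, u, Or.inl rfl⟩)
lemma wordNeg_mem (t u : K) : W.X.hB.wg (b2ClassWord (2 ^ m) 20 22 19 17 t u) ∈ W.G1 :=
  W.wg_mem_G1 (Or.inr ⟨t, u, Or.inr rfl⟩)

lemma G1_fixed : ∀ g ∈ W.G1, g ∈ W.T.F := by
  intro g hg
  induction hg using Subgroup.closure_induction with
  | mem x hx =>
    obtain ⟨w, hw, e⟩ := hx
    have ex : x = W.X.hB.wg w := Units.ext (by rw [e, W.X.hB.coe_wg])
    rw [ex]
    rcases hw with ⟨t, rfl | rfl⟩ | ⟨t, u, rfl | rfl⟩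
    · exact W.pair_mem_F pairPos t
    · exact W.pair_mem_F pairNeg t
    · exact W.word_mem_F quadPos t u
    · exact W.word_mem_F quadNeg t u
  | one => exact one_mem _
  | mul x y _ _ hx hy => exact mul_mem hx hy
  | inv x _ hx => exact inv_mem hx

lemma G1_le : W.G1 ≤ chevF4.group K := fun g hg => (W.G1_fixed g hg).1

end F4Tw

end Cfsg.Agent.Lib.Helper18
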