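import Cfsg.Agent.Lib.Helper18.F4Inst

set_option autoImplicit false
set_option maxRecDepth 100000

/-! `²F₄(2^(2m+1))` as a `FixBN`: rank one computations. -/

namespace Cfsg.Agent.Lib.Helper18

open Cfsg.Lie Matrix Cfsg.Agent.Lib.Helper36 Cfsg.Agent.Lib.Helper17 Cfsg.Agent.Lib.Lead.FixTwist
  Cfsg.Agent.Lib.Lead.ChevSpecial

theorem f4_nA1 : wordChk 2 Cfsg.Agent.Lib.Helper36.fastF4
    [(33, p1), (14, p1), (33, p1), (24, p1), (23, p1), (24, p1)]
    [(33, p1), (24, p1), (14, p1), (23, p1), (33, p1), (24, p1)] = true := by decide +kernel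

theorem f4_rootsB2 : ∀ r < chevF4.nroots, chevF4.IsPosRoot r → chevF4.IsNegRoot (wAct chevF4 [1, 2, 1, 2] r) →
    r ∈ [25, 27, 28, 30] := by decide +kernel

theorem f4_rootsA1 : ∀ r < chevF4.nroots, chevF4.IsPosRoot r → chevF4.IsNegRoot (wAct chevF4 [0, 3] r) →
    r ∈ [24, 33] := by decide +kernel

theorem f4_rootsB2' : ∀ r ∈ [25, 27, 28, 30], chevF4.IsPosRoot r ∧ chevF4.IsNegRoot (wAct chevF4 [1, 2, 1, 2] r) := by
  decide +kernel

theorem f4_rootsA1' : ∀ r ∈ [24, 33], chevF4.IsPosRoot r ∧ chevF4.IsNegRoot (wAct chevF4 [0, 3] r) := by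
  decide +kernel

/-- coordinates. -/
def tt4 {K : Type*} (b a c1 c2 : K) (r : ℕ) : K := if r = 25 then b else if r = 27 then a else if r = 28 then c1 else c2

def tt2 {K : Type*} (b a : K) (r : ℕ) : K := if r = 24 then b else a

namespace F4Tw

variable {K : Type*} [Field K] [Fintype K] {m : ℕ} (W : F4Tw K m)

lemma coe_nf (b a c1 c2 : K) :
    (((W.sys quadPos).nf b a c1 c2 : ↥(chevF4.group K)) : GL chevF4.Idx K) =
      W.X.hB.wg ([25, 27, 28, 30].map fun r => (r, tt4 b a c1 c2 r)) := by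
  simp only [Base.wg, List.map_cons, List.map_nil, List.prod_cons, List.prod_nil, mul_one, tt4]
  unfold SuzWord.Sys.nf SuzWord.Sys.y
  show W.X.hB.xg 25 b * W.X.hB.xg 27 a * (W.X.hB.xg 28 c1 * W.X.hB.xg 30 c2) = _
  simp [mul_assoc]

lemma huniq (b a c1 c2 b' a' c1' c2' : K)
    (h : (W.sys quadPos).nf b a c1 c2 = (W.sys quadPos).nf b' a' c1' c2') :
    b = b' ∧ a = a' ∧ c1 = c1' ∧ c2 = c2' := by
  have h1 := congrArg (fun g : ↥(chevF4.group K) => (g : GL chevF4.Idx K)) h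
  simp only [W.coe_nf] at h1
  have h2 := wg_ord_inj W.X.hB memF4 [25, 27, 28, 30] (fun r hr => (f4_rootsB2' r hr).1) (by decide) _ _ h1
  exact ⟨h2 25 (by simp), h2 27 (by simp), h2 28 (by simp), h2 30 (by simp)⟩

lemma exists_nf_of_mem_UmW {u : GL chevF4.Idx K} (hu : u ∈ W.X.hB.UmW [1, 2, 1, 2]) :
    ∃ b a c1 c2, u = (((W.sys quadPos).nf b a c1 c2 : ↥(chevF4.group K)) : GL chevF4.Idx K) := by
  set S := W.sys quadPos with hS
  induction hu using Subgroup.closure_induction with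
  | mem x hx =>
    obtain ⟨r, t, hr, hneg, rfl⟩ := hx
    have hmem := f4_rootsB2 r hr.1 hr hneg
    simp only [List.mem_cons, List.not_mem_nil, or_false] at hmem
    rcases hmem with rfl | rfl | rfl | rfl
    · obtain ⟨b, a, c1, c2, e⟩ := S.exists_nf (Subgroup.subset_closure (Or.inl (Or.inl (Or.inr ⟨t, rfl⟩))))
      exact ⟨b, a, c1, c2, congrArg Subtype.val e⟩
    · obtain ⟨b, a, c1, c2, e⟩ := S.exists_nf (Subgroup.subset_closure (Or.inl (Or.inl (Or.inl ⟨t, rfl⟩))))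
      exact ⟨b, a, c1, c2, congrArg Subtype.val e⟩
    · obtain ⟨b, a, c1, c2, e⟩ := S.exists_nf (Subgroup.subset_closure (Or.inl (Or.inr ⟨t, rfl⟩)))
      exact ⟨b, a, c1, c2, congrArg Subtype.val e⟩
    · obtain ⟨b, a, c1, c2, e⟩ := S.exists_nf (Subgroup.subset_closure (Or.inr ⟨t, rfl⟩))
      exact ⟨b, a, c1, c2, congrArg Subtype.val e⟩
  | one => exact ⟨0, 0, 0, 0, by rw [S.nf_zero]; rfl⟩
  | mul x y _ _ hx hy =>
    obtain ⟨b, a, c1, c2, rfl⟩ := hx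
    obtain ⟨b', a', c1', c2', rfl⟩ := hy
    exact ⟨_, _, _, _, by rw [← Subgroup.coe_mul, S.nf_mul]⟩
  | inv x _ hx =>
    obtain ⟨b, a, c1, c2, rfl⟩ := hx
    exact ⟨_, _, _, _, by rw [← Subgroup.coe_inv, S.nf_inv]⟩

/-- the fixed points of `U_J`, `J` of type `B₂`, are the class words. -/
lemma exists_word_of_fixed {u : GL chevF4.Idx K} (hu : u ∈ W.X.hB.UmW [1, 2, 1, 2]) (hfix : u ∈ W.T.F) :
    ∃ t v, u = W.X.hB.wg (b2ClassWord (2 ^ m) 27 25 28 30 t v) := by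
  obtain ⟨b, a, c1, c2, rfl⟩ := W.exists_nf_of_mem_UmW hu
  have h1 := W.σ_of_mem_F hfix
  have h2 : (W.sys quadPos).s ((W.sys quadPos).nf b a c1 c2) = (W.sys quadPos).nf b a c1 c2 := h1
  refine ⟨b, c1, ?_⟩
  rw [(W.sys quadPos).eq_word_of_fixed W.huniq b a c1 c2 h2, W.coe_word]

lemma word_mem_UmW (t v : K) : W.X.hB.wg (b2ClassWord (2 ^ m) 27 25 28 30 t v) ∈ W.X.hB.UmW [1, 2, 1, 2] := by
  apply Subgroup.list_prod_mem
  intro x hx
  obtain ⟨p, hp, rfl⟩ := List.mem_map.mp hx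
  have hp' : p.1 ∈ [25, 27, 28, 30] := by
    simp only [b2ClassWord, List.mem_cons, List.not_mem_nil, or_false] at hp
    rcases hp with rfl | rfl | rfl | rfl <;> simp
  exact Subgroup.subset_closure ⟨p.1, p.2, (f4_rootsB2' _ hp').1, (f4_rootsB2' _ hp').2, rfl⟩

/-! the pair orbit -/

lemma exists_pair_of_mem_UmW {u : GL chevF4.Idx K} (hu : u ∈ W.X.hB.UmW [0, 3]) :
    ∃ b a, u = W.X.hB.xg 24 b * W.X.hB.xg 33 a := by
  have hc := fun s t => (W.comm pairPos.c s t).eq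
  induction hu using Subgroup.closure_induction with
  | mem x hx =>
    obtain ⟨r, t, hr, hneg, rfl⟩ := hx
    have hmem := f4_rootsA1 r hr.1 hr hneg
    simp only [List.mem_cons, List.not_mem_nil, or_false] at hmem
    rcases hmem with rfl | rfl
    · exact ⟨t, 0, by simp⟩
    · exact ⟨0, t, by simp⟩
  | one => exact ⟨0, 0, by simp⟩
  | mul x y _ _ hx hy =>
    obtain ⟨b, a, rfl⟩ := hx
    obtain ⟨b', a', rfl⟩ := hy
    refine ⟨b + b', a + a', ?_⟩
    rw [← W.X.hB.xg_add, ← W.X.hB.xg_add]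
    calc W.X.hB.xg 24 b * W.X.hB.xg 33 a * (W.X.hB.xg 24 b' * W.X.hB.xg 33 a')
        = W.X.hB.xg 24 b * (W.X.hB.xg 33 a * W.X.hB.xg 24 b') * W.X.hB.xg 33 a' := by group
      _ = _ := by rw [hc]; group
  | inv x _ hx =>
    obtain ⟨b, a, rfl⟩ := hx
    refine ⟨-b, -a, ?_⟩
    rw [_root_.mul_inv_rev, W.X.hB.xg_inv, W.X.hB.xg_inv, hc]

lemma pair_inj {b a b' a' : K}
    (h : W.X.hB.xg 24 b * W.X.hB.xg 33 a = W.X.hB.xg 24 b' * W.X.hB.xg 33 a') : b = b' ∧ a = a' := by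
  have h2 := wg_ord_inj W.X.hB memF4 [24, 33] (fun r hr => (f4_rootsA1' r hr).1) (by decide)
    (tt2 b a) (tt2 b' a') (by
      simpa only [Base.wg, List.map_cons, List.map_nil, List.prod_cons, List.prod_nil, mul_one, tt2,
        if_true, if_false, Nat.reduceEqDiff] using h)
  exact ⟨h2 24 (by simp), h2 33 (by simp)⟩

lemma exists_pairWord_of_fixed {u : GL chevF4.Idx K} (hu : u ∈ W.X.hB.UmW [0, 3]) (hfix : u ∈ W.T.F) :
    ∃ t, u = W.X.hB.wg (f4PairWord (2 ^ m) 33 24 t) := by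
  obtain ⟨b, a, rfl⟩ := W.exists_pair_of_mem_UmW hu
  have h1 := W.σ_of_mem_F hfix
  have h2 : W.T.σ (W.xG 24 pairPos.lr' b * W.xG 33 pairPos.lr a) =
      W.xG 24 pairPos.lr' b * W.xG 33 pairPos.lr a := h1
  rw [W.σ_pair pairPos] at h2
  have h3 := W.pair_inj (congrArg Subtype.val h2)
  refine ⟨b, ?_⟩
  rw [← W.coe_pair pairPos, ← h3.2]
  rfl

lemma pairWord_mem_UmW (t : K) : W.X.hB.wg (f4PairWord (2 ^ m) 33 24 t) ∈ W.X.hB.UmW [0, 3] := by
  apply Subgroup.list_prod_mem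
  intro x hx
  obtain ⟨p, hp, rfl⟩ := List.mem_map.mp hx
  have hp' : p.1 ∈ [24, 33] := by
    simp only [f4PairWord, List.mem_cons, List.not_mem_nil, or_false] at hp
    rcases hp with rfl | rfl <;> simp
  exact Subgroup.subset_closure ⟨p.1, p.2, (f4_rootsA1' _ hp').1, (f4_rootsA1' _ hp').2, rfl⟩

end F4Tw

end Cfsg.Agent.Lib.Helper18
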