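import Cfsg.Agent.Lib.Helper18.F4Inst2

set_option autoImplicit false
set_option maxRecDepth 100000

/-! `²F₄(2^(2m+1))` as a `FixBN`. -/

namespace Cfsg.Agent.Lib.Helper18

open Cfsg.Lie Matrix Cfsg.Agent.Lib.Helper36 Cfsg.Agent.Lib.Helper17 Cfsg.Agent.Lib.Lead.FixTwist
  Cfsg.Agent.Lib.Lead.ChevSpecial

namespace F4Tw

variable {K : Type*} [Field K] [Fintype K] {m : ℕ} (W : F4Tw K m)

include W in
lemma neg_one_inv : (-(1 : K)⁻¹) = 1 := by
  have := W.char2
  rw [inv_one, CharTwo.neg_eq]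

lemma nW_B2 : W.X.hB.nW [1, 2, 1, 2] =
    W.X.hB.wg (b2ClassWord (2 ^ m) 27 25 28 30 0 1) * W.X.hB.wg (b2ClassWord (2 ^ m) 20 22 19 17 1 1) *
      W.X.hB.wg (b2ClassWord (2 ^ m) 27 25 28 30 1 0) := by
  have := W.char2
  have h := wg_eq_of_check W.X.hB 2 Cfsg.Agent.Lib.Helper36.agreeF4 _ _ (by decide) (by decide) f4_nB2 (0 : K) 0
  simp only [List.map_cons, List.map_nil, Base.wg, List.prod_cons, List.prod_nil, mul_one, pval_p1] at h
  have s1 : chevF4.simple 1 = 27 := by decide +kernel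
  have s2 : chevF4.simple 2 = 25 := by decide +kernel
  have n1 : chevF4.neg 27 = 20 := by decide +kernel
  have n2 : chevF4.neg 25 = 22 := by decide +kernel
  have e0 : (0 : K) ^ (2 ^ m) = 0 := zero_pow (by positivity)
  have e1 : (0 : K) ^ (2 ^ m + 1) = 0 := zero_pow (by positivity)
  have e2 : (0 : K) ^ (2 * 2 ^ m) = 0 := zero_pow (by positivity)
  have e3 : (1 : K) + 1 = 0 := CharTwo.add_self_eq_zero 1
  simp only [Base.nW_cons, Base.nW_nil, Base.ng, s1, s2, n1, n2, W.neg_one_inv, mul_one,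
    b2ClassWord, Base.wg, List.map_cons, List.map_nil, List.prod_cons, List.prod_nil, e0, e1, e2, e3, one_pow,
    Base.xg_zero, one_mul, zero_add, add_zero]
  simp only [mul_assoc] at h ⊢
  exact h

lemma nW_A1 : W.X.hB.nW [0, 3] =
    W.X.hB.wg (f4PairWord (2 ^ m) 33 24 1) * W.X.hB.wg (f4PairWord (2 ^ m) 14 23 1) *
      W.X.hB.wg (f4PairWord (2 ^ m) 33 24 1) := by
  have := W.char2
  have h := wg_eq_of_check W.X.hB 2 Cfsg.Agent.Lib.Helper36.agreeF4 _ _ (by decide) (by decide) f4_nA1 (0 : K) 0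
  simp only [List.map_cons, List.map_nil, Base.wg, List.prod_cons, List.prod_nil, mul_one, pval_p1] at h
  have s1 : chevF4.simple 0 = 33 := by decide +kernel
  have s2 : chevF4.simple 3 = 24 := by decide +kernel
  have n1 : chevF4.neg 33 = 14 := by decide +kernel
  have n2 : chevF4.neg 24 = 23 := by decide +kernel
  simp only [Base.nW_cons, Base.nW_nil, Base.ng, s1, s2, n1, n2, W.neg_one_inv, mul_one,
    f4PairWord, Base.wg, List.map_cons, List.map_nil, List.prod_cons, List.prod_nil, one_pow]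
  simp only [mul_assoc] at h ⊢
  exact h

lemma sO_mem : ∀ O ∈ orbsF4, W.X.hB.nW O ∈ W.G1 := by
  intro O hO
  simp only [orbsF4, List.mem_cons, List.not_mem_nil, or_false] at hO
  rcases hO with rfl | rfl
  · rw [W.nW_A1]
    exact mul_mem (mul_mem (W.pairPos_mem 1) (W.pairNeg_mem 1)) (W.pairPos_mem 1)
  · rw [W.nW_B2]
    exact mul_mem (mul_mem (W.wordPos_mem 0 1) (W.wordNeg_mem 1 1)) (W.wordPos_mem 1 0)

lemma rank1 : ∀ O ∈ orbsF4, ∀ u ∈ W.X.hB.UmW O, u ∈ W.T.F → u ∈ W.G1 := by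
  intro O hO u hu hfix
  simp only [orbsF4, List.mem_cons, List.not_mem_nil, or_false] at hO
  rcases hO with rfl | rfl
  · obtain ⟨t, rfl⟩ := W.exists_pairWord_of_fixed hu hfix
    exact W.pairPos_mem t
  · obtain ⟨t, v, rfl⟩ := W.exists_word_of_fixed hu hfix
    exact W.wordPos_mem t v

lemma orb_ne : ∀ O ∈ orbsF4, ∃ u ∈ W.X.hB.UmW O, u ∈ W.T.F ∧ u ≠ 1 := by
  intro O hO
  simp only [orbsF4, List.mem_cons, List.not_mem_nil, or_false] at hO
  rcases hO with rfl | rfl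
  · refine ⟨_, W.pairWord_mem_UmW 1, W.pair_mem_F pairPos 1, fun h => ?_⟩
    rw [← W.coe_pair pairPos] at h
    have h' : W.X.hB.xg 24 1 * W.X.hB.xg 33 (1 ^ 2 ^ m) = W.X.hB.xg 24 0 * W.X.hB.xg 33 0 := by
      rw [W.X.hB.xg_zero, W.X.hB.xg_zero, one_mul]; exact h
    exact one_ne_zero (W.pair_inj h').1
  · refine ⟨_, W.word_mem_UmW 1 0, W.word_mem_F quadPos 1 0, fun h => ?_⟩
    rw [← W.coe_word quadPos] at h
    have h' : (W.sys quadPos).word 1 0 = (W.sys quadPos).word 0 0 := by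
      apply Subtype.ext
      rw [h, (W.sys quadPos).word_eq 0 0]
      simp only [map_zero, zero_mul, add_zero]
      rw [(W.sys quadPos).nf_zero]
      rfl
    exact one_ne_zero ((W.sys quadPos).word_inj W.huniq h').1

/-- the `FixBN`. -/
noncomputable def fixBN : FixBN W.X :=
  { W.T.toFixCore with
    G1 := W.G1
    G1_fixed := W.G1_fixed
    G1_le := W.G1_le
    orbs := orbsF4
    orb_lt := sTabF4.lt
    sO := W.X.hB.nW
    sO_mem := W.sO_mem
    sO_eq := fun _ _ => ⟨1, one_mem _, (one_mul _).symm⟩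
    rank1 := W.rank1
    chain := chainF4t
    chain_mem := sTabF4.chain_mem
    chain_red := sTabF4.chain_red
    chain_long := sTabF4.chain_long
    cover := sTabF4.cover
    neg_all := by
      obtain ⟨T', W', hc⟩ := exists_checks chevF4 memF4
      intro L hL hcomm
      have hcomm' : ∀ r, r < chevF4.nroots → wAct chevF4 L (rhoRF4 r) = rhoRF4 (wAct chevF4 L r) := by
        rw [← W.hρR]; exact hcomm
      exact sTabF4.neg_all hc tabF4 L hL hcomm'
    sub_fixed := by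
      intro O hO O' hs hcomm
      have hcomm' : ∀ r, r < chevF4.nroots → wAct chevF4 O' (rhoRF4 r) = rhoRF4 (wAct chevF4 O' r) := by
        rw [← W.hρR]; exact hcomm
      exact sTabF4.sub_fixed O hO O' hs hcomm'
    orb_sq := sTabF4.orb_sq
    orb_inj := sTabF4.orb_inj
    orb_ne := W.orb_ne }

end F4Tw

/-- `²F₄` has a (B,N)-pair. -/
theorem exists_bnPair_F4 {K : Type*} [Field K] [Fintype K] {m : ℕ} (hK : Fintype.card K = 2 ^ (2 * m + 1)) :
    ∃ P : Cfsg.BNPair ↥(twistedF4 K (2 ^ m)),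
      P.B = (chevF4.borelSubgroup K ⊓ twistedF4 K (2 ^ m)).subgroupOf (twistedF4 K (2 ^ m)) ∧
      P.N = (chevF4.monomialSubgroup K ⊓ twistedF4 K (2 ^ m)).subgroupOf (twistedF4 K (2 ^ m)) := by
  obtain ⟨W⟩ := exists_F4Tw hK
  exact ⟨W.fixBN.bnPair, rfl, rfl⟩

end Cfsg.Agent.Lib.Helper18
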