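import Cfsg.Agent.Lib.Helper18.SuzWord

set_option autoImplicit false

/-! Class words are commutators with a torus element (abstract computation). -/

namespace Cfsg.Agent.Lib.Helper18.SuzWord

namespace Sys

variable {G K : Type*} [Group G] [Field K] (S : Sys G K)

theorem conj_word {h : G} {l : K}
    (hb : ∀ t, h * S.xb t * h⁻¹ = S.xb (l * t)) (ha : ∀ t, h * S.xa t * h⁻¹ = S.xa (S.f l * t))
    (h1 : ∀ t, h * S.x1 t * h⁻¹ = S.x1 (S.f l * l * t)) (h2 : ∀ t, h * S.x2 t * h⁻¹ = S.x2 (S.F l * l * t))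
    (t u : K) : h * S.word t u * h⁻¹ = S.word (l * t) (S.f l * l * u) := by
  unfold word
  have e : h * (S.xa (S.f t) * S.xb t * S.x1 (S.f t * t + u) * S.x2 (S.F u)) * h⁻¹ =
      (h * S.xa (S.f t) * h⁻¹) * (h * S.xb t * h⁻¹) * (h * S.x1 (S.f t * t + u) * h⁻¹) *
        (h * S.x2 (S.F u) * h⁻¹) := by group
  rw [e, ha, hb, h1, h2]
  simp only [map_mul, S.hFf]
  congr 2
  · congr 1; ring
  · congr 1; ring

lemma word_zero_zero : S.word 0 0 = 1 := by
  rw [S.word_eq]
  simp only [map_zero, zero_mul, add_zero]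
  exact S.nf_zero

lemma word_inv (t u : K) : (S.word t u)⁻¹ = S.word t (u + S.f t * t) := by
  rw [inv_eq_iff_mul_eq_one, S.word_mul, ← S.word_zero_zero]
  congr 1
  · exact S.add_self t
  · have := S.add_self (u + S.f t * t); linear_combination this

/-- all class words lie in a subgroup containing the commutators with a suitable torus element. -/
theorem word_mem_of_torus {h : G} {l : K}
    (hb : ∀ t, h * S.xb t * h⁻¹ = S.xb (l * t)) (ha : ∀ t, h * S.xa t * h⁻¹ = S.xa (S.f l * t))
    (h1 : ∀ t, h * S.x1 t * h⁻¹ = S.x1 (S.f l * l * t)) (h2 : ∀ t, h * S.x2 t * h⁻¹ = S.x2 (S.F l * l * t))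
    (hl : l ≠ 1) (hl' : S.f l * l ≠ 1) (N : Subgroup G)
    (hN : ∀ t u, h * S.word t u * h⁻¹ * (S.word t u)⁻¹ ∈ N) (t u : K) : S.word t u ∈ N := by
  have hc := S.conj_word hb ha h1 h2
  have hz : ∀ v, S.word 0 v ∈ N := by
    intro v
    have hne : S.f l * l + 1 ≠ 0 := by
      intro h0
      apply hl'
      have := S.add_self (1 : K)
      linear_combination h0 - this
    have := hN 0 (v / (S.f l * l + 1))
    rw [hc, S.word_inv, S.word_mul] at this
    simp only [map_zero, mul_zero, zero_mul, add_zero] at this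
    have e : S.f l * l * (v / (S.f l * l + 1)) + v / (S.f l * l + 1) = v := by
      field_simp
    rwa [e] at this
  have hne : l + 1 ≠ 0 := by
    intro h0
    apply hl
    have := S.add_self (1 : K)
    linear_combination h0 - this
  have h3 := hN (t / (l + 1)) 0
  rw [hc, S.word_inv, S.word_mul] at h3
  have e : l * (t / (l + 1)) + t / (l + 1) = t := by field_simp
  rw [e] at h3
  set c := S.f l * l * 0 + (0 + S.f (t / (l + 1)) * (t / (l + 1))) + S.f (l * (t / (l + 1))) * (t / (l + 1)) with hcdef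
  have h4 := mul_mem h3 (hz (u + c))
  rw [S.word_mul] at h4
  have e2 : c + (u + c) + S.f t * 0 = u := by
    have := S.add_self c; linear_combination this
  rwa [add_zero, e2] at h4

end Sys

end Cfsg.Agent.Lib.Helper18.SuzWord
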