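import Cfsg.Agent.Lib.Helper18.F4H
import Cfsg.Agent.Lib.Helper18.SuzPerf

set_option autoImplicit false
set_option maxRecDepth 100000

/-! `²F₄(2^(2m+1))` is perfect for `m ≥ 1`. -/

namespace Cfsg.Agent.Lib.Helper18

open Cfsg.Lie Matrix Cfsg.Agent.Lib.Helper36 Cfsg.Agent.Lib.Helper17 Cfsg.Agent.Lib.Lead.FixTwist
  Cfsg.Agent.Lib.Lead.ChevSpecial

section general

open scoped commutatorElement

variable {G : Type*} [Group G] (H : Subgroup G)

/-- the derived subgroup of a subgroup, in the ambient group -/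
def derS : Subgroup G := (commutator ↥H).map H.subtype

theorem comm_mem_derS {a b : G} (ha : a ∈ H) (hb : b ∈ H) : a * b * a⁻¹ * b⁻¹ ∈ derS H :=
  ⟨⁅(⟨a, ha⟩ : ↥H), ⟨b, hb⟩⁆, by
    rw [commutator_def]
    exact Subgroup.commutator_mem_commutator (Subgroup.mem_top _) (Subgroup.mem_top _), rfl⟩

theorem conj_mem_derS {a d : G} (ha : a ∈ H) (hd : d ∈ derS H) : a * d * a⁻¹ ∈ derS H := by
  obtain ⟨x, hx, rfl⟩ := hd
  exact ⟨⟨a, ha⟩ * x * ⟨a, ha⟩⁻¹, (inferInstance : (commutator ↥H).Normal).conj_mem x hx _, rfl⟩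

theorem commutator_eq_top_of_le_derS (h : H ≤ derS H) : commutator ↥H = ⊤ := by
  rw [eq_top_iff]
  rintro ⟨x, hx⟩ -
  obtain ⟨y, hy, e⟩ := h hx
  have : y = ⟨x, hx⟩ := Subtype.ext e
  rwa [this] at hy

end general

namespace F4Tw

variable {K : Type*} [Field K] [Fintype K] {m : ℕ} (W : F4Tw K m)

/-- a torus element. -/
noncomputable def hA (a : Kˣ) : GL chevF4.Idx K := W.X.hB.hg 33 ((a : K) ^ 2 ^ m) * W.X.hB.hg 24 a

lemma hA_eq (a : Kˣ) : W.hA a = W.X.hB.hHom (mk4 (a ^ 2 ^ m) (1 ^ 2 ^ m) 1 a) := by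
  rw [W.hHom_mk4, one_pow, Units.val_one, W.X.hB.hg_one, W.X.hB.hg_one, mul_one, mul_one, Units.val_pow_eq_pow_val]
  rfl

lemma hA_mem_H (a : Kˣ) : W.hA a ∈ chevF4.diagonalSubgroup K := by
  rw [W.hA_eq, ← W.X.hB.range_hHom W.X.hT.tab]
  exact ⟨_, rfl⟩

lemma hA_mem_G1 (a : Kˣ) : W.hA a ∈ twistedF4 K (2 ^ m) := by
  have h : W.hA a ∈ chevF4.diagonalSubgroup K ⊓ W.T.F := by
    refine ⟨W.hA_mem_H a, W.X.hB.H_le_group W.X.hT.tab (W.hA_mem_H a), ?_⟩
    rw [W.hA_eq, W.s_mk4, W.pow_q, W.pow_q]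
  rw [← W.H_inf_G1] at h
  exact h.2

lemma hA_conj (a : Kˣ) {s : ℕ} (hs : s < chevF4.nroots) (t : K) :
    W.hA a * W.X.hB.xg s t * (W.hA a)⁻¹ =
      W.X.hB.xg s (((a : K) ^ 2 ^ m) ^ (chevF4.cartan 0 s) * ((a : K) ^ (chevF4.cartan 3 s) * t)) := by
  have s0 : chevF4.simple 0 = 33 := by decide +kernel
  have s3 : chevF4.simple 3 = 24 := by decide +kernel
  have h0 := W.X.hB.hg_simple_conj_xg (i := 0) (by decide) hs (c := (a : K) ^ 2 ^ m)
    (pow_ne_zero _ a.ne_zero)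
  have h3 := W.X.hB.hg_simple_conj_xg (i := 3) (by decide) hs (c := (a : K)) a.ne_zero
  rw [s0] at h0
  rw [s3] at h3
  unfold hA
  rw [← h0, ← h3]
  group

/-- class words are in the derived subgroup. -/
lemma word_mem_derS {a b ab aab : ℕ} (Q : Quad a b ab aab)
    (hmem : ∀ t u : K, W.X.hB.wg (b2ClassWord (2 ^ m) a b ab aab t u) ∈ twistedF4 K (2 ^ m))
    (c : Kˣ) (l : K) (hl0 : l ≠ 0) (hl : l ≠ 1)
    (hb : ∀ t, W.hA c * W.X.hB.xg b t * (W.hA c)⁻¹ = W.X.hB.xg b (l * t))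
    (ha : ∀ t, W.hA c * W.X.hB.xg a t * (W.hA c)⁻¹ = W.X.hB.xg a (l ^ 2 ^ m * t))
    (h1 : ∀ t, W.hA c * W.X.hB.xg ab t * (W.hA c)⁻¹ = W.X.hB.xg ab (l ^ 2 ^ m * l * t))
    (h2 : ∀ t, W.hA c * W.X.hB.xg aab t * (W.hA c)⁻¹ = W.X.hB.xg aab (l ^ 2 ^ (m + 1) * l * t))
    (t u : K) : W.X.hB.wg (b2ClassWord (2 ^ m) a b ab aab t u) ∈ derS (twistedF4 K (2 ^ m)) := by
  have : Fact (Nat.Prime 2) := ⟨Nat.prime_two⟩
  have := W.char2
  set S := W.sys Q with hS
  have ef : ∀ x, S.f x = x ^ 2 ^ m := fun x => iterateFrobenius_def 2 m x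
  have eF : ∀ x, S.F x = x ^ 2 ^ (m + 1) := fun x => iterateFrobenius_def 2 (m + 1) x
  have hG : W.hA c ∈ chevF4.group K := W.X.hB.H_le_group W.X.hT.tab (W.hA_mem_H c)
  have hl' : S.f l * l ≠ 1 := by
    intro h0
    have e1 : S.f l = l⁻¹ := eq_inv_of_mul_eq_one_left h0
    have e2 := S.hFf l
    rw [e1, S.hF, map_inv₀, e1, inv_inv] at e2
    apply hl
    have e3 : l * (l - 1) = 0 := by linear_combination e2
    rcases mul_eq_zero.mp e3 with h | h
    · exact absurd h hl0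
    · linear_combination h
  have key := S.word_mem_of_torus (h := ⟨W.hA c, hG⟩) (l := l)
    (fun t => Subtype.ext (hb t)) (fun t => Subtype.ext (by rw [ef]; exact ha t))
    (fun t => Subtype.ext (by rw [ef]; exact h1 t)) (fun t => Subtype.ext (by rw [eF]; exact h2 t))
    hl hl' ((derS (twistedF4 K (2 ^ m))).subgroupOf (chevF4.group K)) (by
      intro t u
      rw [Subgroup.mem_subgroupOf]
      have := comm_mem_derS (twistedF4 K (2 ^ m)) (W.hA_mem_G1 c) (hmem t u)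
      rw [← W.coe_word Q] at this
      exact this) t u
  rw [Subgroup.mem_subgroupOf, W.coe_word Q] at key
  exact key

/-- pair words are in the derived subgroup. -/
lemma pair_mem_derS {r r' : ℕ} (P : Pair r r')
    (hmem : ∀ t : K, W.X.hB.wg (f4PairWord (2 ^ m) r r' t) ∈ twistedF4 K (2 ^ m))
    (c : Kˣ) (l : K) (hl : l ≠ 1)
    (h' : ∀ t, W.hA c * W.X.hB.xg r' t * (W.hA c)⁻¹ = W.X.hB.xg r' (l * t))
    (h : ∀ t, W.hA c * W.X.hB.xg r t * (W.hA c)⁻¹ = W.X.hB.xg r (l ^ 2 ^ m * t))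
    (t : K) : W.X.hB.wg (f4PairWord (2 ^ m) r r' t) ∈ derS (twistedF4 K (2 ^ m)) := by
  have : Fact (Nat.Prime 2) := ⟨Nat.prime_two⟩
  have := W.char2
  have hne : l + 1 ≠ 0 := by
    intro h0
    apply hl
    have := CharTwo.add_self_eq_zero (1 : K)
    linear_combination h0 - this
  set s := t / (l + 1) with hs
  have key := comm_mem_derS (twistedF4 K (2 ^ m)) (W.hA_mem_G1 c) (hmem s)
  have e : W.hA c * W.X.hB.wg (f4PairWord (2 ^ m) r r' s) * (W.hA c)⁻¹ *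
      (W.X.hB.wg (f4PairWord (2 ^ m) r r' s))⁻¹ = W.X.hB.wg (f4PairWord (2 ^ m) r r' t) := by
    simp only [f4PairWord, Base.wg, List.map_cons, List.map_nil, List.prod_cons, List.prod_nil, mul_one]
    have e1 : W.hA c * (W.X.hB.xg r (s ^ 2 ^ m) * W.X.hB.xg r' s) * (W.hA c)⁻¹ *
        (W.X.hB.xg r (s ^ 2 ^ m) * W.X.hB.xg r' s)⁻¹ =
        (W.hA c * W.X.hB.xg r (s ^ 2 ^ m) * (W.hA c)⁻¹) * ((W.hA c * W.X.hB.xg r' s * (W.hA c)⁻¹) *
          (W.X.hB.xg r' s)⁻¹) * (W.X.hB.xg r (s ^ 2 ^ m))⁻¹ := by group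
    rw [e1, h, h', W.X.hB.xg_inv, W.X.hB.xg_inv, W.X.hB.xg_add, mul_assoc,
      ← (W.comm P.c _ _).eq, ← mul_assoc, W.X.hB.xg_add]
    have e2 : l * s + -s = t := by
      rw [CharTwo.neg_eq, hs]; field_simp
    have e3 : l ^ 2 ^ m * s ^ 2 ^ m + -s ^ 2 ^ m = t ^ 2 ^ m := by
      rw [← e2, CharTwo.neg_eq, CharTwo.neg_eq, add_pow_char_pow, mul_pow]
    rw [e2, e3]
  rw [e] at key
  exact key

include W in
lemma exists_ne_one (hm : 1 ≤ m) : ∃ c : Kˣ, c ≠ 1 := by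
  classical
  by_contra hcon
  push Not at hcon
  have h1 : Fintype.card Kˣ ≤ 1 := Fintype.card_le_one_iff.mpr (fun a b => by rw [hcon a, hcon b])
  rw [Fintype.card_units, W.hK] at h1
  have : 2 ^ 3 ≤ 2 ^ (2 * m + 1) := Nat.pow_le_pow_right (by norm_num) (by omega)
  omega

include W in
theorem perfect (hm : 1 ≤ m) : commutator ↥(twistedF4 K (2 ^ m)) = ⊤ := by
  apply commutator_eq_top_of_le_derS
  obtain ⟨c, hc⟩ := W.exists_ne_one hm
  have hc0 : (c : K) ≠ 0 := c.ne_zero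
  have hc1 : (c : K) ≠ 1 := fun h => hc (Units.ext h)
  have hci : (c : K)⁻¹ ≠ 1 := fun h => hc1 (inv_eq_one.mp h)
  have := W.char2
  have hsq : (c : K) ^ 2 ≠ 1 := by
    intro h
    apply hc1
    have h2 : ((c : K) + 1) ^ 2 = 0 := by
      rw [CharTwo.add_sq, h, one_pow, CharTwo.add_self_eq_zero]
    have h3 := pow_eq_zero_iff (two_ne_zero) |>.mp h2
    have := CharTwo.add_self_eq_zero (1 : K)
    linear_combination h3 - this
  have hsqi : ((c : K) ^ 2)⁻¹ ≠ 1 := fun h => hsq (inv_eq_one.mp h)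
  unfold twistedF4 ChevalleyDatum.genSubgroup
  rw [Subgroup.closure_le]
  rintro x ⟨w, hw, e⟩
  have ex : x = W.X.hB.wg w := Units.ext (by rw [e, W.X.hB.coe_wg])
  rw [ex]
  have k33 : chevF4.cartan 0 33 = 2 ∧ chevF4.cartan 3 33 = 0 := by decide +kernel
  have k24 : chevF4.cartan 0 24 = 0 ∧ chevF4.cartan 3 24 = 2 := by decide +kernel
  have k14 : chevF4.cartan 0 14 = -2 ∧ chevF4.cartan 3 14 = 0 := by decide +kernel
  have k23 : chevF4.cartan 0 23 = 0 ∧ chevF4.cartan 3 23 = -2 := by decide +kernel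
  have k27 : chevF4.cartan 0 27 = -1 ∧ chevF4.cartan 3 27 = 0 := by decide +kernel
  have k25 : chevF4.cartan 0 25 = 0 ∧ chevF4.cartan 3 25 = -1 := by decide +kernel
  have k28 : chevF4.cartan 0 28 = -1 ∧ chevF4.cartan 3 28 = -1 := by decide +kernel
  have k30 : chevF4.cartan 0 30 = -2 ∧ chevF4.cartan 3 30 = -1 := by decide +kernel
  have k20 : chevF4.cartan 0 20 = 1 ∧ chevF4.cartan 3 20 = 0 := by decide +kernel
  have k22 : chevF4.cartan 0 22 = 0 ∧ chevF4.cartan 3 22 = 1 := by decide +kernel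
  have k19 : chevF4.cartan 0 19 = 1 ∧ chevF4.cartan 3 19 = 1 := by decide +kernel
  have k17 : chevF4.cartan 0 17 = 2 ∧ chevF4.cartan 3 17 = 1 := by decide +kernel
  rcases hw with ⟨t, rfl | rfl⟩ | ⟨t, u, rfl | rfl⟩
  · refine W.pair_mem_derS pairPos W.pairPos_mem c ((c : K) ^ 2) hsq ?_ ?_ t
    · intro t
      rw [W.hA_conj c (by decide), k24.1, k24.2]
      congr 1
      simp [zpow_ofNat]
    · intro t
      rw [W.hA_conj c (by decide), k33.1, k33.2]
      congr 1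
      simp only [zpow_ofNat, zpow_zero, one_mul]
      ring
  · refine W.pair_mem_derS pairNeg W.pairNeg_mem c ((c : K) ^ 2)⁻¹ hsqi ?_ ?_ t
    · intro t
      rw [W.hA_conj c (by decide), k23.1, k23.2]
      congr 1
      simp [_root_.zpow_neg, zpow_ofNat]
    · intro t
      rw [W.hA_conj c (by decide), k14.1, k14.2]
      congr 1
      simp only [_root_.zpow_neg, zpow_ofNat, zpow_zero, one_mul, inv_pow]
      ring
  · refine W.word_mem_derS quadPos W.wordPos_mem c (c : K)⁻¹ (inv_ne_zero hc0) hci ?_ ?_ ?_ ?_ t u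
    · intro t
      rw [W.hA_conj c (by decide), k25.1, k25.2]
      congr 1
      simp [_root_.zpow_neg]
    · intro t
      rw [W.hA_conj c (by decide), k27.1, k27.2]
      congr 1
      simp [_root_.zpow_neg]
    · intro t
      rw [W.hA_conj c (by decide), k28.1, k28.2]
      congr 1
      simp only [_root_.zpow_neg, zpow_one, inv_pow]
      ring
    · intro t
      rw [W.hA_conj c (by decide), k30.1, k30.2]
      congr 1
      simp only [_root_.zpow_neg, zpow_one, zpow_ofNat, inv_pow, pow_succ 2 m, pow_mul]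
      ring
  · refine W.word_mem_derS quadNeg W.wordNeg_mem c (c : K) hc0 hc1 ?_ ?_ ?_ ?_ t u
    · intro t
      rw [W.hA_conj c (by decide), k22.1, k22.2]
      congr 1
      simp
    · intro t
      rw [W.hA_conj c (by decide), k20.1, k20.2]
      congr 1
      simp
    · intro t
      rw [W.hA_conj c (by decide), k19.1, k19.2]
      congr 1
      simp only [zpow_one]
      ring
    · intro t
      rw [W.hA_conj c (by decide), k17.1, k17.2]
      congr 1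
      simp only [zpow_one, zpow_ofNat, pow_succ 2 m, pow_mul]
      ring

end F4Tw

end Cfsg.Agent.Lib.Helper18
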