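import Cfsg.Agent.Lib.Helper18.FixOrder
import Cfsg.Agent.Lib.Helper18.ChevCore
import Cfsg.Agent.S0319

set_option autoImplicit false

/-! Simplicity of a twisted group from perfectness. -/

namespace Cfsg.Agent.Lib.Helper18

open Cfsg.Lie Matrix Cfsg.Agent.Lib.Helper6 Cfsg.Agent.Lib.Lead.FixTwist

variable {D : ChevalleyDatum} {K : Type*} [Field K]

namespace FixB

variable {X : BNData D K} (T : FixBN X)

lemma comm_not_mem_B {O O' : List ℕ} (hO : O ∈ T.orbs) (hO' : O' ∈ T.orbs)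
    (hne : wPerm X.hT.tab O (T.orb_lt O hO) * wPerm X.hT.tab O' (T.orb_lt O' hO') ≠
      wPerm X.hT.tab O' (T.orb_lt O' hO') * wPerm X.hT.tab O (T.orb_lt O hO)) :
    T.sO O * T.sO O' * (T.sO O)⁻¹ * (T.sO O')⁻¹ ∉ D.borelSubgroup K := by
  intro hB
  have h1 := T.sO_mem_N hO
  have h2 := T.sO_mem_N hO'
  have hN : T.sO O * T.sO O' * (T.sO O)⁻¹ * (T.sO O')⁻¹ ∈ D.monomialSubgroup K :=
    mul_mem (mul_mem (mul_mem h1 h2) (inv_mem h1)) (inv_mem h2)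
  have hH : T.sO O * T.sO O' * (T.sO O)⁻¹ * (T.sO O')⁻¹ ∈ D.diagonalSubgroup K := by
    rw [← X.hB.B_inf_N X.hT.toTabs]; exact ⟨hB, hN⟩
  rw [← X.act_eq_one_iff hN, X.act_mul (mul_mem (mul_mem h1 h2) (inv_mem h1)) (inv_mem h2),
    X.act_mul (mul_mem h1 h2) (inv_mem h1), X.act_mul h1 h2, X.act_inv h1, X.act_inv h2, T.act_sO hO,
    T.act_sO hO'] at hH
  apply hne
  rw [mul_inv_eq_one, mul_inv_eq_iff_eq_mul] at hH
  exact hH

theorem irreducible (hconn : ∀ P : List ℕ → Prop, (∃ O ∈ T.orbs, P O) → (∃ O ∈ T.orbs, ¬ P O) →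
    ∃ O, ∃ hO : O ∈ T.orbs, ∃ O', ∃ hO' : O' ∈ T.orbs, P O ∧ ¬ P O' ∧
      wPerm X.hT.tab O (T.orb_lt O hO) * wPerm X.hT.tab O' (T.orb_lt O' hO') ≠
      wPerm X.hT.tab O' (T.orb_lt O' hO') * wPerm X.hT.tab O (T.orb_lt O hO)) :
    T.bnPair.Irreducible := by
  rintro J hJ ⟨s, hs⟩ ⟨s', hs', hs'J⟩
  obtain ⟨O1, hO1, e1⟩ := hJ hs
  obtain ⟨O2, hO2, e2⟩ := hs'
  obtain ⟨O, hO, O', hO', ⟨x, hx, ex⟩, hP', hne⟩ := hconn (fun O => ∃ x ∈ J, (x : GL D.Idx K) = T.sO O)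
    ⟨O1, hO1, s, hs, e1⟩ ⟨O2, hO2, by
      rintro ⟨x, hx, ex⟩
      exact hs'J ((Subtype.ext (e2.trans ex.symm) : s' = x) ▸ hx)⟩
  refine ⟨x, hx, ⟨T.sO O', T.sO_mem O' hO'⟩, ⟨⟨O', hO', rfl⟩, fun h => hP' ⟨_, h, rfl⟩⟩, fun h => ?_⟩
  have h2 := (T.mem_B1 _).1 h
  apply comm_not_mem_B T hO hO' hne
  rw [← ex]
  exact h2

theorem solvable_B1 : Group.IsSolvable ↥T.bnPair.B := by
  have := X.hB.B_solvable X.hT.toTabs
  let f : ↥T.bnPair.B →* ↥(D.borelSubgroup K) :=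
    { toFun := fun x => ⟨(x.1 : GL D.Idx K), (T.mem_B1 x.1).1 x.2⟩
      map_one' := rfl
      map_mul' := fun _ _ => rfl }
  refine Group.isSolvable_of_isSolvable_injective (f := f) ?_
  intro x y h
  exact Subtype.ext (Subtype.ext (congrArg (fun z : ↥(D.borelSubgroup K) => (z : GL D.Idx K)) h))

theorem nontrivial_G1 (hne : T.orbs ≠ []) : Nontrivial ↥T.G1 := by
  obtain ⟨O, hO⟩ := List.exists_mem_of_ne_nil _ hne
  obtain ⟨u, hu, hf, h1⟩ := T.orb_ne O hO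
  exact ⟨⟨u, T.rank1 O hO u hu hf⟩, 1, fun h => h1 (congrArg Subtype.val h)⟩

theorem simple (hne : T.orbs ≠ [])
    (hconn : ∀ P : List ℕ → Prop, (∃ O ∈ T.orbs, P O) → (∃ O ∈ T.orbs, ¬ P O) →
    ∃ O, ∃ hO : O ∈ T.orbs, ∃ O', ∃ hO' : O' ∈ T.orbs, P O ∧ ¬ P O' ∧
      wPerm X.hT.tab O (T.orb_lt O hO) * wPerm X.hT.tab O' (T.orb_lt O' hO') ≠
      wPerm X.hT.tab O' (T.orb_lt O' hO') * wPerm X.hT.tab O (T.orb_lt O hO))
    (hp : commutator ↥T.G1 = ⊤)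
    (hcore : ((D.borelSubgroup K ⊓ T.G1).subgroupOf T.G1).normalCore = ⊥) :
    IsSimpleGroup ↥T.G1 ∧ ¬ IsMulCommutative ↥T.G1 := by
  have hnt := nontrivial_G1 T hne
  constructor
  · exact Cfsg.Agent.S0319.result (G := ↥T.G1) T.bnPair (irreducible T hconn) (solvable_B1 T) hp hcore
  · intro hc
    have h1 : commutator ↥T.G1 = ⊥ := by
      rw [commutator_def, Subgroup.commutator_eq_bot_iff_le_centralizer]
      intro x _
      rw [Subgroup.mem_centralizer_iff]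
      intro y _
      exact hc.is_comm.comm y x
    rw [h1] at hp
    exact bot_ne_top hp

end FixB

end Cfsg.Agent.Lib.Helper18
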