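import Cfsg.Agent.Lib.Helper18.F4Perf
import Cfsg.Agent.Lib.Helper18.F4Core
import Cfsg.Agent.Lib.Helper18.FixSimple

set_option autoImplicit false
set_option maxRecDepth 100000

/-! `²F₄(2^(2m+1))` is simple for `m ≥ 1`. -/

namespace Cfsg.Agent.Lib.Helper18

open Cfsg.Lie Matrix Cfsg.Agent.Lib.Lead.FixTwist

namespace F4Tw

variable {K : Type*} [Field K] [Fintype K] {m : ℕ} (W : F4Tw K m)

lemma w1w2_ne : W.w1 * W.w2 ≠ W.w2 * W.w1 := by
  intro h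
  have h2 : (W.w1 * W.w2) ^ 2 = 1 := by
    rw [sq]
    calc W.w1 * W.w2 * (W.w1 * W.w2) = W.w1 * W.w2 * (W.w2 * W.w1) := by rw [h]
      _ = W.w1 * (W.w2 * W.w2) * W.w1 := by group
      _ = 1 := by rw [W.w2_sq, mul_one, W.w1_sq]
  have h3 := orderOf_dvd_of_pow_eq_one h2
  rw [W.orderOf_w1w2] at h3
  norm_num at h3

include W in
theorem simple (hm : 1 ≤ m) :
    IsSimpleGroup ↥(twistedF4 K (2 ^ m)) ∧ ¬ IsMulCommutative ↥(twistedF4 K (2 ^ m)) := by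
  refine FixB.simple W.fixBN (by show orbsF4 ≠ []; decide) ?_ (W.perfect hm) (normalCore_F4 W.hK)
  rintro P ⟨O, hO, hP⟩ ⟨O', hO', hP'⟩
  have h1 : O ∈ orbsF4 := hO
  have h2 : O' ∈ orbsF4 := hO'
  simp only [orbsF4, List.mem_cons, List.not_mem_nil, or_false] at h1 h2
  rcases h1 with rfl | rfl <;> rcases h2 with rfl | rfl
  · exact absurd hP hP'
  · exact ⟨_, hO, _, hO', hP, hP', W.w1w2_ne⟩
  · exact ⟨_, hO, _, hO', hP, hP', W.w1w2_ne.symm⟩
  · exact absurd hP hP'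

end F4Tw

end Cfsg.Agent.Lib.Helper18
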