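import Cfsg.Agent.Lib.Helper18.FixCox
import Cfsg.Agent.Lib.Helper18.FixOfTwist
import Cfsg.Agent.Lib.Helper18.ChevWeylCoxData
import Cfsg.Agent.Lib.Helper18.TwistE6
import Cfsg.Agent.Lib.Helper18.TwistD4

set_option autoImplicit false
set_option maxRecDepth 100000

/-! `N¹ / H¹` for `²E₆(q)`, `³D₄(q)`. -/

namespace Cfsg.Agent.Lib.Helper18

open Cfsg.Lie Matrix Cfsg.Agent.Lib.Helper6 Cfsg.Agent.Lib.Lead.FixTwist

/-- the orbits, in the order of the diagram `F₄`. -/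
def oE6 : Fin 4 → List ℕ := ![[1], [3], [2, 4], [0, 5]]

theorem ordWE6 : ∀ i j : Fin 4, ordW reflTE6 72 (oE6 i) (oE6 j) (lk coxTF4 4 i j) = true := by
  decide +kernel

/-- the orbits, in the order of the diagram `G₂`. -/
def oD4 : Fin 2 → List ℕ := ![[1], [0, 2, 3]]

theorem ordWD4 : ∀ i j : Fin 2, ordW reflTD4 24 (oD4 i) (oD4 j) (lk coxTG2 2 i j) = true := by
  decide +kernel

theorem exists_cox_E6 {K : Type*} [Field K] [Fintype K] {q : ℕ} (hq : IsPrimePow q)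
    (hK : Fintype.card K = q ^ 2) :
    ∃ φ : ↥(chevE6.monomialSubgroup K ⊓ twistedE6 K q) →* (CoxeterMatrix.F₄).Group,
      Function.Surjective φ ∧
      φ.ker = (chevE6.diagonalSubgroup K ⊓ twistedE6 K q).subgroupOf
        (chevE6.monomialSubgroup K ⊓ twistedE6 K q) := by
  obtain ⟨T, hG, -, hO, -⟩ := exists_commData_E6 hq hK
  rw [← hG]
  have hO' : T.toTwistBN.toFixBN.orbs = orbsE6 := hO
  refine FixB.exists_cox_hom T.toTwistBN.toFixBN oE6 ?_ (by decide) ?_ CoxeterMatrix.F₄ ?_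
  · rw [hO']; decide
  · rw [hO']; decide
  · intro i j
    exact (orderOf_wPerm_mul _ agreeE6 _ _ (ordWE6 i j)).trans (congrFun (congrFun coxEqF4 i) j)

theorem exists_cox_D4 {K : Type*} [Field K] [Fintype K] {q : ℕ} (hq : IsPrimePow q)
    (hK : Fintype.card K = q ^ 3) :
    ∃ φ : ↥(chevD4.monomialSubgroup K ⊓ twistedD4 K q) →* (CoxeterMatrix.G₂).Group,
      Function.Surjective φ ∧
      φ.ker = (chevD4.diagonalSubgroup K ⊓ twistedD4 K q).subgroupOf
        (chevD4.monomialSubgroup K ⊓ twistedD4 K q) := by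
  obtain ⟨T, hG, -, hO, -⟩ := exists_commData_D4 hq hK
  rw [← hG]
  have hO' : T.toTwistBN.toFixBN.orbs = orbsD4 := hO
  refine FixB.exists_cox_hom T.toTwistBN.toFixBN oD4 ?_ (by decide) ?_ CoxeterMatrix.G₂ ?_
  · rw [hO']; decide
  · rw [hO']; decide
  · intro i j
    exact (orderOf_wPerm_mul _ agreeD4 _ _ (ordWD4 i j)).trans (congrFun (congrFun coxEqG2 i) j)

end Cfsg.Agent.Lib.Helper18
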