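import Cfsg.Agent.Lib.Helper18.FoldPoin
import Cfsg.Agent.Lib.Helper18.TwistOrder

set_option autoImplicit false

/-! The sum over `W¹` by a chain of parabolic subgroups. -/

namespace Cfsg.Agent.Lib.Helper18

open Cfsg.Lie Matrix Cfsg.Agent.Lib.Helper6 Cfsg.Agent.Lib.Helper36

variable {D : ChevalleyDatum} {K : Type*} [Field K]

namespace TwistBN

variable {X : BNData D K} (T : TwistBN X)

open Classical in
theorem sum_W1_fold {S Tt R : ℕ} (hA : agreeB D S Tt = true)
    (hR : ∀ k < T.orbs.length, ∀ r < D.nroots,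
      lk R D.nroots k r = wActT Tt D.nroots (T.orbs.getD k []) r)
    (K0 : ℕ) (Ps : List PStep) (hch : PChain D.nroots T.orbs.length R K0 Ps)
    (hK : ∀ k < T.orbs.length, bitB K0 k = true) (q : ℕ) :
    ∑ π ∈ Finset.univ.filter (fun π : Equiv.Perm (Fin D.nroots) => π ∈ Subgroup.closure T.W1gens),
      q ^ invc (fun r : Fin D.nroots => D.IsPosRoot r) π = (Ps.map fun P => evalL P.pl q).prod := by
  have hTt := X.hT.tab
  set g : ℕ → Equiv.Perm (Fin D.nroots) := fun k =>
    if h : k < T.orbs.length then wPerm hTt (T.orbs[k]) (T.orb_lt _ (List.getElem_mem h)) else 1 with hg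
  have hgk : ∀ k (h : k < T.orbs.length),
      g k = wPerm hTt (T.orbs[k]) (T.orb_lt _ (List.getElem_mem h)) := by
    intro k h
    simp only [hg, dif_pos h]
  have hgk' : ∀ k, ¬ k < T.orbs.length → g k = 1 := by
    intro k h
    simp only [hg, dif_neg h]
  let G : GenTab D.nroots T.orbs.length R :=
    { g := g
      val := by
        intro k hk r
        rw [hgk k hk, wPerm_apply, wAct_eq_wActT hTt hA (T.orb_lt _ (List.getElem_mem hk)) r.2,
          hR k hk r r.2, List.getD_eq_getElem _ _ hk]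
      sq := by
        intro k
        by_cases hk : k < T.orbs.length
        · rw [hgk k hk]
          ext r
          exact T.orb_sq _ (List.getElem_mem hk) r r.2
        · rw [hgk' k hk, one_mul]
      neg := by
        intro k r
        by_cases hk : k < T.orbs.length
        · rw [hgk k hk]
          apply Fin.ext
          have h1 := hTt.wAct_neg (T.orb_lt _ (List.getElem_mem hk)) r.2
          rw [hTt.neg_eq r r.2, hTt.neg_eq _ (hTt.wAct_lt (T.orb_lt _ (List.getElem_mem hk)) r.2)] at h1
          exact h1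
        · rw [hgk' k hk]; rfl
      even := hTt.even }
  have hW : Subgroup.closure T.W1gens = G.parab K0 := by
    unfold GenTab.parab
    congr 1
    ext s
    constructor
    · rintro ⟨O, hO, rfl⟩
      obtain ⟨k, hk, rfl⟩ := List.mem_iff_getElem.mp hO
      exact ⟨k, hk, hK k hk, (hgk k hk).symm⟩
    · rintro ⟨k, hk, -, rfl⟩
      exact ⟨T.orbs[k], List.getElem_mem hk, hgk k hk⟩
  have h1 := G.chain_sound K0 Ps hch q
  rw [evalL_prodL, List.map_map] at h1
  have h2 : (Ps.map ((fun L => evalL L q) ∘ fun P => P.pl)) = Ps.map fun P => evalL P.pl q := rfl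
  rw [h2] at h1
  rw [← h1, hW]
  unfold poin
  apply Finset.sum_congr rfl
  intro π _
  congr 1
  unfold invc invCount
  congr 1
  apply Finset.filter_congr
  intro r _
  show D.IsPosRoot r ∧ ¬ D.IsPosRoot (π r : Fin D.nroots) ↔ _
  rw [hTt.pos_iff r r.2, hTt.pos_iff _ (π r).2]
  unfold posBn
  rw [Nat.ble_eq, ← Bool.not_eq_true, Nat.ble_eq]

end TwistBN

namespace CommData

variable {X : BNData D K} (T : CommData X)

/-- the order of `G¹`. -/
theorem card_G1_fold [Fintype K] {q k l : ℕ} (hK : Fintype.card K = q ^ k) (hf : ∀ t, T.f t = t ^ q)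
    (hcyc : Cyc T.ρ T.orbs l k) {S Tt R : ℕ} (hA : agreeB D S Tt = true)
    (hR : ∀ k < T.orbs.length, ∀ r < D.nroots,
      lk R D.nroots k r = wActT Tt D.nroots (T.orbs.getD k []) r)
    (K0 : ℕ) (Ps : List PStep) (hch : PChain D.nroots T.orbs.length R K0 Ps)
    (hK0 : ∀ k < T.orbs.length, bitB K0 k = true) :
    Nat.card ↥T.G1 = q ^ (D.nroots / 2) * Nat.card ↥(D.diagonalSubgroup K ⊓ T.G1) *
      (Ps.map fun P => evalL P.pl q).prod := by
  have h1 := T.toTwistBN.card_G1 (T.card_rank1' hK hf hcyc)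
  rw [T.toTwistBN.sum_W1_fold hA hR K0 Ps hch hK0 q] at h1
  exact h1

end CommData

end Cfsg.Agent.Lib.Helper18
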