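import Cfsg.Agent.Lib.Helper18.TwistHLem
import Cfsg.Agent.Lib.Helper18.TwistD4

set_option autoImplicit false

/-! The order of `H¹` in `³D₄(q)`. -/

namespace Cfsg.Agent.Lib.Helper18

open Cfsg.Lie Matrix

namespace TwD4

def rhoF : Equiv.Perm (Fin 4) := ⟨![2, 1, 3, 0], ![3, 1, 0, 2], by decide, by decide⟩

def cartA : Matrix (Fin 4) (Fin 4) ℤ := !![2, -1, 0, 0; -1, 2, -1, -1; 0, -1, 2, 0; 0, -1, 0, 2]

def hermM : Matrix (Fin 4) (Fin 4) ℤ := !![2, 0, 0, -1; 0, 1, 0, 0; 0, 0, 2, -1; 0, 0, 0, 1]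

theorem cart_eq : (Matrix.of fun i j : Fin 4 => chevD4.cartan i (chevD4.simple j)) = cartA := by
  decide +kernel

variable {G : Type*} [CommGroup G]

lemma mem_ker_herm (c : Fin 4 → G) :
    c ∈ (muMap (G := G) hermM).ker ↔ c 0 ^ 2 = 1 ∧ c 1 = 1 ∧ c 2 ^ 2 = 1 ∧ c 3 = c 0 * c 2 := by
  rw [MonoidHom.mem_ker, funext_iff]
  simp only [Fin.forall_fin_succ, muMap_apply, Fin.prod_univ_succ, hermM]
  simp
  intro _ _ _
  rw [inv_mul_eq_one, eq_inv_mul_iff_mul_eq, mul_comm (c 2)]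
  exact eq_comm

lemma mem_ker_cart (c : Fin 4 → G) :
    c ∈ (muMap (G := G) cartA).ker ↔ c 0 ^ 2 = 1 ∧ c 1 = 1 ∧ c 2 ^ 2 = 1 ∧ c 3 = c 0 * c 2 := by
  rw [ker_muMap_eq_of cartA hermM
    !![2, 1, 1, -1; 2, 2, 2, -1; 1, 1, 2, -1; 1, 1, 1, 0]
    !![1, -1, 0, 1; -1, 2, -1, -1; 0, -1, 1, 1; 0, -1, 0, 2]
    (by decide +kernel) (by decide +kernel)]
  exact mem_ker_herm c

lemma ker_pow_two (z : Fin 4 → G) (hz : z ∈ (muMap (G := G) cartA).ker) : z ^ 2 = 1 := by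
  rw [mem_ker_cart] at hz
  obtain ⟨z0, z1, z2, z3⟩ := hz
  funext i
  fin_cases i
  · exact z0
  · show z 1 ^ 2 = 1
    rw [z1, one_pow]
  · exact z2
  · show z 3 ^ 2 = 1
    rw [z3, mul_pow, z0, z2, one_mul]

variable (q : ℕ)

lemma mem_C0 (c : Fin 4 → G) : c ∈ C0L (powMonoidHom q) rhoF ↔
    c 2 = c 0 ^ q ∧ c 1 = c 1 ^ q ∧ c 3 = c 2 ^ q ∧ c 0 = c 3 ^ q := by
  rw [mem_C0L]
  simp only [powMonoidHom_apply]
  constructor
  · intro h
    exact ⟨h 0, h 1, h 2, h 3⟩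
  · rintro ⟨h0, h1, h2, h3⟩ i
    fin_cases i
    exacts [h0, h1, h2, h3]

theorem Z0_eq_bot : (muMap (G := G) cartA).ker ⊓ C0L (powMonoidHom q) rhoF = ⊥ := by
  rw [eq_bot_iff]
  intro c hcc
  obtain ⟨hz, hc⟩ := Subgroup.mem_inf.mp hcc
  rw [mem_ker_cart] at hz
  rw [mem_C0] at hc
  obtain ⟨z0, z1, z2, z3⟩ := hz
  obtain ⟨h0, h1, h2, h3⟩ := hc
  have key : ∀ u : G, u ^ 2 = 1 → (u ^ q = 1 ∧ Even q) ∨ (u ^ q = u ∧ Odd q) := by
    intro u hu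
    rcases Nat.even_or_odd' q with ⟨m, hm | hm⟩
    · exact Or.inl ⟨by rw [hm, pow_mul, hu, one_pow], ⟨m, by omega⟩⟩
    · exact Or.inr ⟨by rw [hm, pow_succ, pow_mul, hu, one_pow, one_mul], ⟨m, hm⟩⟩
  have hc0 : c 0 = 1 := by
    rcases key (c 0) z0 with ⟨e, he⟩ | ⟨e, ho⟩
    · rw [e] at h0
      rw [h0, one_pow] at h2
      rw [h2, one_pow] at h3
      exact h3
    · rw [e] at h0
      rw [h0, e] at h2
      rw [h2, h0, ← pow_two, z0] at z3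
      exact z3
  rw [hc0, one_pow] at h0
  rw [h0, one_pow] at h2
  rw [Subgroup.mem_bot]
  funext i
  fin_cases i
  exacts [hc0, z1, h0, h2]

variable {q} [Finite G] (hq : 1 ≤ q) (hG : Nat.card G = q ^ 3 - 1)
include hq hG

lemma pow_qqq (u : G) : ((u ^ q) ^ q) ^ q = u := by
  have h1 : u ^ (q ^ 3 - 1) = 1 := by rw [← hG]; exact pow_card_eq_one'
  have h2 : q * q * q = (q ^ 3 - 1) + 1 := by
    have : 1 ≤ q ^ 3 := Nat.one_le_pow _ _ hq
    have e : q ^ 3 = q * q * q := by ring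
    omega
  rw [← pow_mul, ← pow_mul, ← mul_assoc, h2, pow_succ, h1, one_mul]

lemma sig_sig (c : Fin 4 → G) :
    sigL (powMonoidHom q) rhoF (sigL (powMonoidHom q) rhoF (sigL (powMonoidHom q) rhoF c)) = c := by
  ext1 j
  have hj : ∀ j : Fin 4, rhoF.symm (rhoF.symm (rhoF.symm j)) = j := by decide
  simp only [sigL, MonoidHom.coe_mk, OneHom.coe_mk, powMonoidHom_apply]
  rw [pow_qqq hq hG, hj]

theorem card_C0 [IsCyclic G] :
    Nat.card ↥(C0L (powMonoidHom (α := G) q) rhoF) = (q - 1) * (q ^ 3 - 1) := by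
  have hqq := pow_qqq (G := G) hq hG
  have e : ↥(C0L (powMonoidHom (α := G) q) rhoF) ≃ {x : G // x = x ^ q} × G :=
    { toFun := fun c => (⟨c.1 1, ((mem_C0 q c.1).1 c.2).2.1⟩, c.1 0)
      invFun := fun p => ⟨![p.2, p.1.1, p.2 ^ q, (p.2 ^ q) ^ q],
        (mem_C0 q _).2 ⟨rfl, p.1.2, rfl, (hqq _).symm⟩⟩
      left_inv := by
        rintro ⟨c, hc⟩
        obtain ⟨h0, h1, h2, h3⟩ := (mem_C0 q c).1 hc
        apply Subtype.ext
        funext i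
        fin_cases i
        · rfl
        · rfl
        · exact h0.symm
        · show (c 0 ^ q) ^ q = c 3
          rw [← h0, ← h2]
      right_inv := by
        rintro ⟨⟨a, ha⟩, x⟩
        rfl }
  rw [Nat.card_congr e, Nat.card_prod, card_pow_fixed_cyc hq hG, hG]

end TwD4

/-- the order of `H¹` in `³D₄(q)`. -/
theorem card_H1_D4 {K : Type*} [Field K] [Fintype K] {q : ℕ} (hq : IsPrimePow q)
    (hK : Fintype.card K = q ^ 3) :
    Nat.card ↥(chevD4.diagonalSubgroup K ⊓ twistedD4 K q) = (q - 1) ^ 2 * (q ^ 2 + q + 1) := by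
  classical
  obtain ⟨T, hG, hf, hO, hρ, -⟩ := exists_commData_D4 hq hK
  obtain ⟨T', W, hc⟩ := Cfsg.Agent.Lib.Helper36.exists_checks chevD4 (by simp)
  have hq1 : 1 ≤ q := hq.pos
  have hcard : Nat.card Kˣ = q ^ 3 - 1 := by
    rw [Nat.card_eq_fintype_card, Fintype.card_units, hK]
  have h := T.card_H1' (l := 4) rfl TwD4.rhoF (by rw [hρ]; decide +kernel) (powMonoidHom q)
    (by
      intro u
      apply Units.ext
      rw [powMonoidHom_apply, Units.val_pow_eq_pow_val]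
      exact hf u) TwD4.cartA TwD4.cart_eq hc (by rw [hO]; decide +kernel)
    (Or.inr ⟨TwD4.sig_sig hq1 hcard, TwD4.ker_pow_two⟩)
  rw [TwD4.Z0_eq_bot, Subgroup.card_bot, one_mul, TwD4.card_C0 hq1 hcard, hG] at h
  rw [h]
  obtain ⟨m, rfl⟩ : ∃ m, q = m + 1 := ⟨q - 1, by omega⟩
  have e : (m + 1) ^ 3 - 1 = m * ((m + 1) ^ 2 + (m + 1) + 1) := by
    apply Nat.sub_eq_of_eq_add
    ring
  rw [e]
  simp only [Nat.add_sub_cancel]
  ring

end Cfsg.Agent.Lib.Helper18
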