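import Cfsg.Agent.Lib.Helper18.FoldBridge
import Cfsg.Agent.Lib.Helper18.FoldData
import Cfsg.Agent.Lib.Helper18.TwistHE6
import Cfsg.Agent.Lib.Helper18.TwistHD4

set_option autoImplicit false

/-! The orders of `²E₆(q)` and `³D₄(q)`. -/

namespace Cfsg.Agent.Lib.Helper18

open Cfsg.Lie Cfsg.Agent.Lib.Helper36 Finset

theorem pred_mul_geom (q d : ℕ) : q ^ d - 1 = (q - 1) * ∑ i ∈ range d, q ^ i := by
  rcases Nat.eq_zero_or_pos q with rfl | hq
  · rcases Nat.eq_zero_or_pos d with rfl | hd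
    · simp
    · simp [hd.ne']
  · have h1 := geom_sum_mul_add (q - 1) d
    have h0 : q - 1 + 1 = q := by omega
    rw [h0] at h1
    rw [← h1, Nat.add_sub_cancel, mul_comm]

theorem polyE6 (q : ℕ) : q ^ 36 * ((q - 1) ^ 4 * (q + 1) ^ 2) *
      ([foldE6_0, foldE6_1, foldE6_2, foldE6_3].map fun P => evalL P.pl q).prod =
    q ^ 36 * (q ^ 2 - 1) * (q ^ 5 + 1) * (q ^ 6 - 1) * (q ^ 8 - 1) * (q ^ 9 + 1) * (q ^ 12 - 1) := by
  simp only [pred_mul_geom]
  generalize q - 1 = m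
  simp only [Finset.sum_range_succ, Finset.sum_range_zero, List.map_cons, List.map_nil, List.prod_cons,
    List.prod_nil, foldE6_0, foldE6_1, foldE6_2, foldE6_3, evalL_cons, evalL_nil]
  ring

theorem polyD4 (q : ℕ) : q ^ 12 * ((q - 1) ^ 2 * (q ^ 2 + q + 1)) *
      ([foldD4_0, foldD4_1].map fun P => evalL P.pl q).prod =
    q ^ 12 * (q ^ 2 - 1) * (q ^ 6 - 1) * (q ^ 8 + q ^ 4 + 1) := by
  simp only [pred_mul_geom]
  generalize q - 1 = m
  simp only [Finset.sum_range_succ, Finset.sum_range_zero, List.map_cons, List.map_nil, List.prod_cons,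
    List.prod_nil, foldD4_0, foldD4_1, evalL_cons, evalL_nil]
  ring

theorem card_twistedE6 {K : Type*} [Field K] [Fintype K] {q : ℕ} (hq : IsPrimePow q)
    (hK : Fintype.card K = q ^ 2) :
    Nat.gcd 3 (q + 1) * Nat.card ↥(twistedE6 K q) =
      q ^ 36 * (q ^ 2 - 1) * (q ^ 5 + 1) * (q ^ 6 - 1) * (q ^ 8 - 1) * (q ^ 9 + 1) * (q ^ 12 - 1) := by
  obtain ⟨T, hG, hf, hO, hρ, -⟩ := exists_commData_E6 hq hK
  have h := T.card_G1_fold hK hf (by rw [hO, hρ]; exact cycE6) Cfsg.Agent.Lib.Helper18.agreeE6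
    (R := foldRE6) (by rw [hO]; exact foldRE6_eq) 15 _ (by rw [hO]; exact foldChainE6)
    (by rw [hO]; exact foldKE6)
  rw [hG] at h
  rw [h, ← polyE6, ← card_H1_E6 hq hK]
  have : chevE6.nroots / 2 = 36 := rfl
  rw [this]
  ring

theorem card_twistedD4 {K : Type*} [Field K] [Fintype K] {q : ℕ} (hq : IsPrimePow q)
    (hK : Fintype.card K = q ^ 3) :
    Nat.card ↥(twistedD4 K q) = q ^ 12 * (q ^ 2 - 1) * (q ^ 6 - 1) * (q ^ 8 + q ^ 4 + 1) := by
  obtain ⟨T, hG, hf, hO, hρ, -⟩ := exists_commData_D4 hq hK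
  have h := T.card_G1_fold hK hf (by rw [hO, hρ]; exact cycD4) Cfsg.Agent.Lib.Helper18.agreeD4
    (R := foldRD4) (by rw [hO]; exact foldRD4_eq) 3 _ (by rw [hO]; exact foldChainD4)
    (by rw [hO]; exact foldKD4)
  rw [hG] at h
  rw [h, ← polyD4, ← card_H1_D4 hq hK]
  rfl

end Cfsg.Agent.Lib.Helper18
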