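import Cfsg.Agent.Lib.Helper36.ChevPoinT

/-!
# Poincaré series of a group of permutations generated by involutions given by a packed table

This is helper36's `ChevPoinT` (chain of parabolic subgroups with explicit coset representatives), with the
fundamental reflections of a Chevalley datum replaced by arbitrary involutions `g k` commuting with `r ↦ -r`.
-/

set_option autoImplicit false

namespace Cfsg.Agent.Lib.Helper18

open Cfsg.Lie Cfsg.Agent.Lib.Helper36 Finset

/-- positivity of a root, as a Boolean -/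
def posBn (n : ℕ) (r : Fin n) : Bool := Nat.ble (n / 2) r

/-- the opposite root -/
def negFn (n : ℕ) (r : Fin n) : Fin n := ⟨n - 1 - r, by have := r.2; omega⟩

theorem posBn_negFn {n : ℕ} (h1 : n = 2 * (n / 2)) (r : Fin n) : posBn n (negFn n r) = !posBn n r := by
  have h2 := r.2
  unfold posBn negFn
  by_cases h : n / 2 ≤ r.val
  · rw [Nat.ble_eq_true_of_le h]
    cases hb : Nat.ble (n / 2) (n - 1 - r.val)
    · rfl
    · have := Nat.le_of_ble_eq_true hb
      omega
  · have h3 : Nat.ble (n / 2) r.val = false := by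
      cases hb : Nat.ble (n / 2) r.val
      · rfl
      · exact absurd (Nat.le_of_ble_eq_true hb) h
    rw [h3]
    exact Nat.ble_eq_true_of_le (by show n / 2 ≤ n - 1 - r.val; omega)

/-- generators given by a packed table. -/
structure GenTab (n l R : ℕ) where
  g : ℕ → Equiv.Perm (Fin n)
  val : ∀ k, k < l → ∀ r : Fin n, ((g k r : Fin n) : ℕ) = lk R n k r
  sq : ∀ k, g k * g k = 1
  neg : ∀ k r, g k (negFn n r) = negFn n (g k r)
  even : n = 2 * (n / 2)

variable {n l R : ℕ}

/-- the subgroup generated by the fundamental reflections in the set with bit mask `K` -/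
def GenTab.parab (G : GenTab n l R) (K : ℕ) : Subgroup (Equiv.Perm (Fin n)) :=
  Subgroup.closure {s | ∃ k, k < l ∧ bitB K k = true ∧ s = G.g k}


theorem GenTab.parab_zero (G : GenTab n l R) : G.parab 0 = ⊥ := by
  unfold GenTab.parab
  rw [Subgroup.closure_eq_bot_iff]
  rintro s ⟨k, _, h, _⟩
  exfalso
  have : bitB 0 k = false := by
    unfold bitB
    have : Nat.land (Nat.shiftRight 0 k) 1 = 0 := by
      show (0 >>> k) &&& 1 = 0
      simp
    rw [this]; rfl
  rw [this] at h
  exact absurd h (by simp)

theorem GenTab.parab_negF (G : GenTab n l R) (K : ℕ) (w : Equiv.Perm (Fin n)) (hw : w ∈ G.parab K) :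
    ∀ r, w (negFn n r) = negFn n (w r) := by
  have hinv : ∀ r, negFn n (negFn n r) = r := by
    intro r; apply Fin.ext; show n - 1 - (n - 1 - r.val) = r.val; have := r.2; omega
  induction hw using Subgroup.closure_induction with
  | mem x hx =>
    obtain ⟨k, _, _, rfl⟩ := hx
    exact G.neg k
  | one => intro r; rfl
  | mul x y _ _ hx hy => intro r; rw [Equiv.Perm.mul_apply, hy, hx]; rfl
  | inv x _ hx =>
    intro r
    rw [Equiv.Perm.inv_eq_iff_eq, hx]
    simp


theorem GenTab.step_sound (G : GenTab n l R) (P : PStep)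
    (h : StepOK P n l R) (q : ℕ) :
    poin (posBn n) (G.parab P.K) q = evalL P.pl q * poin (posBn n) (G.parab P.J) q := by
  -- unpack the checks
  have c1 := h.c1
  unfold PStep.chk1 at c1
  rw [band_eq_true, force_eq, allB_iff] at c1
  have hm : 0 < P.m := blt_iff.mp c1.1
  have c1' : ∀ r < n, P.xe n 0 r = r := fun r hr => nbeq_iff.mp (c1.2 r hr)
  have c2 := h.c2
  unfold PStep.chk2 at c2
  simp only [allB_iff, bor_eq_true, bnot_eq_true] at c2
  have c2' : ∀ a < P.m, ∀ k < l, bitB P.K k = true → P.trOK n l R a k = true := by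
    intro a ha k hk hb
    rcases c2 a ha k hk with e | e
    · rw [hb] at e; exact absurd e (by simp)
    · exact e
  have c3 := h.c3
  unfold PStep.chk3 at c3
  simp only [allB_iff, bor_eq_true, band_eq_true, force_eq, nbeq_iff, blt_iff] at c3
  have c4 := h.c4
  unfold PStep.chk4 at c4
  simp only [allB_iff, band_eq_true, nbeq_iff, blt_iff] at c4
  have c5 := h.c5
  unfold PStep.chk5 at c5
  simp only [allB_iff, bor_eq_true, band_eq_true, bnot_eq_true, nbeq_iff] at c5
  have c5' : ∀ j < l, bitB P.J j = true → bitB P.K j = true ∧ lk R n j P.β = P.β ∧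
      ∀ r < n, P.isA n r = true → P.isA n (lk R n j r) = true := by
    intro j hj hb
    rcases c5 j hj with e | e
    · rw [hb] at e; exact absurd e (by simp)
    · refine ⟨e.1, e.2.1, fun r hr hA => ?_⟩
      rcases e.2.2 r hr with e' | e'
      · rw [hA] at e'; exact absurd e' (by simp)
      · exact e'
  have c7 := h.c7
  unfold PStep.chk7 at c7
  simp only [allB_iff, bor_eq_true, force_eq, blt_iff] at c7
  have c8 := eq_of_beqL _ _ h.c8
  -- the representatives
  have ex : ∀ a, a < P.m → ∃ x ∈ G.parab P.K, ∀ r : Fin n,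
      ((x r : Fin n) : ℕ) = P.xe n a r := by
    intro a
    induction a using Nat.strong_induction_on with
    | _ a ih =>
      intro ha
      rcases Nat.eq_zero_or_pos a with rfl | hpos
      · exact ⟨1, one_mem _, fun r => (c1' r r.2).symm⟩
      · rcases c3 a ha with e | ⟨hb, hk, hKk, htr⟩
        · omega
        · obtain ⟨x, hx, hxr⟩ := ih _ hb (hb.trans ha)
          refine ⟨G.g _ * x, mul_mem (Subgroup.subset_closure ⟨_, hk, hKk, rfl⟩) hx, fun r => ?_⟩
          rw [Equiv.Perm.mul_apply, G.val _ hk, hxr]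
          rw [P.trOK_lt _ _ _ _ _ (c2' _ (hb.trans ha) _ hk hKk) (by rw [htr]; exact ha) r r.2, htr]
  choose! X hXmem hXval using ex
  have h0 : X 0 = 1 := by
    ext r
    rw [hXval 0 hm r, c1' r r.2]
    rfl
  have hJK : G.parab P.J ≤ G.parab P.K := by
    apply Subgroup.closure_mono
    rintro s ⟨k, hk, hb, rfl⟩
    exact ⟨k, hk, (c5' k hk hb).1, rfl⟩
  have hcov : ∀ w ∈ G.parab P.K, ∃ a < P.m, ∃ v ∈ G.parab P.J, w = X a * v := by
    apply cover_of_closed _ _ (G.parab P.J) P.m X hm h0
    · rintro s ⟨k, hk, hb, rfl⟩ a ha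
      rcases P.trOK_spec _ _ _ _ _ (c2' a ha k hk hb) with ⟨hc, e⟩ | ⟨j, hj, hJj, e⟩
      · left
        refine ⟨_, hc, ?_⟩
        ext r
        rw [Equiv.Perm.mul_apply, G.val _ hk, hXval a ha, e r r.2, hXval _ hc]
      · right
        refine ⟨G.g j, Subgroup.subset_closure ⟨j, hj, hJj, rfl⟩, ?_⟩
        ext r
        rw [Equiv.Perm.mul_apply, Equiv.Perm.mul_apply, G.val _ hk, hXval a ha, e r r.2,
          hXval a ha, G.val _ hj]
    · rintro s ⟨k, _, _, rfl⟩
      exact G.sq k
  have hfix : ∀ v ∈ G.parab P.J, v ⟨P.β, c4.1⟩ = ⟨P.β, c4.1⟩ := by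
    intro v hv
    induction hv using Subgroup.closure_induction with
    | mem x hx =>
      obtain ⟨j, hj, hb, rfl⟩ := hx
      apply Fin.ext
      rw [G.val _ hj]
      exact (c5' j hj hb).2.1
    | one => rfl
    | mul x y _ _ hx hy => rw [Equiv.Perm.mul_apply, hy, hx]
    | inv x _ hx => rw [Equiv.Perm.inv_eq_iff_eq, hx]
  have hinj : ∀ a < P.m, ∀ b < P.m, ∀ v ∈ G.parab P.J, ∀ v' ∈ G.parab P.J, X a * v = X b * v' → a = b := by
    intro a ha b hb v hv v' hv' e
    have e1 := congrArg (fun w : Equiv.Perm (Fin n) => ((w ⟨P.β, c4.1⟩ : Fin n) : ℕ)) e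
    simp only [Equiv.Perm.mul_apply, hfix v hv, hfix v' hv', hXval a ha, hXval b hb] at e1
    rw [← c4.2 a ha, ← c4.2 b hb, e1]
  have hvA : ∀ v ∈ G.parab P.J, ∀ r : Fin n, P.isA n (v r) = P.isA n r := by
    intro v hv
    induction hv using Subgroup.closure_induction with
    | mem x hx =>
      obtain ⟨j, hj, hb, rfl⟩ := hx
      intro r
      have key : ∀ r : Fin n, P.isA n r = true → P.isA n (G.g j r) = true := by
        intro r hr
        rw [G.val _ hj]
        exact (c5' j hj hb).2.2 r r.2 hr
      rw [Bool.eq_iff_iff]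
      constructor
      · intro h1
        have h2 := key _ h1
        have h3 : G.g j (G.g j r) = r := by
          rw [← Equiv.Perm.mul_apply, G.sq]; rfl
        rwa [h3] at h2
      · exact key r
    | one => intro r; rfl
    | mul x y _ _ hx hy => intro r; rw [Equiv.Perm.mul_apply, hx, hy]
    | inv x _ hx =>
      intro r
      have := hx (x⁻¹ r)
      rw [← this]
      simp
  have hlen : ∀ a < P.m, ∀ v ∈ G.parab P.J,
      invCount (posBn n) (X a * v) = invCount (posBn n) (X a) + invCount (posBn n) v := by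
    intro a ha v hv
    apply invCount_mul (posBn n) (negFn n) (posBn_negFn G.even) (X a) v (G.parab_negF P.K _ (hXmem a ha))
      (G.parab_negF P.J v hv) (fun r => P.isA n r)
    · intro r hr
      unfold PStep.isA at hr
      rw [band_eq_true] at hr
      exact hr.1
    · exact hvA v hv
    · intro r hr hAr
      rcases c7 a ha r r.2 with e | e | e
      · have := Nat.le_of_ble_eq_true hr
        omega
      · rw [hAr] at e; exact absurd e (by simp)
      · unfold posBn
        rw [hXval a ha]
        exact e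
  rw [poin_step (posBn n) _ _ P.m X hXmem hJK hcov hinj hlen q, ← c8, evalL_histL]
  congr 1
  apply Finset.sum_congr rfl
  intro a ha
  have ha' := Finset.mem_range.mp ha
  congr 1
  unfold PStep.cnt invCount
  rw [force_eq, countN_eq]
  congr 1
  apply Finset.filter_congr
  intro r _
  rw [band_eq_true, blt_iff]
  unfold posBn
  rw [hXval a ha']
  constructor
  · rintro ⟨h1, h2⟩
    refine ⟨h1, ?_⟩
    by_contra hc
    rw [Nat.ble_eq_true_of_le (by show n / 2 ≤ P.xe n a r; unfold PStep.xe; omega)] at h2
    exact absurd h2 (by simp)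
  · rintro ⟨h1, h2⟩
    refine ⟨h1, ?_⟩
    cases hb : Nat.ble (n / 2) (P.xe n a r)
    · rfl
    · have := Nat.le_of_ble_eq_true hb
      unfold PStep.xe at this
      omega


theorem GenTab.chain_sound (G : GenTab n l R) (K : ℕ) (Ps : List PStep)
    (h : PChain n l R K Ps) (q : ℕ) :
    poin (posBn n) (G.parab K) q = evalL (prodL (Ps.map fun P => P.pl)) q := by
  induction h with
  | nil => rw [G.parab_zero, poin_bot]; rfl
  | cons P Ps h _ ih =>
    rw [G.step_sound P h q, ih, List.map_cons]
    show _ = evalL (mulL P.pl (prodL (Ps.map fun P => P.pl))) q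
    rw [evalL_mulL]


end Cfsg.Agent.Lib.Helper18
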