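import Mathlib

set_option autoImplicit false

/-! Abstract groups of Ree type in coordinates: the unipotent group, generation. -/

namespace Cfsg.Agent.Lib.Helper18.ReeOut

/-- the coordinates of a group of Ree type. -/
structure RData (G : Type*) [Group G] (K : Type*) [Field K] (m : ℕ) where
  W : K → K → K → G
  hh : Kˣ →* G
  w : G
  W_mul : ∀ t u v t' u' v' : K, W t u v * W t' u' v' =
    W (t + t') (u + u' - t * t' ^ 3 ^ (m + 1))
      (v + v' - t' * u + t * t' * t' ^ 3 ^ (m + 1) - t ^ 2 * t' ^ 3 ^ (m + 1))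
  W_inj : ∀ {t u v t' u' v' : K}, W t u v = W t' u' v' → t = t' ∧ u = u' ∧ v = v'
  conj_W : ∀ (c : Kˣ) (t u v : K), hh c * W t u v * (hh c)⁻¹ =
    W ((((c ^ 3 ^ (m + 1))⁻¹ * c ^ 2 : Kˣ) : K) * t) (((c ^ 3 ^ (m + 1) * c⁻¹ : Kˣ) : K) * u) ((c : K) * v)
  bruhat : ∀ g : G, (∃ t u v c, g = W t u v * hh c) ∨
    ∃ t u v c t' u' v', g = W t u v * w * hh c * W t' u' v'
  w_inv : ∀ c, w * hh c * w⁻¹ = (hh c)⁻¹
  VB : ∀ t u v t' u' v' c, w * W t u v * w⁻¹ = W t' u' v' * hh c → W t u v = 1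

variable {G : Type*} [Group G] {K : Type*} [Field K] {m : ℕ}

section field

variable [CharP K 3]

lemma three_zero : (3 : K) = 0 := by
  have := CharP.cast_eq_zero K 3
  exact_mod_cast this

lemma add_powP (m : ℕ) (a b : K) : (a + b) ^ 3 ^ (m + 1) = a ^ 3 ^ (m + 1) + b ^ 3 ^ (m + 1) := by
  have : Fact (Nat.Prime 3) := ⟨Nat.prime_three⟩
  exact add_pow_char_pow a b 3 (m + 1)

lemma neg_powP (m : ℕ) (a : K) : (-a) ^ 3 ^ (m + 1) = -(a ^ 3 ^ (m + 1)) :=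
  Odd.neg_pow (Odd.pow (by decide)) a

variable [Fintype K] (hK : Fintype.card K = 3 ^ (2 * m + 1))
include hK

lemma powP_powP (a : K) : (a ^ 3 ^ (m + 1)) ^ 3 ^ (m + 1) = a ^ 3 := by
  rw [← pow_mul, ← pow_add, show m + 1 + (m + 1) = (2 * m + 1) + 1 by ring, pow_succ, pow_mul, ← hK,
    FiniteField.pow_card]

lemma exists_powP_ne (hm : 1 ≤ m) : ∃ a : K, a ^ 3 ^ (m + 1) ≠ a := by
  classical
  by_contra hcon
  push Not at hcon
  obtain ⟨g, hg⟩ := IsCyclic.exists_generator (α := Kˣ)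
  have h1 : (g : K) ^ 3 = g := by rw [← powP_powP hK, hcon, hcon]
  have h1' : g ^ 2 = 1 := by
    apply Units.ext
    have : (g : K) * ((g : K) ^ 2 - 1) = 0 := by linear_combination h1
    rcases mul_eq_zero.mp this with h | h
    · exact absurd h g.ne_zero
    · rw [Units.val_pow_eq_pow_val, Units.val_one]; linear_combination h
  have h2 : orderOf g = Nat.card Kˣ := orderOf_eq_card_of_forall_mem_zpowers hg
  rw [Nat.card_eq_fintype_card, Fintype.card_units, hK] at h2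
  have h3 : orderOf g ∣ 2 := orderOf_dvd_of_pow_eq_one h1'
  have h4 := Nat.le_of_dvd (by norm_num) h3
  have h5 : 3 ^ 3 ≤ 3 ^ (2 * m + 1) := Nat.pow_le_pow_right (by norm_num) (by omega)
  omega

/-- the characters of the torus: the parameter `c = ε ^ (2 + 3θ)` gives back `ε`. -/
lemma chB_param (e : Kˣ) :
    (((e ^ 2 * e ^ 3 ^ (m + 1)) ^ 3 ^ (m + 1))⁻¹ * (e ^ 2 * e ^ 3 ^ (m + 1)) ^ 2 : Kˣ) = e := by
  have h : (e ^ 3 ^ (m + 1)) ^ 3 ^ (m + 1) = e ^ 3 := by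
    apply Units.ext
    simp only [Units.val_pow_eq_pow_val]
    exact powP_powP hK _
  rw [mul_pow, h, ← pow_mul, mul_comm 2, pow_mul, inv_mul_eq_iff_eq_mul]
  apply Units.ext
  simp only [Units.val_mul, Units.val_pow_eq_pow_val]
  ring

lemma ch3_param (e : Kˣ) :
    ((e * e ^ 3 ^ (m + 1)) ^ 3 ^ (m + 1) * (e * e ^ 3 ^ (m + 1))⁻¹ : Kˣ) = e ^ 2 := by
  have h : (e ^ 3 ^ (m + 1)) ^ 3 ^ (m + 1) = e ^ 3 := by
    apply Units.ext
    simp only [Units.val_pow_eq_pow_val]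
    exact powP_powP hK _
  rw [mul_pow, h, mul_inv_eq_iff_eq_mul]
  apply Units.ext
  simp only [Units.val_mul, Units.val_pow_eq_pow_val]
  ring

end field

namespace RData

variable (R : RData G K m)

lemma W_zero : R.W 0 0 0 = 1 := by
  have h := R.W_mul 0 0 0 0 0 0
  have e : R.W 0 0 0 * R.W 0 0 0 = R.W 0 0 0 := by
    rw [h]; congr 1 <;> simp
  exact mul_eq_left.mp e

lemma W_congr {t u v t' u' v' : K} (h1 : t = t') (h2 : u = u') (h3 : v = v') :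
    R.W t u v = R.W t' u' v' := by rw [h1, h2, h3]

lemma W_eq_one_iff {t u v : K} : R.W t u v = 1 ↔ t = 0 ∧ u = 0 ∧ v = 0 := by
  rw [← R.W_zero]
  exact ⟨fun h => R.W_inj h, fun ⟨h1, h2, h3⟩ => R.W_congr h1 h2 h3⟩

/-- multiplication by an element of `U₁` on the right. -/
lemma W_mul_zero (t u v u' v' : K) : R.W t u v * R.W 0 u' v' = R.W t (u + u') (v + v') := by
  have h0 : (0 : K) ^ 3 ^ (m + 1) = 0 := zero_pow (by positivity)
  rw [R.W_mul, h0]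
  apply R.W_congr <;> ring

lemma zero_W_mul (u v t' u' v' : K) : R.W 0 u v * R.W t' u' v' = R.W t' (u + u') (v + v' - t' * u) := by
  rw [R.W_mul]
  apply R.W_congr <;> ring

lemma zero_W_inv (u v : K) : (R.W 0 u v)⁻¹ = R.W 0 (-u) (-v) := by
  rw [inv_eq_iff_mul_eq_one, R.W_mul_zero, R.W_eq_one_iff]
  exact ⟨rfl, by ring, by ring⟩

variable [CharP K 3]

lemma W_inv (t u v : K) : (R.W t u v)⁻¹ =
    R.W (-t) (-u - t * t ^ 3 ^ (m + 1)) (-v - t * u + t ^ 2 * t ^ 3 ^ (m + 1)) := by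
  rw [inv_eq_iff_mul_eq_one, R.W_mul, R.W_eq_one_iff, neg_powP]
  refine ⟨by ring, by ring, ?_⟩
  linear_combination (t ^ 2 * t ^ 3 ^ (m + 1)) * (three_zero (K := K))

/-- the unipotent subgroup. -/
def U : Subgroup G where
  carrier := {g | ∃ t u v, g = R.W t u v}
  one_mem' := ⟨0, 0, 0, R.W_zero.symm⟩
  mul_mem' := by
    rintro _ _ ⟨t, u, v, rfl⟩ ⟨t', u', v', rfl⟩
    exact ⟨_, _, _, R.W_mul t u v t' u' v'⟩
  inv_mem' := by
    rintro _ ⟨t, u, v, rfl⟩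
    exact ⟨_, _, _, R.W_inv t u v⟩

lemma mem_U {g : G} : g ∈ R.U ↔ ∃ t u v, g = R.W t u v := Iff.rfl

lemma W_mem_U (t u v : K) : R.W t u v ∈ R.U := ⟨t, u, v, rfl⟩

lemma W_cube (t u v : K) : R.W t u v * R.W t u v * R.W t u v = R.W 0 0 (-(t ^ 2 * t ^ 3 ^ (m + 1))) := by
  rw [R.W_mul, R.W_mul]
  apply R.W_congr
  · linear_combination t * (three_zero (K := K))
  · linear_combination (u - t * t ^ 3 ^ (m + 1)) * (three_zero (K := K))
  · linear_combination (v - t * u) * (three_zero (K := K))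

lemma cube_eq_one_iff (t u v : K) : R.W t u v * R.W t u v * R.W t u v = 1 ↔ t = 0 := by
  rw [R.W_cube, R.W_eq_one_iff]
  constructor
  · rintro ⟨-, -, h⟩
    by_contra ht
    exact (neg_ne_zero.mpr (mul_ne_zero (pow_ne_zero 2 ht) (pow_ne_zero _ ht))) h
  · rintro rfl
    simp

/-- commutation in `U` modulo the centre. -/
lemma W_comm (t u v t' u' v' : K) : ∃ e, R.W t u v * R.W t' u' v' =
    R.W t' u' v' * R.W t u v * R.W 0 (t' * t ^ 3 ^ (m + 1) - t * t' ^ 3 ^ (m + 1)) e := by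
  refine ⟨(v + v' - t' * u + t * t' * t' ^ 3 ^ (m + 1) - t ^ 2 * t' ^ 3 ^ (m + 1)) -
    (v' + v - t * u' + t' * t * t ^ 3 ^ (m + 1) - t' ^ 2 * t ^ 3 ^ (m + 1)), ?_⟩
  rw [R.W_mul, R.W_mul, R.W_mul_zero]
  apply R.W_congr <;> ring

variable [Fintype K] (hK : Fintype.card K = 3 ^ (2 * m + 1))
include hK

/-- A subgroup containing the torus and an element of `U` outside `U₁` contains `U`. -/
theorem U_le_of_mem (hm : 1 ≤ m) (L : Subgroup G) (hH : ∀ c, R.hh c ∈ L) {t₀ u₀ v₀ : K} (ht : t₀ ≠ 0)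
    (h0 : R.W t₀ u₀ v₀ ∈ L) : R.U ≤ L := by
  -- first coordinate
  have h1 : ∀ t : K, ∃ u v, R.W t u v ∈ L := by
    intro t
    by_cases h : t = 0
    · exact ⟨0, 0, by rw [h, R.W_zero]; exact L.one_mem⟩
    · let e : Kˣ := Units.mk0 (t / t₀) (div_ne_zero h ht)
      have := L.mul_mem (L.mul_mem (hH (e ^ 2 * e ^ 3 ^ (m + 1))) h0) (L.inv_mem (hH (e ^ 2 * e ^ 3 ^ (m + 1))))
      rw [R.conj_W, chB_param hK] at this
      have e1 : (e : K) * t₀ = t := by simp [e, div_mul_cancel₀ _ ht]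
      rw [e1] at this
      exact ⟨_, _, this⟩
  -- second coordinate
  have h2a : ∀ u u' : K, (∃ v, R.W 0 u v ∈ L) → (∃ v, R.W 0 u' v ∈ L) → ∃ v, R.W 0 (u - u') v ∈ L := by
    rintro u u' ⟨v, hv⟩ ⟨v', hv'⟩
    have := L.mul_mem hv (L.inv_mem hv')
    rw [R.zero_W_inv, R.W_mul_zero, ← sub_eq_add_neg] at this
    exact ⟨_, this⟩
  have h2b : ∀ (s u : K), (∃ v, R.W 0 u v ∈ L) → ∃ v, R.W 0 (s ^ 2 * u) v ∈ L := by
    rintro s u ⟨v, hv⟩
    by_cases h : s = 0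
    · exact ⟨0, by rw [h]; simp only [ne_eq, OfNat.ofNat_ne_zero, not_false_eq_true, zero_pow, zero_mul]
                   rw [R.W_zero]; exact L.one_mem⟩
    · let e : Kˣ := Units.mk0 s h
      have := L.mul_mem (L.mul_mem (hH (e * e ^ 3 ^ (m + 1))) hv) (L.inv_mem (hH (e * e ^ 3 ^ (m + 1))))
      rw [R.conj_W, ch3_param hK, mul_zero] at this
      exact ⟨_, this⟩
  have h2c : ∀ (k u : K), (∃ v, R.W 0 u v ∈ L) → ∃ v, R.W 0 (k * u) v ∈ L := by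
    intro k u hu
    have := h2a _ _ (h2b (k + 1) u hu) (h2b (k - 1) u hu)
    have e : (k + 1) ^ 2 * u - (k - 1) ^ 2 * u = k * u := by
      linear_combination (k * u) * (three_zero (K := K))
    rwa [e] at this
  obtain ⟨a, ha⟩ := exists_powP_ne hK hm
  have h2d : ∃ v, R.W 0 (a ^ 3 ^ (m + 1) - a) v ∈ L := by
    obtain ⟨u, v, h⟩ := h1 a
    obtain ⟨u', v', h'⟩ := h1 1
    obtain ⟨e, he⟩ := R.W_comm a u v 1 u' v'
    refine ⟨e, ?_⟩
    have : R.W 0 (1 * a ^ 3 ^ (m + 1) - a * 1 ^ 3 ^ (m + 1)) e =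
        (R.W 1 u' v' * R.W a u v)⁻¹ * (R.W a u v * R.W 1 u' v') := by rw [he]; group
    rw [one_mul, one_pow, mul_one] at this
    rw [this]
    exact L.mul_mem (L.inv_mem (L.mul_mem h' h)) (L.mul_mem h h')
  have h2 : ∀ u : K, ∃ v, R.W 0 u v ∈ L := by
    intro u
    have := h2c (u / (a ^ 3 ^ (m + 1) - a)) _ h2d
    rwa [div_mul_cancel₀ _ (sub_ne_zero.mpr ha)] at this
  -- third coordinate
  have h3 : ∀ v : K, R.W 0 0 v ∈ L := by
    intro v
    obtain ⟨u₁, v₁, hx⟩ := h1 (-v)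
    obtain ⟨v₂, hy⟩ := h2 1
    have e : R.W 0 0 v = (R.W (-v) u₁ v₁ * R.W 0 1 v₂)⁻¹ * (R.W 0 1 v₂ * R.W (-v) u₁ v₁) := by
      rw [eq_inv_mul_iff_mul_eq, R.W_mul_zero, R.W_mul_zero, R.zero_W_mul]
      apply R.W_congr <;> ring
    rw [e]
    exact L.mul_mem (L.inv_mem (L.mul_mem hx hy)) (L.mul_mem hy hx)
  rintro _ ⟨t, u, v, rfl⟩
  obtain ⟨u₁, v₁, hx⟩ := h1 t
  obtain ⟨v₂, hy⟩ := h2 (u - u₁)
  have e : R.W t u v = R.W t u₁ v₁ * R.W 0 (u - u₁) v₂ * R.W 0 0 (v - v₁ - v₂) := by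
    rw [R.W_mul_zero, R.W_mul_zero]
    apply R.W_congr <;> ring
  rw [e]
  exact L.mul_mem (L.mul_mem hx hy) (h3 _)

end RData

end Cfsg.Agent.Lib.Helper18.ReeOut
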