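import Cfsg.Agent.Lib.Helper18.ReeOutA

set_option autoImplicit false

/-! Abstract groups of Ree type in coordinates: the Borel subgroup, TI. -/

namespace Cfsg.Agent.Lib.Helper18.ReeOut

variable {G : Type*} [Group G] {K : Type*} [Field K] {m : ℕ}

/-- the character of the torus on `U / U₁`. -/
def eB (m : ℕ) (c : Kˣ) : Kˣ := (c ^ 3 ^ (m + 1))⁻¹ * c ^ 2

/-- the character of the torus on `U₁ / Z`. -/
def e3 (m : ℕ) (c : Kˣ) : Kˣ := c ^ 3 ^ (m + 1) * c⁻¹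

/-- the parameter with a given value of `eB`. -/
def prm (m : ℕ) (e : Kˣ) : Kˣ := e ^ 2 * e ^ 3 ^ (m + 1)

lemma eB_neg_one : eB m (-1 : Kˣ) = -1 := by
  unfold eB
  rw [Odd.neg_one_pow (Odd.pow (by decide))]
  simp

lemma e3_neg_one : e3 m (-1 : Kˣ) = 1 := by
  unfold e3
  rw [Odd.neg_one_pow (Odd.pow (by decide))]
  simp

section

variable [CharP K 3] [Fintype K] (hK : Fintype.card K = 3 ^ (2 * m + 1))
include hK

lemma eB_prm (e : Kˣ) : eB m (prm m e) = e := chB_param hK e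

lemma units_powP_powP (e : Kˣ) : (e ^ 3 ^ (m + 1)) ^ 3 ^ (m + 1) = e ^ 3 := by
  apply Units.ext
  simp only [Units.val_pow_eq_pow_val]
  exact powP_powP hK _

lemma prm_eB (c : Kˣ) : prm m (eB m c) = c := by
  unfold prm eB
  have h := units_powP_powP hK c
  have hc2 : (c ^ 2) ^ 3 ^ (m + 1) = (c ^ 3 ^ (m + 1)) ^ 2 := by rw [← pow_mul, mul_comm, pow_mul]
  rw [mul_pow _ _ (3 ^ (m + 1)), inv_pow _ (3 ^ (m + 1)), h, hc2]
  generalize c ^ 3 ^ (m + 1) = y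
  apply Units.ext
  simp only [Units.val_mul, Units.val_pow_eq_pow_val, Units.val_inv_eq_inv_val]
  have h1 := c.ne_zero
  have h2 := y.ne_zero
  field_simp

lemma eB_inj {c c' : Kˣ} (h : eB m c = eB m c') : c = c' := by
  rw [← prm_eB hK c, h, prm_eB hK]

lemma e3_eq (c : Kˣ) : e3 m c = eB m c * (eB m c) ^ 3 ^ (m + 1) := by
  unfold e3 eB
  have h := units_powP_powP hK c
  have hc2 : (c ^ 2) ^ 3 ^ (m + 1) = (c ^ 3 ^ (m + 1)) ^ 2 := by rw [← pow_mul, mul_comm, pow_mul]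
  rw [mul_pow _ _ (3 ^ (m + 1)), inv_pow _ (3 ^ (m + 1)), h, hc2]
  generalize c ^ 3 ^ (m + 1) = y
  apply Units.ext
  simp only [Units.val_mul, Units.val_pow_eq_pow_val, Units.val_inv_eq_inv_val]
  have h1 := c.ne_zero
  have h2 := y.ne_zero
  field_simp

end

namespace RData

variable (R : RData G K m)

lemma conj_W' (c : Kˣ) (t u v : K) : R.hh c * R.W t u v * (R.hh c)⁻¹ =
    R.W ((eB m c : K) * t) ((e3 m c : K) * u) ((c : K) * v) := R.conj_W c t u v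

lemma hh_eq_one {c : Kˣ} (h : R.hh c = 1) : c = 1 := by
  have h1 := R.conj_W' c 0 0 1
  rw [h] at h1
  simp only [one_mul, inv_one, mul_one] at h1
  exact Units.ext (R.W_inj h1).2.2.symm

lemma hh_inj {c c' : Kˣ} (h : R.hh c = R.hh c') : c = c' := by
  have : R.hh (c * c'⁻¹) = 1 := by rw [map_mul, map_inv, h, mul_inv_cancel]
  exact mul_inv_eq_one.mp (R.hh_eq_one this)

variable [CharP K 3]

lemma hh_conj_mem_U (c : Kˣ) {x : G} (hx : x ∈ R.U) : R.hh c * x * (R.hh c)⁻¹ ∈ R.U := by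
  obtain ⟨t, u, v, rfl⟩ := hx
  exact ⟨_, _, _, R.conj_W' c t u v⟩

lemma hh_conj_mem_U' (c : Kˣ) {x : G} (hx : x ∈ R.U) : (R.hh c)⁻¹ * x * R.hh c ∈ R.U := by
  have := R.hh_conj_mem_U c⁻¹ hx
  rwa [map_inv, inv_inv] at this

/-- the Borel subgroup. -/
def B : Subgroup G where
  carrier := {g | ∃ x ∈ R.U, ∃ c, g = x * R.hh c}
  one_mem' := ⟨1, R.U.one_mem, 1, by simp⟩
  mul_mem' := by
    rintro _ _ ⟨x, hx, c, rfl⟩ ⟨x', hx', c', rfl⟩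
    refine ⟨x * (R.hh c * x' * (R.hh c)⁻¹), R.U.mul_mem hx (R.hh_conj_mem_U c hx'), c * c', ?_⟩
    rw [map_mul]; group
  inv_mem' := by
    rintro _ ⟨x, hx, c, rfl⟩
    refine ⟨(R.hh c)⁻¹ * x⁻¹ * R.hh c, R.hh_conj_mem_U' c (R.U.inv_mem hx), c⁻¹, ?_⟩
    rw [map_inv]; group

lemma mem_B {g : G} : g ∈ R.B ↔ ∃ x ∈ R.U, ∃ c, g = x * R.hh c := Iff.rfl

lemma U_le_B : R.U ≤ R.B := fun x hx => ⟨x, hx, 1, by simp⟩

lemma hh_mem_B (c : Kˣ) : R.hh c ∈ R.B := ⟨1, R.U.one_mem, c, by simp⟩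

lemma conj_U_tc (a b d t u v : K) : ∃ u' v', R.W a b d * R.W t u v * (R.W a b d)⁻¹ = R.W t u' v' := by
  rw [R.W_inv, R.W_mul, R.W_mul]
  refine ⟨_, _, R.W_congr (by ring) rfl rfl⟩

lemma conj_B_tc {x : G} (hx : x ∈ R.U) (c : Kˣ) (t u v : K) :
    ∃ u' v', (x * R.hh c) * R.W t u v * (x * R.hh c)⁻¹ = R.W ((eB m c : K) * t) u' v' := by
  obtain ⟨a, b, d, rfl⟩ := hx
  obtain ⟨u', v', h⟩ := R.conj_U_tc a b d ((eB m c : K) * t) ((e3 m c : K) * u) ((c : K) * v)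
  refine ⟨u', v', ?_⟩
  rw [← h, ← R.conj_W']
  group

lemma B_conj_mem_U {g x : G} (hg : g ∈ R.B) (hx : x ∈ R.U) : g * x * g⁻¹ ∈ R.U := by
  obtain ⟨y, hy, c, rfl⟩ := hg
  obtain ⟨t, u, v, rfl⟩ := hx
  obtain ⟨u', v', h⟩ := R.conj_B_tc hy c t u v
  exact ⟨_, _, _, h⟩

lemma VB' {x : G} (hx : x ∈ R.U) (h : R.w * x * R.w⁻¹ ∈ R.B) : x = 1 := by
  obtain ⟨t, u, v, rfl⟩ := hx
  obtain ⟨_, ⟨t', u', v', rfl⟩, c, h⟩ := h
  exact R.VB _ _ _ _ _ _ _ h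

lemma W100_ne : R.W 1 0 0 ≠ 1 := by
  intro h
  exact one_ne_zero (R.W_eq_one_iff.mp h).1

lemma w_not_mem_B : R.w ∉ R.B := by
  intro h
  exact R.W100_ne (R.VB' (R.W_mem_U 1 0 0) (R.U_le_B (R.B_conj_mem_U h (R.W_mem_U 1 0 0))))

theorem TI {g x : G} (hx : x ∈ R.U) (h1 : x ≠ 1) (h : g * x * g⁻¹ ∈ R.U) : g ∈ R.B := by
  rcases R.bruhat g with ⟨t, u, v, c, e⟩ | ⟨t, u, v, c, t', u', v', e⟩
  · exact ⟨_, R.W_mem_U t u v, c, e⟩
  · exfalso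
    apply h1
    have hy : R.hh c * (R.W t' u' v' * x * (R.W t' u' v')⁻¹) * (R.hh c)⁻¹ ∈ R.U :=
      R.hh_conj_mem_U c (R.U.mul_mem (R.U.mul_mem (R.W_mem_U _ _ _) hx) (R.U.inv_mem (R.W_mem_U _ _ _)))
    have e2 : R.w * (R.hh c * (R.W t' u' v' * x * (R.W t' u' v')⁻¹) * (R.hh c)⁻¹) * R.w⁻¹ =
        (R.W t u v)⁻¹ * (g * x * g⁻¹) * R.W t u v := by rw [e]; group
    have h3 := R.VB' hy (by
      rw [e2]
      exact R.U_le_B (R.U.mul_mem (R.U.mul_mem (R.U.inv_mem (R.W_mem_U _ _ _)) h) (R.W_mem_U _ _ _)))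
    exact conj_eq_one_iff.mp (conj_eq_one_iff.mp h3)

lemma w_inv' (c : Kˣ) : R.w⁻¹ * R.hh c * R.w = (R.hh c)⁻¹ := by
  have h := R.w_inv c⁻¹
  rw [map_inv, inv_inv] at h
  calc R.w⁻¹ * R.hh c * R.w = R.w⁻¹ * (R.w * (R.hh c)⁻¹ * R.w⁻¹) * R.w := by rw [h]
    _ = (R.hh c)⁻¹ := by group

variable [Fintype K] (hK : Fintype.card K = 3 ^ (2 * m + 1))
include hK

lemma U_inf_H {x : G} (hx : x ∈ R.U) {c : Kˣ} (h : x = R.hh c) : c = 1 := by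
  obtain ⟨a, b, d, rfl⟩ := hx
  obtain ⟨u', v', h1⟩ := R.conj_U_tc a b d 1 0 0
  rw [h, R.conj_W'] at h1
  have h2 := (R.W_inj h1).1
  rw [mul_one] at h2
  apply eB_inj hK
  rw [Units.ext_iff, h2]
  simp [eB]

lemma B_unique {x x' : G} (hx : x ∈ R.U) (hx' : x' ∈ R.U) {c c' : Kˣ} (h : x * R.hh c = x' * R.hh c') :
    x = x' ∧ c = c' := by
  have h1 : x'⁻¹ * x = R.hh (c' * c⁻¹) := by
    rw [map_mul, map_inv, eq_mul_inv_iff_mul_eq, mul_assoc, h]; group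
  have h2 := R.U_inf_H hK (R.U.mul_mem (R.U.inv_mem hx') hx) h1
  have h3 : c' = c := mul_inv_eq_one.mp h2
  subst h3
  exact ⟨mul_right_cancel h, rfl⟩

lemma VB'' {x : G} (hx : x ∈ R.U) (h : R.w⁻¹ * x * R.w ∈ R.B) : x = 1 := by
  obtain ⟨x', hx', c, h⟩ := h
  have h1 : R.w * x' * R.w⁻¹ = x * R.hh c := by
    have : x = R.w * (x' * R.hh c) * R.w⁻¹ := by rw [← h]; group
    rw [this]
    have h2 := R.w_inv c
    have : R.w * (x' * R.hh c) * R.w⁻¹ = R.w * x' * R.w⁻¹ * (R.w * R.hh c * R.w⁻¹) := by group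
    rw [this, h2]; group
  have h2 := R.VB' hx' ⟨x, hx, c, h1⟩
  rw [h2] at h1
  simp only [mul_one, mul_inv_cancel] at h1
  have h3 : x = R.hh c⁻¹ := by rw [map_inv]; exact eq_inv_of_mul_eq_one_left h1.symm
  have h4 := R.U_inf_H hK hx h3
  rw [h3, h4, map_one]

end RData

end Cfsg.Agent.Lib.Helper18.ReeOut
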