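import Cfsg.Agent.Lib.Helper18.ReeOutB

set_option autoImplicit false

/-! Abstract groups of Ree type in coordinates: rigidity of automorphisms. -/

namespace Cfsg.Agent.Lib.Helper18.ReeOut

variable {G : Type*} [Group G] {K : Type*} [Field K] {m : ℕ}

namespace RData

variable (R : RData G K m) [CharP K 3]

/-- the opposite unipotent subgroup. -/
def V : Subgroup G := R.U.map (MulAut.conj R.w).toMonoidHom

lemma mem_V {g : G} : g ∈ R.V ↔ ∃ x ∈ R.U, g = R.w * x * R.w⁻¹ := by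
  unfold V
  rw [Subgroup.mem_map]
  constructor
  · rintro ⟨x, hx, rfl⟩; exact ⟨x, hx, rfl⟩
  · rintro ⟨x, hx, rfl⟩; exact ⟨x, hx, rfl⟩

/-- automorphisms stabilizing `U` and `V`. -/
structure Stab (θ : MulAut G) : Prop where
  U : ∀ x ∈ R.U, θ x ∈ R.U
  V : ∀ x ∈ R.V, θ x ∈ R.V

lemma hh_conj_mem_V (c : Kˣ) {y : G} (hy : y ∈ R.V) : R.hh c * y * (R.hh c)⁻¹ ∈ R.V := by
  rw [mem_V] at hy ⊢
  obtain ⟨x, hx, rfl⟩ := hy
  refine ⟨(R.hh c)⁻¹ * x * R.hh c, R.hh_conj_mem_U' c hx, ?_⟩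
  have h := R.w_inv' c
  have h1 : R.hh c * R.w = R.w * (R.hh c)⁻¹ := by rw [← h]; group
  have h2 : R.w⁻¹ * (R.hh c)⁻¹ = R.hh c * R.w⁻¹ := by
    have := congrArg (fun z => z⁻¹) h1
    simpa [mul_inv_rev] using this
  calc R.hh c * (R.w * x * R.w⁻¹) * (R.hh c)⁻¹ = (R.hh c * R.w) * x * (R.w⁻¹ * (R.hh c)⁻¹) := by group
    _ = _ := by rw [h1, h2]; group

variable [Fintype K] (hK : Fintype.card K = 3 ^ (2 * m + 1))
include hK

variable {R} in
theorem Stab.hh {θ : MulAut G} (hθ : R.Stab θ) (c : Kˣ) : ∃ c', θ (R.hh c) = R.hh c' := by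
  have hne : θ (R.W 1 0 0) ≠ 1 := fun h => R.W100_ne (by simpa using h)
  have hgB : θ (R.hh c) ∈ R.B := by
    refine R.TI (hθ.U _ (R.W_mem_U 1 0 0)) hne ?_
    have := hθ.U _ (R.hh_conj_mem_U c (R.W_mem_U 1 0 0))
    simpa only [map_mul, map_inv] using this
  obtain ⟨x1, hx1, c1, e⟩ := hgB
  have hy : R.w * R.W 1 0 0 * R.w⁻¹ ∈ R.V := R.mem_V.mpr ⟨_, R.W_mem_U 1 0 0, rfl⟩
  obtain ⟨x2, hx2, e2⟩ := R.mem_V.mp (hθ.V _ hy)
  obtain ⟨x3, hx3, e3⟩ := R.mem_V.mp (hθ.V _ (R.hh_conj_mem_V c hy))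
  have hx2ne : x2 ≠ 1 := by
    rintro rfl
    have h1 : θ (R.w * R.W 1 0 0 * R.w⁻¹) = 1 := by rw [e2]; group
    have h2 : R.w * R.W 1 0 0 * R.w⁻¹ = 1 := by simpa using h1
    exact R.W100_ne (conj_eq_one_iff.mp h2)
  have hgV : R.w⁻¹ * θ (R.hh c) * R.w ∈ R.B := by
    refine R.TI hx2 hx2ne ?_
    have h1 : R.w⁻¹ * θ (R.hh c) * R.w * x2 * (R.w⁻¹ * θ (R.hh c) * R.w)⁻¹ =
        R.w⁻¹ * (θ (R.hh c) * (R.w * x2 * R.w⁻¹) * (θ (R.hh c))⁻¹) * R.w := by group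
    rw [h1, ← e2, ← map_inv, ← map_mul, ← map_mul, e3]
    have : R.w⁻¹ * (R.w * x3 * R.w⁻¹) * R.w = x3 := by group
    rw [this]; exact hx3
  have h4 : R.w⁻¹ * x1 * R.w ∈ R.B := by
    have h5 : R.w⁻¹ * x1 * R.w = (R.w⁻¹ * θ (R.hh c) * R.w) * (R.w⁻¹ * R.hh c1 * R.w)⁻¹ := by
      rw [e]; group
    rw [h5, R.w_inv', inv_inv]
    exact R.B.mul_mem hgV (R.hh_mem_B c1)
  have h6 := R.VB'' hK hx1 h4
  exact ⟨c1, by rw [e, h6, one_mul]⟩

variable {R} in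
/-- the first coordinate of the image depends on the first coordinate only. -/
theorem Stab.exists_f {θ : MulAut G} (hθ : R.Stab θ) :
    ∃ f : K → K, ∀ t u v, ∃ u' v', θ (R.W t u v) = R.W (f t) u' v' := by
  have h0 : ∀ t u v, ∃ t' u' v', θ (R.W t u v) = R.W t' u' v' := fun t u v => hθ.U _ (R.W_mem_U t u v)
  choose F1 F2 F3 hF using h0
  refine ⟨fun t => F1 t 0 0, fun t u v => ?_⟩
  have h1 : F1 0 u v = 0 := by
    rw [← R.cube_eq_one_iff _ (F2 0 u v) (F3 0 u v), ← hF, ← map_mul, ← map_mul,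
      (R.cube_eq_one_iff 0 u v).mpr rfl, map_one]
  have h2 : R.W t u v = R.W t 0 0 * R.W 0 u v := by
    rw [R.W_mul_zero]; apply R.W_congr <;> ring
  rw [h2, map_mul, hF, hF 0 u v, h1, R.W_mul_zero]
  exact ⟨_, _, rfl⟩

variable {R} in
theorem Stab.exists_field {θ : MulAut G} (hθ : R.Stab θ) :
    ∃ (σ : K ≃+* K) (a : Kˣ), ∀ t u v, ∃ u' v', θ (R.W t u v) = R.W ((a : K) * σ t) u' v' := by
  obtain ⟨f, hf⟩ := hθ.exists_f hK
  choose π hπ using hθ.hh hK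
  have hadd : ∀ t t', f (t + t') = f t + f t' := by
    intro t t'
    obtain ⟨u1, v1, h1⟩ := hf t 0 0
    obtain ⟨u2, v2, h2⟩ := hf t' 0 0
    have h3 := congrArg θ (R.W_mul t 0 0 t' 0 0)
    obtain ⟨u3, v3, h4⟩ := hf (t + t') (0 + 0 - t * t' ^ 3 ^ (m + 1))
      (0 + 0 - t' * 0 + t * t' * t' ^ 3 ^ (m + 1) - t ^ 2 * t' ^ 3 ^ (m + 1))
    rw [map_mul, h1, h2, h4, R.W_mul] at h3
    exact (R.W_inj h3).1.symm
  have hzero : f 0 = 0 := by
    have := hadd 0 0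
    rw [add_zero] at this
    exact left_eq_add.mp this
  have hmul : ∀ (c : Kˣ) t, f ((eB m c : K) * t) = (eB m (π c) : K) * f t := by
    intro c t
    obtain ⟨u1, v1, h1⟩ := hf t 0 0
    have h3 := congrArg θ (R.conj_W' c t 0 0)
    obtain ⟨u3, v3, h4⟩ := hf ((eB m c : K) * t) ((e3 m c : K) * 0) ((c : K) * 0)
    rw [map_mul, map_mul, map_inv, hπ, h1, h4, R.conj_W'] at h3
    exact (R.W_inj h3).1.symm
  have hinj : ∀ t, f t = 0 → t = 0 := by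
    intro t ht
    obtain ⟨u1, v1, h1⟩ := hf t 0 0
    rw [ht] at h1
    have h2 : θ (R.W t 0 0 * R.W t 0 0 * R.W t 0 0) = 1 := by
      rw [map_mul, map_mul, h1, (R.cube_eq_one_iff 0 u1 v1).mpr rfl]
    have h3 : R.W t 0 0 * R.W t 0 0 * R.W t 0 0 = 1 := (map_eq_one_iff θ θ.injective).mp h2
    exact (R.cube_eq_one_iff t 0 0).mp h3
  have hf1 : f 1 ≠ 0 := fun h => one_ne_zero (hinj 1 h)
  have hmul2 : ∀ s t, f (s * t) = f s / f 1 * f t := by
    intro s t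
    by_cases hs : s = 0
    · rw [hs, zero_mul, hzero, zero_div, zero_mul]
    · have e1 : ((eB m (prm m (Units.mk0 s hs)) : Kˣ) : K) = s := by rw [eB_prm hK]; rfl
      have h1 := hmul (prm m (Units.mk0 s hs)) t
      have h2 := hmul (prm m (Units.mk0 s hs)) 1
      rw [e1] at h1 h2
      rw [mul_one] at h2
      rw [h1, h2, mul_div_cancel_right₀ _ hf1]
  let σ0 : K →+* K :=
    { toFun := fun t => f t / f 1
      map_one' := div_self hf1
      map_mul' := fun s t => by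
        show f (s * t) / f 1 = f s / f 1 * (f t / f 1)
        rw [hmul2]; ring
      map_zero' := by show f 0 / f 1 = 0; rw [hzero, zero_div]
      map_add' := fun s t => by
        show f (s + t) / f 1 = f s / f 1 + f t / f 1
        rw [hadd]; ring }
  have hbij : Function.Bijective σ0 := ⟨σ0.injective, Finite.injective_iff_surjective.mp σ0.injective⟩
  refine ⟨RingEquiv.ofBijective σ0 hbij, Units.mk0 (f 1) hf1, fun t u v => ?_⟩
  obtain ⟨u', v', h⟩ := hf t u v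
  refine ⟨u', v', ?_⟩
  rw [h]
  apply R.W_congr _ rfl rfl
  show f t = f 1 * (f t / f 1)
  field_simp

end RData

end Cfsg.Agent.Lib.Helper18.ReeOut
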