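import Cfsg.Agent.Lib.Helper18.ReeOutC

set_option autoImplicit false

/-! Abstract groups of Ree type in coordinates: an automorphism stabilizing `U`, `V` and inducing the identity
on `U / U₁` is trivial. -/

namespace Cfsg.Agent.Lib.Helper18.ReeOut

variable {G : Type*} [Group G] {K : Type*} [Field K] {m : ℕ}

namespace RData

variable (R : RData G K m) [CharP K 3]

lemma conj_a (t u v : K) : R.hh (-1) * R.W t u v * (R.hh (-1))⁻¹ = R.W (-t) u (-v) := by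
  rw [R.conj_W', eB_neg_one, e3_neg_one]
  apply R.W_congr <;> simp

variable [Fintype K] (hK : Fintype.card K = 3 ^ (2 * m + 1))
include hK

variable {R}

theorem Stab.hh_fixed {θ : MulAut G} (hθ : R.Stab θ)
    (hf : ∀ t u v, ∃ u' v', θ (R.W t u v) = R.W t u' v') (c : Kˣ) : θ (R.hh c) = R.hh c := by
  obtain ⟨c', hc'⟩ := hθ.hh hK c
  obtain ⟨u1, v1, h1⟩ := hf 1 0 0
  have h3 := congrArg θ (R.conj_W' c 1 0 0)
  obtain ⟨u3, v3, h4⟩ := hf ((eB m c : K) * 1) ((e3 m c : K) * 0) ((c : K) * 0)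
  rw [map_mul, map_mul, map_inv, hc', h1, h4, R.conj_W'] at h3
  have h5 := (R.W_inj h3).1
  rw [mul_one, mul_one] at h5
  rw [hc', eB_inj hK (Units.ext h5)]

theorem Stab.y_fixed (hm : 1 ≤ m) {θ : MulAut G} (hθ : R.Stab θ)
    (hf : ∀ t u v, ∃ u' v', θ (R.W t u v) = R.W t u' v') : θ (R.W 1 1 0) = R.W 1 1 0 := by
  have h3z := three_zero (K := K)
  have hH := hθ.hh_fixed hK hf
  have ha := hH (-1)
  -- the centralizer of `a` in `U`
  have i1 : ∀ u, ∃ u', θ (R.W 0 u 0) = R.W 0 u' 0 := by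
    intro u
    obtain ⟨u', v', h⟩ := hf 0 u 0
    have h1 := congrArg θ (R.conj_a 0 u 0)
    rw [neg_zero, map_mul, map_mul, map_inv, ha, h, R.conj_a] at h1
    have h2 := (R.W_inj h1).2.2
    have h3 : v' = 0 := by linear_combination v' * h3z + h2
    exact ⟨u', by rw [h, h3]⟩
  have i2 : ∀ v, ∃ v', θ (R.W 0 0 v) = R.W 0 0 v' := by
    intro v
    obtain ⟨u', v', h⟩ := hf 0 0 v
    have h0 : R.hh (-1) * R.W 0 0 v * (R.hh (-1))⁻¹ = (R.W 0 0 v)⁻¹ := by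
      rw [R.conj_a, R.zero_W_inv, neg_zero]
    have h1 := congrArg θ h0
    rw [map_mul, map_mul, map_inv, map_inv, ha, h, R.conj_a, R.zero_W_inv] at h1
    have h2 := (R.W_inj h1).2.1
    have h3 : u' = 0 := by linear_combination u' * h3z - h2
    exact ⟨v', by rw [h, h3]⟩
  have i3 : ∀ t, ∃ b, θ (R.W t (t * t ^ 3 ^ (m + 1)) 0) = R.W t (t * t ^ 3 ^ (m + 1)) b := by
    intro t
    obtain ⟨u', v', h⟩ := hf t (t * t ^ 3 ^ (m + 1)) 0
    have h0 : R.hh (-1) * R.W t (t * t ^ 3 ^ (m + 1)) 0 * (R.hh (-1))⁻¹ =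
        (R.W t (t * t ^ 3 ^ (m + 1)) 0)⁻¹ := by
      rw [R.conj_a, R.W_inv]
      apply R.W_congr rfl
      · linear_combination (t * t ^ 3 ^ (m + 1)) * h3z
      · ring
    have h1 := congrArg θ h0
    rw [map_mul, map_mul, map_inv, map_inv, ha, h, R.conj_a, R.W_inv] at h1
    have h2 := (R.W_inj h1).2.1
    have h3 : u' = t * t ^ 3 ^ (m + 1) := by linear_combination u' * h3z - h2
    exact ⟨v', by rw [h, h3]⟩
  choose f2 hf2 using i1
  choose f3 hf3 using i2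
  choose β hβ using i3
  -- relation 1
  have r1 : ∀ t u, f3 (-(t * u)) = -(t * f2 u) := by
    intro t u
    have h0 : R.W 0 u 0 * R.W t (t * t ^ 3 ^ (m + 1)) 0 =
        R.W t (t * t ^ 3 ^ (m + 1)) 0 * R.W 0 u 0 * R.W 0 0 (-(t * u)) := by
      rw [R.zero_W_mul, R.W_mul_zero, R.W_mul_zero]
      apply R.W_congr <;> ring
    have h1 := congrArg θ h0
    rw [map_mul, map_mul, map_mul, hf2, hf3, hβ, R.zero_W_mul, R.W_mul_zero, R.W_mul_zero] at h1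
    have h2 := (R.W_inj h1).2.2
    linear_combination -h2
  -- relation 2
  have r2 : ∀ t t', f2 (t * t' ^ 3 ^ (m + 1) - t' * t ^ 3 ^ (m + 1)) =
        t * t' ^ 3 ^ (m + 1) - t' * t ^ 3 ^ (m + 1) ∧
      β t + β t' + (-(t' * (t * t ^ 3 ^ (m + 1))) + t * t' * t' ^ 3 ^ (m + 1) - t ^ 2 * t' ^ 3 ^ (m + 1)) =
        β (t + t') +
          f3 (-(t' * (t * t ^ 3 ^ (m + 1))) + t * t' * t' ^ 3 ^ (m + 1) - t ^ 2 * t' ^ 3 ^ (m + 1)) := by
    intro t t'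
    have h0 : R.W t (t * t ^ 3 ^ (m + 1)) 0 * R.W t' (t' * t' ^ 3 ^ (m + 1)) 0 =
        R.W (t + t') ((t + t') * (t + t') ^ 3 ^ (m + 1)) 0 *
          R.W 0 (t * t' ^ 3 ^ (m + 1) - t' * t ^ 3 ^ (m + 1)) 0 *
          R.W 0 0 (-(t' * (t * t ^ 3 ^ (m + 1))) + t * t' * t' ^ 3 ^ (m + 1) - t ^ 2 * t' ^ 3 ^ (m + 1)) := by
      rw [R.W_mul, R.W_mul_zero, R.W_mul_zero, add_powP]
      apply R.W_congr rfl
      · linear_combination (-(t * t' ^ 3 ^ (m + 1))) * h3z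
      · ring
    have h1 := congrArg θ h0
    rw [map_mul, map_mul, map_mul, hf2, hf3, hβ, hβ, hβ, R.W_mul, R.W_mul_zero, R.W_mul_zero, add_powP] at h1
    obtain ⟨-, h2, h3⟩ := R.W_inj h1
    constructor
    · linear_combination -h2 + (-(t * t' ^ 3 ^ (m + 1))) * h3z
    · linear_combination h3
  obtain ⟨a0, ha0⟩ := exists_powP_ne hK hm
  have hu0 : a0 - a0 ^ 3 ^ (m + 1) ≠ 0 := sub_ne_zero.mpr (Ne.symm ha0)
  have hf2u0 : f2 (a0 - a0 ^ 3 ^ (m + 1)) = a0 - a0 ^ 3 ^ (m + 1) := by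
    have := (r2 a0 1).1
    rwa [one_pow, mul_one, one_mul] at this
  have hf3id : ∀ v, f3 v = v := by
    intro v
    have := r1 (-v / (a0 - a0 ^ 3 ^ (m + 1))) (a0 - a0 ^ 3 ^ (m + 1))
    rw [hf2u0, div_mul_cancel₀ _ hu0, neg_neg] at this
    exact this
  have hβadd : ∀ t t', β (t + t') = β t + β t' := by
    intro t t'
    have := (r2 t t').2
    rw [hf3id] at this
    linear_combination -this
  have hβ0 : β 0 = 0 := by
    have := hβadd 0 0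
    rw [add_zero] at this
    exact left_eq_add.mp this
  have hβeq : ∀ (c : Kˣ) t, β ((eB m c : K) * t) = (c : K) * β t := by
    intro c t
    have h0 : R.hh c * R.W t (t * t ^ 3 ^ (m + 1)) 0 * (R.hh c)⁻¹ =
        R.W ((eB m c : K) * t) (((eB m c : K) * t) * ((eB m c : K) * t) ^ 3 ^ (m + 1)) 0 := by
      rw [R.conj_W', e3_eq hK]
      apply R.W_congr rfl
      · rw [Units.val_mul, Units.val_pow_eq_pow_val, mul_pow]; ring
      · ring
    have h1 := congrArg θ h0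
    rw [map_mul, map_mul, map_inv, hH, hβ, hβ, R.conj_W'] at h1
    exact (R.W_inj h1).2.2.symm
  have hβform : ∀ t, β t = t ^ 2 * t ^ 3 ^ (m + 1) * β 1 := by
    intro t
    by_cases ht : t = 0
    · rw [ht, hβ0]; simp
    · have := hβeq (prm m (Units.mk0 t ht)) 1
      rw [eB_prm hK, mul_one] at this
      exact this
  have hβ1 : β 1 = 0 := by
    have h1 := hβadd a0 1
    rw [hβform (a0 + 1), hβform a0, add_powP, one_pow] at h1
    have h2 : β 1 * ((a0 - 1) * (a0 - a0 ^ 3 ^ (m + 1))) = 0 := by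
      linear_combination h1 - (β 1 * (a0 * a0 ^ 3 ^ (m + 1) + a0)) * h3z
    rcases mul_eq_zero.mp h2 with h | h
    · exact h
    · exfalso
      rcases mul_eq_zero.mp h with h | h
      · apply ha0
        rw [sub_eq_zero.mp h, one_pow]
      · exact hu0 h
  have := hβ 1
  rwa [one_pow, mul_one, hβ1] at this

theorem Stab.eq_one (hm : 1 ≤ m) {θ : MulAut G} (hθ : R.Stab θ)
    (hf : ∀ t u v, ∃ u' v', θ (R.W t u v) = R.W t u' v') : θ = 1 := by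
  have hH := hθ.hh_fixed hK hf
  have hy := hθ.y_fixed hK hm hf
  have hU : ∀ x ∈ R.U, θ x = x := by
    have := R.U_le_of_mem hK hm (MonoidHom.eqLocus θ.toMonoidHom (MonoidHom.id G)) (fun c => hH c)
      (t₀ := 1) (u₀ := 1) (v₀ := 0) one_ne_zero hy
    exact fun x hx => this hx
  -- the Weyl element
  have hn : ∀ x ∈ R.U, (R.w⁻¹ * θ R.w) * x * (R.w⁻¹ * θ R.w)⁻¹ ∈ R.U := by
    intro x hx
    obtain ⟨x', hx', e⟩ := R.mem_V.mp (hθ.V _ (R.mem_V.mpr ⟨x, hx, rfl⟩))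
    rw [map_mul, map_mul, map_inv, hU x hx] at e
    have : (R.w⁻¹ * θ R.w) * x * (R.w⁻¹ * θ R.w)⁻¹ = R.w⁻¹ * (θ R.w * x * (θ R.w)⁻¹) * R.w := by group
    rw [this, e]
    have : R.w⁻¹ * (R.w * x' * R.w⁻¹) * R.w = x' := by group
    rw [this]; exact hx'
  have hnB : R.w⁻¹ * θ R.w ∈ R.B := R.TI (R.W_mem_U 1 0 0) R.W100_ne (hn _ (R.W_mem_U 1 0 0))
  have hw : θ R.w = R.w := by
    rcases R.bruhat (R.w * R.W 1 0 0 * R.w⁻¹) with ⟨t, u, v, c, e⟩ | ⟨t, u, v, c, t', u', v', e⟩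
    · exact absurd (R.VB' (R.W_mem_U 1 0 0) ⟨_, R.W_mem_U t u v, c, e⟩) R.W100_ne
    · have e1 := congrArg θ e
      rw [map_mul, map_mul, map_inv, map_mul, map_mul, map_mul, hU _ (R.W_mem_U 1 0 0), hU _ (R.W_mem_U t u v),
        hU _ (R.W_mem_U t' u' v'), hH] at e1
      have e2 : R.w * ((R.W 1 0 0)⁻¹ * ((R.w⁻¹ * θ R.w) * R.W 1 0 0 * (R.w⁻¹ * θ R.w)⁻¹)) * R.w⁻¹ =
          (R.W t' u' v')⁻¹ * (R.hh c)⁻¹ * (R.w⁻¹ * θ R.w) * R.hh c * R.W t' u' v' := by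
        have : R.w * ((R.W 1 0 0)⁻¹ * ((R.w⁻¹ * θ R.w) * R.W 1 0 0 * (R.w⁻¹ * θ R.w)⁻¹)) * R.w⁻¹ =
            (R.w * R.W 1 0 0 * R.w⁻¹)⁻¹ * (θ R.w * R.W 1 0 0 * (θ R.w)⁻¹) := by group
        rw [this, e1, e]; group
      have h1 := R.VB' (R.U.mul_mem (R.U.inv_mem (R.W_mem_U 1 0 0)) (hn _ (R.W_mem_U 1 0 0))) (by
        rw [e2]
        exact R.B.mul_mem (R.B.mul_mem (R.B.mul_mem (R.B.mul_mem (R.B.inv_mem (R.U_le_B (R.W_mem_U _ _ _)))
          (R.B.inv_mem (R.hh_mem_B c))) hnB) (R.hh_mem_B c)) (R.U_le_B (R.W_mem_U _ _ _)))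
      rw [h1] at e2
      have e3 : R.w⁻¹ * θ R.w = 1 := by
        have : R.w⁻¹ * θ R.w = R.hh c * R.W t' u' v' *
            ((R.W t' u' v')⁻¹ * (R.hh c)⁻¹ * (R.w⁻¹ * θ R.w) * R.hh c * R.W t' u' v') *
            (R.hh c * R.W t' u' v')⁻¹ := by group
        rw [this, ← e2]; group
      exact (inv_mul_eq_one.mp e3).symm
  ext g
  rw [MulAut.one_apply]
  rcases R.bruhat g with ⟨t, u, v, c, e⟩ | ⟨t, u, v, c, t', u', v', e⟩
  · rw [e, map_mul, hU _ (R.W_mem_U t u v), hH]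
  · rw [e, map_mul, map_mul, map_mul, hU _ (R.W_mem_U t u v), hU _ (R.W_mem_U t' u' v'), hH, hw]

end RData

end Cfsg.Agent.Lib.Helper18.ReeOut
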