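import Cfsg.Agent.Lib.Helper18.ReeOutD
import Cfsg.Prelude.Def_KGroupFacts

set_option autoImplicit false

/-! Abstract groups of Ree type in coordinates: the outer automorphism group, two generators. -/

namespace Cfsg.Agent.Lib.Helper18.ReeOut

open scoped Pointwise

variable {G : Type*} [Group G] {K : Type*} [Field K] {m : ℕ}

lemma inv_maps [Finite G] {S : Subgroup G} {θ : MulAut G} (h : ∀ x ∈ S, θ x ∈ S) :
    ∀ x ∈ S, θ⁻¹ x ∈ S := by
  intro y hy
  let f : S → S := fun x => ⟨θ x, h x x.2⟩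
  have hinj : Function.Injective f := fun a b hab => Subtype.ext (θ.injective (congrArg Subtype.val hab))
  obtain ⟨x, hx⟩ := (Finite.injective_iff_surjective.mp hinj) ⟨y, hy⟩
  have : θ x = y := congrArg Subtype.val hx
  rw [← this, MulAut.inv_apply_self]
  exact x.2

namespace RData

variable {R : RData G K m} [CharP K 3]

lemma Stab.mul {θ θ' : MulAut G} (h : R.Stab θ) (h' : R.Stab θ') : R.Stab (θ * θ') :=
  ⟨fun x hx => h.U _ (h'.U x hx), fun x hx => h.V _ (h'.V x hx)⟩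

lemma Stab.inv [Finite G] {θ : MulAut G} (h : R.Stab θ) : R.Stab θ⁻¹ :=
  ⟨inv_maps h.U, inv_maps h.V⟩

lemma stab_conj_hh (c : Kˣ) : R.Stab (MulAut.conj (R.hh c)) :=
  ⟨fun _ hx => R.hh_conj_mem_U c hx, fun _ hx => R.hh_conj_mem_V c hx⟩

variable (R)

theorem exists_stab [Finite G] (P : Sylow 3 G) (hP : (P : Subgroup G) = R.U) (θ : MulAut G) :
    ∃ g : G, R.Stab (MulAut.conj g * θ) := by
  obtain ⟨g, hg⟩ := MulAction.exists_smul_eq G (θ • P) P
  have h1 : ∀ x ∈ R.U, (MulAut.conj g * θ) x ∈ R.U := by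
    intro x hx
    rw [← hP] at hx ⊢
    have h2 : θ • x ∈ θ • (P : Subgroup G) := Subgroup.smul_mem_pointwise_smul x θ P hx
    have h3 : MulAut.conj g • (θ • x) ∈ MulAut.conj g • (θ • (P : Subgroup G)) :=
      Subgroup.smul_mem_pointwise_smul _ _ _ h2
    have h4 : MulAut.conj g • (θ • (P : Subgroup G)) = ((g • (θ • P) : Sylow 3 G) : Subgroup G) := rfl
    rw [h4, hg] at h3
    exact h3
  rcases R.bruhat ((MulAut.conj g * θ) R.w) with ⟨t, u, v, c, e⟩ | ⟨t, u, v, c, t', u', v', e⟩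
  · exfalso
    have h2 : (MulAut.conj g * θ) (R.w * R.W 1 0 0 * R.w⁻¹) ∈ R.U := by
      rw [map_mul, map_mul, map_inv]
      exact R.B_conj_mem_U ⟨_, R.W_mem_U t u v, c, e⟩ (h1 _ (R.W_mem_U 1 0 0))
    have h3 := inv_maps h1 _ h2
    rw [MulAut.inv_apply_self] at h3
    exact R.W100_ne (R.VB' (R.W_mem_U 1 0 0) (R.U_le_B h3))
  · refine ⟨(R.W t u v)⁻¹ * g, ?_⟩
    rw [map_mul, mul_assoc]
    constructor
    · intro x hx
      rw [MulAut.mul_apply, MulAut.conj_apply, inv_inv]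
      exact R.U.mul_mem (R.U.mul_mem (R.U.inv_mem (R.W_mem_U _ _ _)) (h1 x hx)) (R.W_mem_U _ _ _)
    · intro y hy
      obtain ⟨x, hx, rfl⟩ := R.mem_V.mp hy
      rw [MulAut.mul_apply, MulAut.conj_apply, inv_inv, map_mul, map_mul, map_inv, e]
      refine R.mem_V.mpr ⟨R.hh c * (R.W t' u' v' * (MulAut.conj g * θ) x * (R.W t' u' v')⁻¹) * (R.hh c)⁻¹,
        R.hh_conj_mem_U c (R.U.mul_mem (R.U.mul_mem (R.W_mem_U _ _ _) (h1 x hx)) (R.U.inv_mem (R.W_mem_U _ _ _))),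
        ?_⟩
      group

variable [Fintype K] (hK : Fintype.card K = 3 ^ (2 * m + 1))
include hK

theorem bijective_out (hm : 1 ≤ m) [Finite G] (P : Sylow 3 G) (hP : (P : Subgroup G) = R.U)
    (φ : (K ≃+* K) → MulAut G) (hφW : ∀ σ t u v, φ σ (R.W t u v) = R.W (σ t) (σ u) (σ v))
    (hφV : ∀ σ, ∀ x ∈ R.V, φ σ x ∈ R.V) :
    Function.Bijective (fun σ : K ≃+* K => (QuotientGroup.mk (φ σ) : Cfsg.Out G)) := by
  have hφS : ∀ σ, R.Stab (φ σ) := fun σ =>
    ⟨by rintro _ ⟨t, u, v, rfl⟩; rw [hφW]; exact R.W_mem_U _ _ _, hφV σ⟩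
  constructor
  · intro σ τ h
    have h1 : (φ σ)⁻¹ * φ τ ∈ Cfsg.Inn G := QuotientGroup.eq.mp h
    obtain ⟨g, hg⟩ := h1
    have h2 : ∀ t u v, g * R.W t u v * g⁻¹ = R.W (σ.symm (τ t)) (σ.symm (τ u)) (σ.symm (τ v)) := by
      intro t u v
      have h3 := congrArg (fun χ : MulAut G => χ (R.W t u v)) hg
      simp only [MulAut.conj_apply, MulAut.mul_apply] at h3
      rw [h3, hφW]
      have h4 := hφW σ (σ.symm (τ t)) (σ.symm (τ u)) (σ.symm (τ v))
      simp only [RingEquiv.apply_symm_apply] at h4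
      rw [← h4, MulAut.inv_apply_self]
    have hgB : g ∈ R.B := R.TI (R.W_mem_U 1 0 0) R.W100_ne (by rw [h2]; exact R.W_mem_U _ _ _)
    obtain ⟨x, hx, c, rfl⟩ := hgB
    have h5 : ∀ t, σ.symm (τ t) = (eB m c : K) * t := by
      intro t
      obtain ⟨u', v', h6⟩ := R.conj_B_tc hx c t 0 0
      rw [h2] at h6
      exact (R.W_inj h6).1
    have h7 : (eB m c : K) = 1 := by
      have := h5 1
      rw [map_one, map_one, mul_one] at this
      exact this.symm
    ext t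
    have := h5 t
    rw [h7, one_mul, RingEquiv.symm_apply_eq] at this
    exact this.symm
  · intro z
    obtain ⟨θ, rfl⟩ := QuotientGroup.mk_surjective z
    obtain ⟨g, hS⟩ := R.exists_stab P hP θ
    obtain ⟨σ, a, hσ⟩ := hS.exists_field hK
    have hψ : R.Stab (MulAut.conj (R.hh (prm m a)) * φ σ) := (stab_conj_hh _).mul (hφS σ)
    have hψW : ∀ t u v, ∃ u' v', (MulAut.conj (R.hh (prm m a)) * φ σ) (R.W t u v) = R.W ((a : K) * σ t) u' v' := by
      intro t u v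
      rw [MulAut.mul_apply, hφW, MulAut.conj_apply, R.conj_W', eB_prm hK]
      exact ⟨_, _, rfl⟩
    have h3 : (MulAut.conj (R.hh (prm m a)) * φ σ)⁻¹ * (MulAut.conj g * θ) = 1 := by
      apply (hψ.inv.mul hS).eq_one hK hm
      intro t u v
      obtain ⟨u', v', h1⟩ := hσ t u v
      rw [MulAut.mul_apply, h1]
      obtain ⟨t2, u2, v2, h2⟩ := hψ.inv.U _ (R.W_mem_U ((a : K) * σ t) u' v')
      obtain ⟨u3, v3, h4⟩ := hψW t2 u2 v2
      rw [← h2, MulAut.apply_inv_self] at h4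
      have h5 := (R.W_inj h4).1
      have h6 : t = t2 := σ.injective (mul_left_cancel₀ a.ne_zero h5)
      rw [h2, h6]
      exact ⟨_, _, rfl⟩
    have h4 : MulAut.conj g * θ = MulAut.conj (R.hh (prm m a)) * φ σ := (inv_mul_eq_one.mp h3).symm
    refine ⟨σ, ?_⟩
    have h5 : θ = MulAut.conj (g⁻¹ * R.hh (prm m a)) * φ σ := by
      rw [map_mul, mul_assoc, ← h4, map_inv, inv_mul_cancel_left]
    show (QuotientGroup.mk (φ σ) : Cfsg.Out G) = QuotientGroup.mk θ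
    have h6 : MulAut.conj (g⁻¹ * R.hh (prm m a)) ∈ Cfsg.Inn G := ⟨_, rfl⟩
    rw [h5, QuotientGroup.mk_mul, (QuotientGroup.eq_one_iff _).mpr h6, one_mul]

include R in
theorem two_gen (hm : 1 ≤ m) : ∃ a b : G, Subgroup.closure ({a, b} : Set G) = ⊤ := by
  classical
  obtain ⟨g0, hg0⟩ := IsCyclic.exists_generator (α := Kˣ)
  refine ⟨R.hh g0, R.W 1 0 0 * R.w, ?_⟩
  set L := Subgroup.closure ({R.hh g0, R.W 1 0 0 * R.w} : Set G) with hL
  have ha : R.hh g0 ∈ L := Subgroup.subset_closure (by simp)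
  have hb : R.W 1 0 0 * R.w ∈ L := Subgroup.subset_closure (by simp)
  have hH : ∀ c, R.hh c ∈ L := by
    intro c
    obtain ⟨k, rfl⟩ := Subgroup.mem_zpowers_iff.mp (hg0 c)
    rw [map_zpow]
    exact L.zpow_mem ha k
  have hg1 : g0 ≠ 1 := by
    rintro rfl
    have h2 : orderOf (1 : Kˣ) = Nat.card Kˣ := orderOf_eq_card_of_forall_mem_zpowers hg0
    rw [Nat.card_eq_fintype_card, Fintype.card_units, hK, orderOf_one] at h2
    have h5 : 3 ^ 3 ≤ 3 ^ (2 * m + 1) := Nat.pow_le_pow_right (by norm_num) (by omega)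
    omega
  have h1 : R.W 1 0 0 * (R.hh g0⁻¹ * (R.W 1 0 0)⁻¹ * (R.hh g0⁻¹)⁻¹) ∈ L := by
    have e : R.W 1 0 0 * (R.hh g0⁻¹ * (R.W 1 0 0)⁻¹ * (R.hh g0⁻¹)⁻¹) =
        (R.W 1 0 0 * R.w) * R.hh g0 * (R.W 1 0 0 * R.w)⁻¹ * R.hh g0 := by
      have : (R.W 1 0 0 * R.w) * R.hh g0 * (R.W 1 0 0 * R.w)⁻¹ =
          R.W 1 0 0 * (R.w * R.hh g0 * R.w⁻¹) * (R.W 1 0 0)⁻¹ := by group
      rw [this, R.w_inv, map_inv]; group
    rw [e]
    exact L.mul_mem (L.mul_mem (L.mul_mem hb ha) (L.inv_mem hb)) ha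
  rw [R.W_inv, R.conj_W', R.W_mul] at h1
  have hU : R.U ≤ L := by
    refine R.U_le_of_mem hK hm L hH ?_ h1
    intro h
    have h2 : (eB m g0⁻¹ : K) = 1 := by linear_combination -h
    have h3 : eB m g0⁻¹ = eB m (1 : Kˣ) := by
      apply Units.ext
      rw [h2]; simp [eB]
    exact hg1 (inv_eq_one.mp (eB_inj hK h3))
  have hw : R.w ∈ L := by
    have : R.w = (R.W 1 0 0)⁻¹ * (R.W 1 0 0 * R.w) := by group
    rw [this]
    exact L.mul_mem (L.inv_mem (hU (R.W_mem_U _ _ _))) hb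
  rw [eq_top_iff]
  intro g _
  rcases R.bruhat g with ⟨t, u, v, c, e⟩ | ⟨t, u, v, c, t', u', v', e⟩
  · rw [e]; exact L.mul_mem (hU (R.W_mem_U _ _ _)) (hH c)
  · rw [e]; exact L.mul_mem (L.mul_mem (L.mul_mem (hU (R.W_mem_U _ _ _)) hw) (hH c)) (hU (R.W_mem_U _ _ _))

end RData

/-- the number of automorphisms of the field. -/
theorem card_ringAut [CharP K 3] [Fintype K] (hK : Fintype.card K = 3 ^ (2 * m + 1)) :
    Nat.card (K ≃+* K) = 2 * m + 1 := by
  have : Fact (Nat.Prime 3) := ⟨Nat.prime_three⟩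
  let _ : Algebra (ZMod 3) K := ZMod.algebra _ _
  have h2 : Module.finrank (ZMod 3) K = 2 * m + 1 := by
    have := FiniteField.pow_finrank_eq_card 3 K
    rw [hK] at this
    exact Nat.pow_right_injective (by norm_num) this
  rw [← h2, ← IsGalois.card_aut_eq_finrank (ZMod 3) K]
  apply Nat.card_congr
  exact
    { toFun := fun e => AlgEquiv.ofRingEquiv (f := e) (fun r =>
        RingHom.congr_fun (Subsingleton.elim ((e : K →+* K).comp (algebraMap (ZMod 3) K))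
          (algebraMap (ZMod 3) K)) r)
      invFun := fun e => e.toRingEquiv
      left_inv := fun e => by ext; rfl
      right_inv := fun e => by ext; rfl }

end Cfsg.Agent.Lib.Helper18.ReeOut
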