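import Cfsg.Agent.Lib.Helper18.ReeOutInst

set_option autoImplicit false

/-! `|Out(²G₂(q))| = 2m+1`, and `²G₂(q)` is generated by two elements. -/

namespace Cfsg.Agent.Lib.Helper18.ReeOut

open Cfsg.Lie Matrix Cfsg.Agent.Lib.Helper6 Cfsg.Agent.Lib.Helper18 Cfsg.Agent.Lib.Lead.ChevSpecial
  Cfsg.Agent.Lib.Lead.FixTwist Cfsg.Agent.Lib.Helper17 Cfsg.Agent.Lib.Lead.Ree Cfsg.Agent.Lib.Lead.ReeAbs

variable {K : Type*} [Field K] [Fintype K] {m : ℕ} (hK : Fintype.card K = 3 ^ (2 * m + 1))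
  (T : STwist (bnData_of_mem K memG2))
  (hρR : T.ρR = rhoRG2) (hf : ∀ r t, T.f r t = t ^ (3 ^ (m + kG2 r))) [CharP K 3] [Fact (Nat.Prime 3)]

lemma mem_rdata_U (g : ↥(twistedG2 K (3 ^ m))) :
    g ∈ (rdata hK T hρR hf).U ↔ (g : GL chevG2.Idx K) ∈ chevG2.posUnipotent K := by
  rw [RData.mem_U]
  constructor
  · rintro ⟨t, u, v, rfl⟩; exact (Wd_mem hK T hρR hf t u v).1
  · intro h
    obtain ⟨t, u, v, e⟩ := exists_Wd' hK T hρR hf h g.2
    exact ⟨t, u, v, Subtype.ext e⟩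

lemma rdata_U : (rdata hK T hρR hf).U = U1 K m := by
  ext g
  rw [mem_rdata_U, mem_U1]

lemma coe_Wd (t u v : K) : ((Wd hK T hρR hf t u v : GL chevG2.Idx K) : Matrix chevG2.Idx chevG2.Idx K) =
    chevG2.wordMat K (reeWordU (3 ^ m) t u v) := coe_wordU hK T hρR hf t u v

lemma phi_W (σ : K ≃+* K) (t u v : K) :
    phi (3 ^ m) σ (WG hK T hρR hf t u v) = WG hK T hρR hf (σ t) (σ u) (σ v) := by
  apply Subtype.ext
  apply Units.ext
  show ((Wd hK T hρR hf t u v : GL chevG2.Idx K) : Matrix chevG2.Idx chevG2.Idx K).map (σ : K →+* K) =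
    ((Wd hK T hρR hf (σ t) (σ u) (σ v) : GL chevG2.Idx K) : Matrix chevG2.Idx chevG2.Idx K)
  rw [coe_Wd, coe_Wd, map_wordMat, map_reeWordU]
  rfl

lemma conj_w_U {x : ↥(twistedG2 K (3 ^ m))} (hx : (x : GL chevG2.Idx K) ∈ chevG2.posUnipotent K) :
    ((wG hK T hρR hf * x * (wG hK T hρR hf)⁻¹ : ↥(twistedG2 K (3 ^ m))) : GL chevG2.Idx K) ∈
      chevG2.negUnipotent K := by
  obtain ⟨h0, hh0, e0⟩ := wR_eq hK T hρR hf
  rw [Subgroup.coe_mul, Subgroup.coe_mul, Subgroup.coe_inv, coe_wG, e0]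
  exact conj_U_mem_V hh0 hx

lemma conj_w_V {x : ↥(twistedG2 K (3 ^ m))} (hx : (x : GL chevG2.Idx K) ∈ chevG2.negUnipotent K) :
    ((wG hK T hρR hf * x * (wG hK T hρR hf)⁻¹ : ↥(twistedG2 K (3 ^ m))) : GL chevG2.Idx K) ∈
      chevG2.posUnipotent K := by
  obtain ⟨h0, hh0, e0⟩ := wR_eq hK T hρR hf
  rw [Subgroup.coe_mul, Subgroup.coe_mul, Subgroup.coe_inv, coe_wG, e0]
  exact conj_V_mem_U hh0 hx

lemma mem_rdata_V (g : ↥(twistedG2 K (3 ^ m))) :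
    g ∈ (rdata hK T hρR hf).V ↔ (g : GL chevG2.Idx K) ∈ chevG2.negUnipotent K := by
  rw [RData.mem_V]
  constructor
  · rintro ⟨x, hx, rfl⟩
    exact conj_w_U hK T hρR hf ((mem_rdata_U hK T hρR hf x).mp hx)
  · intro h
    have h1 : ∀ x ∈ (rdata hK T hρR hf).U,
        MulAut.conj (wG hK T hρR hf * wG hK T hρR hf) x ∈ (rdata hK T hρR hf).U := by
      intro x hx
      rw [mem_rdata_U] at hx ⊢
      have := conj_w_V hK T hρR hf (conj_w_U hK T hρR hf hx)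
      rw [MulAut.conj_apply]
      convert this using 2
      group
    have h2 := inv_maps h1 _ ((mem_rdata_U hK T hρR hf _).mpr (conj_w_V hK T hρR hf h))
    refine ⟨_, h2, ?_⟩
    rw [MulAut.conj_inv_apply]
    show g = wG hK T hρR hf * _ * (wG hK T hρR hf)⁻¹
    group

include hK T hρR hf in
theorem card_out (hm : 1 ≤ m) : Nat.card (Cfsg.Out ↥(twistedG2 K (3 ^ m))) = 2 * m + 1 := by
  have hp : IsPGroup 3 ↥(U1 K m) := IsPGroup.of_card (card_U1 hK T hρR hf)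
  have hb := (rdata hK T hρR hf).bijective_out hK hm (hp.toSylow (not_dvd_index_U1 hK T hρR hf))
    (rdata_U hK T hρR hf).symm (phi (3 ^ m)) (phi_W hK T hρR hf) (by
      intro σ x hx
      rw [mem_rdata_V] at hx ⊢
      exact fa_mem_V _ chevG2 hx)
  rw [← Nat.card_eq_of_bijective _ hb, card_ringAut hK]

include hK T hρR hf in
theorem two_gen (hm : 1 ≤ m) :
    ∃ a b : ↥(twistedG2 K (3 ^ m)), Subgroup.closure ({a, b} : Set ↥(twistedG2 K (3 ^ m))) = ⊤ :=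
  (rdata hK T hρR hf).two_gen hK hm

end Cfsg.Agent.Lib.Helper18.ReeOut
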