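import Cfsg.Agent.Lib.Helper18.ReeOutE
import Cfsg.Agent.Lib.Lead.ReeMul2
import Cfsg.Agent.Lib.Lead.ReeAbs.Rep7

set_option autoImplicit false

/-! The coordinates of `²G₂(q)` and its field automorphisms. -/

namespace Cfsg.Agent.Lib.Helper18.ReeOut

open Cfsg.Lie Matrix Cfsg.Agent.Lib.Helper6 Cfsg.Agent.Lib.Helper18 Cfsg.Agent.Lib.Lead.ChevSpecial
  Cfsg.Agent.Lib.Lead.FixTwist Cfsg.Agent.Lib.Helper17 Cfsg.Agent.Lib.Lead.Ree Cfsg.Agent.Lib.Lead.ReeAbs

section fieldaut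

variable {K : Type*} [Field K] (σ : K →+* K)

lemma map_ev (t : K) (l : List (ℕ × ℤ)) : σ (Rep7.ev t l) = Rep7.ev (σ t) l := by
  unfold Rep7.ev
  rw [map_list_sum, List.map_map]
  congr 1
  apply List.map_congr_left
  intro km _
  simp

lemma map_x (D : ChevalleyDatum) (r : ℕ) (t : K) : (D.x K r t).map σ = D.x K r (σ t) := by
  unfold ChevalleyDatum.x
  split_ifs with h
  · ext i j
    rw [Matrix.map_apply, Rep7.xMat_apply_eq, Rep7.xMat_apply_eq, map_ev]
  · ext i j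
    simp [Matrix.one_apply, apply_ite σ]

lemma map_wordMat (D : ChevalleyDatum) (w : List (ℕ × K)) :
    (D.wordMat K w).map σ = D.wordMat K (w.map fun p => (p.1, σ p.2)) := by
  unfold ChevalleyDatum.wordMat
  induction w with
  | nil =>
    ext i j
    simp [Matrix.one_apply, apply_ite σ]
  | cons p w ih =>
    simp only [List.map_cons, List.prod_cons]
    rw [Matrix.map_mul, ih, map_x]

lemma map_reeWordU (e : ℕ) (t u v : K) :
    (reeWordU e t u v).map (fun p => (p.1, σ p.2)) = reeWordU e (σ t) (σ u) (σ v) := by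
  simp [reeWordU]

lemma map_reeWordV (e : ℕ) (t u v : K) :
    (reeWordV e t u v).map (fun p => (p.1, σ p.2)) = reeWordV e (σ t) (σ u) (σ v) := by
  simp [reeWordV, reeWordU, ChevalleyDatum.negWord]

/-- the field endomorphism on `GL`. -/
noncomputable def fa (D : ChevalleyDatum) : GL D.Idx K →* GL D.Idx K := Matrix.GeneralLinearGroup.map σ

lemma coe_fa (D : ChevalleyDatum) (g : GL D.Idx K) :
    ((fa σ D g : GL D.Idx K) : Matrix D.Idx D.Idx K) = (g : Matrix D.Idx D.Idx K).map σ := rfl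

lemma fa_mem_G1 (e : ℕ) {g : GL chevG2.Idx K} (hg : g ∈ twistedG2 K e) : fa σ chevG2 g ∈ twistedG2 K e := by
  unfold twistedG2 ChevalleyDatum.genSubgroup at hg ⊢
  induction hg using Subgroup.closure_induction with
  | mem x hx =>
    obtain ⟨w, ⟨t, u, v, hw⟩, e1⟩ := hx
    apply Subgroup.subset_closure
    refine ⟨w.map fun p => (p.1, σ p.2), ⟨σ t, σ u, σ v, ?_⟩, ?_⟩
    · rcases hw with rfl | rfl
      · left; exact map_reeWordU σ e t u v
      · right; exact map_reeWordV σ e t u v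
    · rw [coe_fa, e1, map_wordMat]
  | one => rw [map_one]; exact Subgroup.one_mem _
  | mul x y _ _ hx hy => rw [map_mul]; exact Subgroup.mul_mem _ hx hy
  | inv x _ hx => rw [map_inv]; exact Subgroup.inv_mem _ hx

lemma fa_mem_V (D : ChevalleyDatum) {g : GL D.Idx K} (hg : g ∈ D.negUnipotent K) :
    fa σ D g ∈ D.negUnipotent K := by
  unfold ChevalleyDatum.negUnipotent at hg ⊢
  induction hg using Subgroup.closure_induction with
  | mem x hx =>
    obtain ⟨r, t, hr, e1⟩ := hx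
    apply Subgroup.subset_closure
    exact ⟨r, σ t, hr, by rw [coe_fa, e1, map_x]⟩
  | one => rw [map_one]; exact Subgroup.one_mem _
  | mul x y _ _ hx hy => rw [map_mul]; exact Subgroup.mul_mem _ hx hy
  | inv x _ hx => rw [map_inv]; exact Subgroup.inv_mem _ hx

end fieldaut

/-- the field automorphisms of `²G₂`. -/
noncomputable def phi {K : Type*} [Field K] (e : ℕ) (σ : K ≃+* K) : MulAut ↥(twistedG2 K e) where
  toFun g := ⟨fa (σ : K →+* K) chevG2 g, fa_mem_G1 _ e g.2⟩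
  invFun g := ⟨fa (σ.symm : K →+* K) chevG2 g, fa_mem_G1 _ e g.2⟩
  left_inv g := by
    apply Subtype.ext
    apply Units.ext
    ext i j
    simp [coe_fa]
  right_inv g := by
    apply Subtype.ext
    apply Units.ext
    ext i j
    simp [coe_fa]
  map_mul' g h := by
    apply Subtype.ext
    simp

variable {K : Type*} [Field K] [Fintype K] {m : ℕ} (hK : Fintype.card K = 3 ^ (2 * m + 1))
  (T : STwist (bnData_of_mem K memG2))
  (hρR : T.ρR = rhoRG2) (hf : ∀ r t, T.f r t = t ^ (3 ^ (m + kG2 r))) [CharP K 3] [Fact (Nat.Prime 3)]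

/-- the Weyl element. -/
noncomputable def wR : GL chevG2.Idx K := (exists_sO hK T hρR hf).choose

lemma wR_mem : wR hK T hρR hf ∈ twistedG2 K (3 ^ m) := (exists_sO hK T hρR hf).choose_spec.1

lemma wR_eq : ∃ h ∈ chevG2.diagonalSubgroup K, wR hK T hρR hf = h * (bnData_of_mem K memG2).hB.nW wG2 :=
  (exists_sO hK T hρR hf).choose_spec.2

lemma H_comm {a b : GL chevG2.Idx K} (ha : a ∈ chevG2.diagonalSubgroup K) (hb : b ∈ chevG2.diagonalSubgroup K) :
    a * b = b * a := by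
  rw [← (bnData_of_mem K memG2).hB.range_hHom (bnData_of_mem K memG2).hT.tab] at ha hb
  obtain ⟨z, rfl⟩ := ha
  obtain ⟨z', rfl⟩ := hb
  rw [← map_mul, ← map_mul, mul_comm]

lemma wR_inv {h : GL chevG2.Idx K} (hh : h ∈ chevG2.diagonalSubgroup K) :
    wR hK T hρR hf * h * (wR hK T hρR hf)⁻¹ = h⁻¹ := by
  obtain ⟨h0, hh0, e⟩ := wR_eq hK T hρR hf
  have h1 := nW_conj_H_inv memG2 (bnData_of_mem K memG2).hB (bnData_of_mem K memG2).hT.tab isLong_wG2.lt
    wAct_wG2 neg_negG2 hh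
  rw [e]
  have : h0 * (bnData_of_mem K memG2).hB.nW wG2 * h * (h0 * (bnData_of_mem K memG2).hB.nW wG2)⁻¹ =
      h0 * ((bnData_of_mem K memG2).hB.nW wG2 * h * ((bnData_of_mem K memG2).hB.nW wG2)⁻¹) * h0⁻¹ := by group
  rw [this, h1, H_comm hh0 (inv_mem hh)]
  group

include hK T hρR hf in
lemma exists_hR {h : GL chevG2.Idx K} (hh : h ∈ chevG2.diagonalSubgroup K) (h1 : h ∈ twistedG2 K (3 ^ m)) :
    ∃ c, hR K m c = h := by
  have : h ∈ (hR K m).range := by
    rw [range_hR hK T hρR hf]; exact ⟨hh, h1⟩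
  exact this

lemma exists_Wd' {g : GL chevG2.Idx K} (hg : g ∈ chevG2.posUnipotent K) (h1 : g ∈ twistedG2 K (3 ^ m)) :
    ∃ t u v, g = Wd hK T hρR hf t u v := exists_Wd hK T hρR hf ⟨hg, G1_le_F hK T hρR hf h1⟩

/-- the elements of `U¹`. -/
noncomputable def WG (t u v : K) : ↥(twistedG2 K (3 ^ m)) := ⟨Wd hK T hρR hf t u v, Wd_mem_G1 hK T hρR hf t u v⟩

lemma coe_WG (t u v : K) : ((WG hK T hρR hf t u v : ↥(twistedG2 K (3 ^ m))) : GL chevG2.Idx K) =
    Wd hK T hρR hf t u v := rfl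

/-- the elements of `H¹`. -/
noncomputable def hG1 : Kˣ →* ↥(twistedG2 K (3 ^ m)) :=
  (hR K m).codRestrict (twistedG2 K (3 ^ m)) (hR_mem_G1 hK T hρR hf)

lemma coe_hG1 (c : Kˣ) : ((hG1 hK T hρR hf c : ↥(twistedG2 K (3 ^ m))) : GL chevG2.Idx K) = hR K m c := rfl

/-- the Weyl element in `G¹`. -/
noncomputable def wG : ↥(twistedG2 K (3 ^ m)) := ⟨wR hK T hρR hf, wR_mem hK T hρR hf⟩

lemma coe_wG : ((wG hK T hρR hf : ↥(twistedG2 K (3 ^ m))) : GL chevG2.Idx K) = wR hK T hρR hf := rfl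

lemma WG_inj {t u v t' u' v' : K} (h : WG hK T hρR hf t u v = WG hK T hρR hf t' u' v') :
    t = t' ∧ u = u' ∧ v = v' := by
  have h' := congrArg (fun g : ↥(twistedG2 K (3 ^ m)) => (g : GL chevG2.Idx K)) h
  simp only [coe_WG] at h'
  exact Wd_inj hK T hρR hf h'

lemma bruhatG (g : ↥(twistedG2 K (3 ^ m))) :
    (∃ t u v c, g = WG hK T hρR hf t u v * hG1 hK T hρR hf c) ∨
    ∃ t u v c t' u' v', g = WG hK T hρR hf t u v * wG hK T hρR hf * hG1 hK T hρR hf c *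
      WG hK T hρR hf t' u' v' := by
  obtain ⟨u₁, h1, g1, n, hn, gn, u₂, h2, g2, e⟩ := (fixBN hK T hρR hf).nf_G1 g.2
  obtain ⟨t, u, v, e1⟩ := exists_Wd' hK T hρR hf h1 g1
  have h2' := Um_le_U n h2
  rcases N1_cases hK T hρR hf hn gn with hH | ⟨h, hh, rfl⟩
  · left
    obtain ⟨c, hc⟩ := exists_hR hK T hρR hf hH gn
    have h3 : n * u₂ * n⁻¹ ∈ chevG2.posUnipotent K := B_conj_U (Base.H_le_B hH) h2'
    obtain ⟨t', u', v', e2⟩ := exists_Wd' hK T hρR hf h3 (mul_mem (mul_mem gn g2) (inv_mem gn))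
    obtain ⟨t2, u2, v2, e3⟩ : ∃ t2 u2 v2, Wd hK T hρR hf t u v * Wd hK T hρR hf t' u' v' =
      Wd hK T hρR hf t2 u2 v2 := ⟨_, _, _, Wd_mul hK T hρR hf t u v t' u' v'⟩
    refine ⟨t2, u2, v2, c, Subtype.ext ?_⟩
    rw [Subgroup.coe_mul, coe_WG, coe_hG1, ← e3, ← e1, ← e2, hc, e]
    group
  · right
    obtain ⟨t', u', v', e2⟩ := exists_Wd' hK T hρR hf h2' g2
    obtain ⟨h0, hh0, e0⟩ := wR_eq hK T hρR hf
    have h3 : h * h0⁻¹ ∈ twistedG2 K (3 ^ m) := by
      have : h * h0⁻¹ = (h * (bnData_of_mem K memG2).hB.nW wG2) * (wR hK T hρR hf)⁻¹ := by rw [e0]; group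
      rw [this]
      exact mul_mem gn (inv_mem (wR_mem hK T hρR hf))
    obtain ⟨c, hc⟩ := exists_hR hK T hρR hf (mul_mem hh (inv_mem hh0)) h3
    refine ⟨t, u, v, c⁻¹, t', u', v', Subtype.ext ?_⟩
    rw [Subgroup.coe_mul, Subgroup.coe_mul, Subgroup.coe_mul, coe_WG, coe_WG, coe_hG1, coe_wG]
    have h4 := wR_inv hK T hρR hf (inv_mem (hR_mem_H (m := m) c))
    rw [inv_inv] at h4
    have h5 : wR hK T hρR hf * hR K m c⁻¹ = hR K m c * wR hK T hρR hf := by
      rw [map_inv]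
      calc wR hK T hρR hf * (hR K m c)⁻¹ =
          (wR hK T hρR hf * (hR K m c)⁻¹ * (wR hK T hρR hf)⁻¹) * wR hK T hρR hf := by group
        _ = _ := by rw [h4]
    rw [mul_assoc (Wd hK T hρR hf t u v), h5, hc, ← e1, ← e2, e, e0]
    group

lemma VBG (t u v t' u' v' : K) (c : Kˣ)
    (e : wG hK T hρR hf * WG hK T hρR hf t u v * (wG hK T hρR hf)⁻¹ =
      WG hK T hρR hf t' u' v' * hG1 hK T hρR hf c) : WG hK T hρR hf t u v = 1 := by
  have e' := congrArg (fun g : ↥(twistedG2 K (3 ^ m)) => (g : GL chevG2.Idx K)) e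
  simp only [Subgroup.coe_mul, Subgroup.coe_inv, coe_WG, coe_hG1, coe_wG] at e'
  obtain ⟨h0, hh0, e0⟩ := wR_eq hK T hρR hf
  have h1 : wR hK T hρR hf * Wd hK T hρR hf t u v * (wR hK T hρR hf)⁻¹ ∈ chevG2.negUnipotent K := by
    rw [e0]; exact conj_U_mem_V hh0 (Wd_mem hK T hρR hf t u v).1
  have h2 : wR hK T hρR hf * Wd hK T hρR hf t u v * (wR hK T hρR hf)⁻¹ ∈
      chevG2.borelSubgroup K ⊓ chevG2.negUnipotent K := by
    refine ⟨?_, h1⟩
    rw [e']
    exact mul_mem (Base.U_le_B (Wd_mem hK T hρR hf t' u' v').1) (Base.H_le_B (hR_mem_H (m := m) c))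
  rw [(bnData_of_mem K memG2).hB.B_inf_V (bnData_of_mem K memG2).hT.toTabs, Subgroup.mem_bot] at h2
  apply Subtype.ext
  rw [coe_WG, Subgroup.coe_one]
  exact conj_eq_one_iff.mp h2

/-- the coordinates of `²G₂(q)`. -/
noncomputable def rdata : RData ↥(twistedG2 K (3 ^ m)) K m where
  W := WG hK T hρR hf
  hh := hG1 hK T hρR hf
  w := wG hK T hρR hf
  W_mul t u v t' u' v' := Subtype.ext (Wd_mul hK T hρR hf t u v t' u' v')
  W_inj := WG_inj hK T hρR hf
  conj_W c t u v := Subtype.ext (conj_Wd hK T hρR hf c t u v)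
  bruhat := bruhatG hK T hρR hf
  w_inv c := Subtype.ext (wR_inv hK T hρR hf (hR_mem_H (m := m) c))
  VB := VBG hK T hρR hf

end Cfsg.Agent.Lib.Helper18.ReeOut
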