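import Cfsg.Agent.Lib.Helper18.TwistH
import Cfsg.Agent.Lib.Helper18.CommCount

set_option autoImplicit false

/-! Perfectness of twisted groups with orthogonal orbits: general lemmas. -/

namespace Cfsg.Agent.Lib.Helper18

open Cfsg.Lie Matrix Cfsg.Agent.Lib.Helper6

section general

open scoped commutatorElement

variable {G : Type*} [Group G] (H : Subgroup G)

/-- the derived subgroup of a subgroup, in the ambient group -/
def derT : Subgroup G := (commutator ↥H).map H.subtype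

theorem comm_mem_derT {a b : G} (ha : a ∈ H) (hb : b ∈ H) : a * b * a⁻¹ * b⁻¹ ∈ derT H :=
  ⟨⁅(⟨a, ha⟩ : ↥H), ⟨b, hb⟩⁆, by
    rw [commutator_def]
    exact Subgroup.commutator_mem_commutator (Subgroup.mem_top _) (Subgroup.mem_top _), rfl⟩

theorem commutator_eq_top_of_le_derT (h : H ≤ derT H) : commutator ↥H = ⊤ := by
  rw [eq_top_iff]
  rintro ⟨x, hx⟩ -
  obtain ⟨y, hy, e⟩ := h hx
  have : y = ⟨x, hx⟩ := Subtype.ext e
  rwa [this] at hy

end general

variable {D : ChevalleyDatum} {K : Type*} [Field K]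

/-- the character of a product of `h_{p_i}(c_i)`. -/
def chiL (D : ChevalleyDatum) (c : ℕ → K) (L : List ℕ) (s : ℕ) : K := (L.map fun i => c i ^ D.cartan i s).prod

lemma chiL_of_not_mem (c : ℕ → K) (L : List ℕ) (s j : ℕ) (e : ℤ)
    (h : ∀ i ∈ L, D.cartan i s = if i = j then e else 0) (hj : j ∉ L) : chiL D c L s = 1 := by
  unfold chiL
  apply List.prod_eq_one
  intro x hx
  obtain ⟨i, hi, rfl⟩ := List.mem_map.mp hx
  have : i ≠ j := fun e => hj (e ▸ hi)
  rw [h i hi, if_neg this, zpow_zero]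

lemma chiL_of_mem (c : ℕ → K) (L : List ℕ) (hnd : L.Nodup) (s j : ℕ) (e : ℤ)
    (h : ∀ i ∈ L, D.cartan i s = if i = j then e else 0) (hj : j ∈ L) : chiL D c L s = c j ^ e := by
  induction L with
  | nil => simp at hj
  | cons a L ih =>
    have hnd' := List.nodup_cons.mp hnd
    have e1 : chiL D c (a :: L) s = c a ^ D.cartan a s * chiL D c L s := by simp [chiL]
    rw [e1, h a (by simp)]
    rcases List.mem_cons.mp hj with rfl | hj'
    · rw [if_pos rfl, chiL_of_not_mem c L s j e (fun i hi => h i (by simp [hi])) hnd'.1, mul_one]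
    · have : a ≠ j := fun e => hnd'.1 (e ▸ hj')
      rw [if_neg this, zpow_zero, one_mul, ih hnd'.2 (fun i hi => h i (by simp [hi])) hj']

namespace Base

variable (hB : Base D K)
include hB

lemma hl_conj_yl (c : ℕ → K) (L : List ℕ) (hL : ∀ i ∈ L, i < D.rank ∧ c i ≠ 0) (R : ℕ → ℕ) (O : List ℕ)
    (hR : ∀ j ∈ O, R j < D.nroots) (g : ℕ → K) :
    hB.hl c L * hB.yl R O g * (hB.hl c L)⁻¹ = hB.yl R O (fun j => chiL D c L (R j) * g j) := by
  induction O with
  | nil => simp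
  | cons a O ih =>
    rw [yl_cons, yl_cons, ← ih (fun j hj => hR j (by simp [hj])), show chiL D c L (R a) * g a = (L.map fun i => c i ^ D.cartan i (R a)).prod * g a from rfl,
      ← hB.hl_conj_xg c (hR a (by simp)) L hL]
    group

end Base

namespace CommData

variable {X : BNData D K} (T : CommData X)

lemma compat_iter {O : List ℕ} (hO : O ∈ T.orbs) {j0 : ℕ}
    (hcyc : O = (List.range O.length).map (fun k => T.ρ^[k] j0)) (hj0 : T.ρ^[O.length] j0 = j0)
    {x : K} (hx : T.f^[O.length] x = x) : T.Compat O (fun j => T.f^[O.idxOf j] x) := by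
  set m := O.length with hm
  set J : ℕ → ℕ := fun k => T.ρ^[k] j0 with hJ
  have hnd : ((List.range m).map J).Nodup := hcyc ▸ (T.orth O hO).nodup
  have hmpos : 0 < m := List.length_pos_iff.mpr (T.ne_nil O hO)
  have hex : ∀ j ∈ O, ∃ k, k < m ∧ j = J k := by
    intro j hj
    rw [hcyc] at hj
    obtain ⟨k, hk, rfl⟩ := List.mem_map.mp hj
    exact ⟨k, List.mem_range.mp hk, rfl⟩
  have hidx : ∀ k, k < m → O.idxOf (J k) = k := by
    intro k hk
    have := idxOf_range_map J hnd hk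
    rwa [← hcyc] at this
  have hJs : ∀ k, T.ρ (J k) = J (k + 1) := fun k => (Function.iterate_succ_apply' T.ρ k j0).symm
  intro j hj
  obtain ⟨k, hk, rfl⟩ := hex j hj
  show T.f^[O.idxOf (T.ρ (J k))] x = T.f (T.f^[O.idxOf (J k)] x)
  rw [hJs, hidx k hk, ← Function.iterate_succ_apply' (⇑T.f) k x]
  by_cases hk1 : k + 1 < m
  · rw [hidx _ hk1]
  · have e : k + 1 = m := by omega
    have e2 : J m = J 0 := hj0
    rw [e, e2, hidx 0 hmpos]
    show x = T.f^[k + 1] x
    rw [e, hx]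

/-- torus mechanism. -/
theorem yl_mem_derT {O O' : List ℕ} (hO : O ∈ T.orbs) (hO' : O' ∈ T.orbs) {R : ℕ → ℕ}
    (hR : R = D.simple ∨ R = nsimple D)
    {c : ℕ → K} (hc : T.Compat O' c) (hc0 : ∀ i ∈ O', c i ≠ 0)
    {χ : ℕ → K} (hχ : ∀ j ∈ O, chiL D c O' (R j) = χ j) (hχc : T.Compat O χ) (hχ1 : ∀ j ∈ O, χ j ≠ 1)
    {s : ℕ → K} (hs : T.Compat O s) : X.hB.yl R O s ∈ derT T.G1 := by
  have hTt := X.hT.tab
  have hRm : ∀ j, R j ∈ [D.simple j, D.neg (D.simple j)] := by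
    rcases hR with rfl | rfl
    · exact hR1
    · exact hR2
  have hRlt : ∀ j ∈ O, R j < D.nroots := by
    intro j hj
    have hj' := hTt.simple_lt j ((T.orth O hO).lt j hj)
    have := hRm j
    simp only [List.mem_cons, List.not_mem_nil, or_false] at this
    rcases this with e | e
    · rw [e]; exact hj'
    · rw [e]; exact hTt.neg_lt hj'
  set t : ℕ → K := fun j => s j / (χ j - 1) with ht
  have htc : T.Compat O t := by
    intro j hj
    show s (T.ρ j) / (χ (T.ρ j) - 1) = T.f (s j / (χ j - 1))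
    rw [hs j hj, hχc j hj, map_div₀, map_sub, map_one]
  have hmem : X.hB.yl R O t ∈ T.G1 := by
    rcases hR with rfl | rfl
    · exact T.yl_pos_mem hO htc
    · exact T.yl_neg_mem hO htc
  have key := comm_mem_derT T.G1 (T.hl_mem hO' hc) hmem
  rw [X.hB.hl_conj_yl c O' (fun i hi => ⟨(T.orth O' hO').lt i hi, hc0 i hi⟩) R O hRlt,
    X.hB.yl_inv hTt (T.orth O hO) hRm, X.hB.yl_mul hTt (T.orth O hO) hRm] at key
  have e : X.hB.yl R O (fun j => chiL D c O' (R j) * t j + -t j) = X.hB.yl R O s := by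
    apply X.hB.yl_congr
    intro j hj
    rw [hχ j hj]
    have : χ j - 1 ≠ 0 := sub_ne_zero.mpr (hχ1 j hj)
    show χ j * (s j / (χ j - 1)) + -(s j / (χ j - 1)) = s j
    field_simp
    ring
  rwa [e] at key

/-- root subgroups over the fixed field contained in `G¹`. -/
def FixRoot (r : ℕ) : Prop := r < D.nroots ∧ ∀ v, T.f v = v → X.hB.xg r v ∈ T.G1

lemma fixRoot_simple {j : ℕ} (hj : [j] ∈ T.orbs) : T.FixRoot (D.simple j) := by
  refine ⟨X.hT.tab.simple_lt j ((T.orth _ hj).lt j (by simp)), fun v hv => ?_⟩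
  have := T.yl_pos_mem hj (T.compat_const [j] hv)
  simpa using this

lemma fixRoot_nsimple {j : ℕ} (hj : [j] ∈ T.orbs) : T.FixRoot (D.neg (D.simple j)) := by
  refine ⟨X.hT.tab.neg_lt (X.hT.tab.simple_lt j ((T.orth _ hj).lt j (by simp))), fun v hv => ?_⟩
  have := T.yl_neg_mem hj (T.compat_const [j] hv)
  simpa [nsimple] using this

lemma fixRoot_wAct {r : ℕ} (h : T.FixRoot r) {O : List ℕ} (hO : O ∈ T.orbs) : T.FixRoot (wAct D O r) := by
  have hlt := (T.orth O hO).lt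
  refine ⟨X.hT.tab.wAct_lt hlt h.1, fun v hv => ?_⟩
  obtain ⟨η, hη, hc⟩ := X.hB.nW_conj_xg X.hT.tab hlt h.1
  have h1 := hc (η * v)
  have h2 : η * (η * v) = v := by
    rcases hη with rfl | rfl <;> simp
  rw [h2] at h1
  rw [← h1]
  have h3 : T.f (η * v) = η * v := by
    rcases hη with rfl | rfl
    · rw [one_mul, hv]
    · rw [map_mul, map_neg, map_one, hv]
  exact mul_mem (mul_mem (T.nW_mem_G1 hO) (h.2 _ h3)) (inv_mem (T.nW_mem_G1 hO))

/-- commutator mechanism. -/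
theorem xg_mem_derT_of_comm {p r1 r2 : ℕ} {ε : ℤ} (h1 : T.FixRoot r1) (h2 : T.FixRoot r2)
    (h : (r2 ≠ r1 ∧ r2 ≠ D.neg r1 ∧ D.commTerms r1 r2 = [(p, ε, 1, 1)]) ∧ (ε = 1 ∨ ε = -1))
    {v : K} (hv : T.f v = v) : X.hB.xg p v ∈ derT T.G1 := by
  obtain ⟨⟨h3, h4, h5⟩, h6⟩ := h
  have h6' : (ε : K) ≠ 0 := by rcases h6 with rfl | rfl <;> simp
  have key := X.hB.comm_xg h1.1 h2.1 h3 h4 (-1) ((ε : K)⁻¹ * v)
  have hw : X.hB.wg (D.commWord K r1 r2 (-1) ((ε : K)⁻¹ * v)) = X.hB.xg p v := by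
    simp only [ChevalleyDatum.commWord, h5, Base.wg, List.map_cons, List.map_nil, List.prod_cons,
      List.prod_nil, mul_one, neg_neg, one_pow, pow_one]
    rw [mul_inv_cancel_left₀ h6']
  rw [hw] at key
  have : X.hB.xg p v = (X.hB.xg r2 ((ε : K)⁻¹ * v))⁻¹ * (X.hB.xg r1 (-1))⁻¹ *
      ((X.hB.xg r2 ((ε : K)⁻¹ * v))⁻¹)⁻¹ * ((X.hB.xg r1 (-1))⁻¹)⁻¹ := by
    rw [inv_inv, inv_inv, mul_assoc, mul_assoc, ← mul_assoc (X.hB.xg r1 (-1))⁻¹, key]
    group
  rw [this]
  have hv' : T.f ((ε : K)⁻¹ * v) = (ε : K)⁻¹ * v := by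
    rcases h6 with rfl | rfl
    · simp [hv]
    · simp [hv]
  exact comm_mem_derT T.G1 (inv_mem (h2.2 _ hv')) (inv_mem (h1.2 _ (by rw [map_neg, map_one])))

end CommData

end Cfsg.Agent.Lib.Helper18
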