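import Cfsg.Agent.Lib.Helper18.TwistPerfInst
import Cfsg.Agent.Lib.Helper18.FixSimple
import Cfsg.Agent.Lib.Helper18.FixCoreInst

set_option autoImplicit false
set_option maxRecDepth 100000

/-! `²E₆(q)` and `³D₄(q)` are simple. -/

namespace Cfsg.Agent.Lib.Helper18

open Cfsg.Lie Matrix Cfsg.Agent.Lib.Helper6 Cfsg.Agent.Lib.Lead.FixTwist

variable {D : ChevalleyDatum} {K : Type*} [Field K]

lemma wPerm_ne_comm (hT : Tab D) {O O' : List ℕ} (hO : ∀ i ∈ O, i < D.rank) (hO' : ∀ i ∈ O', i < D.rank)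
    (h : ∃ r < D.nroots, wAct D O (wAct D O' r) ≠ wAct D O' (wAct D O r)) :
    wPerm hT O hO * wPerm hT O' hO' ≠ wPerm hT O' hO' * wPerm hT O hO := by
  obtain ⟨r, hr, hne⟩ := h
  intro e
  apply hne
  exact congrArg (fun π : Equiv.Perm (Fin D.nroots) => ((π ⟨r, hr⟩ : Fin D.nroots) : ℕ)) e

theorem ncE6 : ∀ p ∈ [([1], [3]), ([3], [1]), ([3], [2, 4]), ([2, 4], [3]), ([2, 4], [0, 5]), ([0, 5], [2, 4])],
    ∃ r < chevE6.nroots, wAct chevE6 p.1 (wAct chevE6 p.2 r) ≠ wAct chevE6 p.2 (wAct chevE6 p.1 r) := by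
  decide +kernel

theorem ncD4 : ∀ p ∈ [([1], [0, 2, 3]), ([0, 2, 3], [1])],
    ∃ r < chevD4.nroots, wAct chevD4 p.1 (wAct chevD4 p.2 r) ≠ wAct chevD4 p.2 (wAct chevD4 p.1 r) := by
  decide +kernel

theorem simple_E6 [Fintype K] {q : ℕ} (hq : IsPrimePow q) (hK : Fintype.card K = q ^ 2) :
    IsSimpleGroup ↥(twistedE6 K q) ∧ ¬ IsMulCommutative ↥(twistedE6 K q) := by
  have hp := perfect_E6 hq hK
  have hcore := normalCore_E6 hq hK
  obtain ⟨T, hG, hf, hO, -⟩ := exists_commData_E6 hq hK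
  rw [← hG] at hp hcore ⊢
  have hO' : T.toTwistBN.toFixBN.orbs = orbsE6 := hO
  have m1 : [1] ∈ T.toTwistBN.toFixBN.orbs := by rw [hO']; decide
  have m3 : [3] ∈ T.toTwistBN.toFixBN.orbs := by rw [hO']; decide
  have m24 : [2, 4] ∈ T.toTwistBN.toFixBN.orbs := by rw [hO']; decide
  have m05 : [0, 5] ∈ T.toTwistBN.toFixBN.orbs := by rw [hO']; decide
  refine FixB.simple T.toTwistBN.toFixBN (by rw [hO']; decide) ?_ hp hcore
  rintro P ⟨O, hOm, hP⟩ ⟨O', hOm', hP'⟩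
  have key : ∀ A B : List ℕ, ∀ (hA : A ∈ T.toTwistBN.toFixBN.orbs) (hB : B ∈ T.toTwistBN.toFixBN.orbs),
      (A, B) ∈ [([1], [3]), ([3], [1]), ([3], [2, 4]), ([2, 4], [3]), ([2, 4], [0, 5]), ([0, 5], [2, 4])] →
      P A → ¬ P B → _ := fun A B hA hB hm h1 h2 =>
    (⟨A, hA, B, hB, h1, h2, wPerm_ne_comm _ _ _ (ncE6 _ hm)⟩ :
      ∃ O, ∃ hO : O ∈ T.toTwistBN.toFixBN.orbs, ∃ O', ∃ hO' : O' ∈ T.toTwistBN.toFixBN.orbs, P O ∧ ¬ P O' ∧
      wPerm (bnData_of_mem K memE6).hT.tab O (T.toTwistBN.toFixBN.orb_lt O hO) * wPerm (bnData_of_mem K memE6).hT.tab O' (T.toTwistBN.toFixBN.orb_lt O' hO') ≠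
      wPerm (bnData_of_mem K memE6).hT.tab O' (T.toTwistBN.toFixBN.orb_lt O' hO') * wPerm (bnData_of_mem K memE6).hT.tab O (T.toTwistBN.toFixBN.orb_lt O hO))
  by_cases p1 : P [1] <;> by_cases p3 : P [3] <;> by_cases p24 : P [2, 4] <;> by_cases p05 : P [0, 5]
  all_goals first
    | exact key _ _ m1 m3 (by decide) p1 p3
    | exact key _ _ m3 m1 (by decide) p3 p1
    | exact key _ _ m3 m24 (by decide) p3 p24
    | exact key _ _ m24 m3 (by decide) p24 p3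
    | exact key _ _ m24 m05 (by decide) p24 p05
    | exact key _ _ m05 m24 (by decide) p05 p24
    | (exfalso
       rw [hO'] at hOm hOm'
       simp only [orbsE6, List.mem_cons, List.not_mem_nil, or_false] at hOm hOm'
       rcases hOm with rfl | rfl | rfl | rfl <;> rcases hOm' with rfl | rfl | rfl | rfl <;> contradiction)

theorem simple_D4 [Fintype K] {q : ℕ} (hq : IsPrimePow q) (hK : Fintype.card K = q ^ 3) :
    IsSimpleGroup ↥(twistedD4 K q) ∧ ¬ IsMulCommutative ↥(twistedD4 K q) := by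
  have hp := perfect_D4 hq hK
  have hcore := normalCore_D4 hq hK
  obtain ⟨T, hG, hf, hO, -⟩ := exists_commData_D4 hq hK
  rw [← hG] at hp hcore ⊢
  have hO' : T.toTwistBN.toFixBN.orbs = orbsD4 := hO
  have m1 : [1] ∈ T.toTwistBN.toFixBN.orbs := by rw [hO']; decide
  have m3 : [0, 2, 3] ∈ T.toTwistBN.toFixBN.orbs := by rw [hO']; decide
  refine FixB.simple T.toTwistBN.toFixBN (by rw [hO']; decide) ?_ hp hcore
  rintro P ⟨O, hOm, hP⟩ ⟨O', hOm', hP'⟩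
  have key : ∀ A B : List ℕ, ∀ (hA : A ∈ T.toTwistBN.toFixBN.orbs) (hB : B ∈ T.toTwistBN.toFixBN.orbs),
      (A, B) ∈ [([1], [0, 2, 3]), ([0, 2, 3], [1])] →
      P A → ¬ P B → _ := fun A B hA hB hm h1 h2 =>
    (⟨A, hA, B, hB, h1, h2, wPerm_ne_comm _ _ _ (ncD4 _ hm)⟩ :
      ∃ O, ∃ hO : O ∈ T.toTwistBN.toFixBN.orbs, ∃ O', ∃ hO' : O' ∈ T.toTwistBN.toFixBN.orbs, P O ∧ ¬ P O' ∧
      wPerm (bnData_of_mem K memD4).hT.tab O (T.toTwistBN.toFixBN.orb_lt O hO) * wPerm (bnData_of_mem K memD4).hT.tab O' (T.toTwistBN.toFixBN.orb_lt O' hO') ≠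
      wPerm (bnData_of_mem K memD4).hT.tab O' (T.toTwistBN.toFixBN.orb_lt O' hO') * wPerm (bnData_of_mem K memD4).hT.tab O (T.toTwistBN.toFixBN.orb_lt O hO))
  by_cases p1 : P [1] <;> by_cases p3 : P [0, 2, 3]
  all_goals first
    | exact key _ _ m1 m3 (by decide) p1 p3
    | exact key _ _ m3 m1 (by decide) p3 p1
    | (exfalso
       rw [hO'] at hOm hOm'
       simp only [orbsD4, List.mem_cons, List.not_mem_nil, or_false] at hOm hOm'
       rcases hOm with rfl | rfl <;> rcases hOm' with rfl | rfl <;> contradiction)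

end Cfsg.Agent.Lib.Helper18
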