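import Cfsg.Agent.Lib.Helper18.TwistPerf
import Cfsg.Agent.Lib.Helper18.TwistE6
import Cfsg.Agent.Lib.Helper18.TwistD4

set_option autoImplicit false
set_option maxRecDepth 100000

/-! `²E₆(q)` and `³D₄(q)` are perfect. -/

namespace Cfsg.Agent.Lib.Helper18

open Cfsg.Lie Matrix Cfsg.Agent.Lib.Helper6

variable {D : ChevalleyDatum} {K : Type*} [Field K]

lemma exists_sq_ne_one [Fintype K] (h : 4 ≤ Fintype.card K) : ∃ l : K, l ≠ 0 ∧ l ^ 2 ≠ 1 := by
  classical
  by_contra hcon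
  push Not at hcon
  have h1 : (Finset.univ : Finset K) ⊆ {0, 1, -1} := by
    intro x _
    by_cases hx : x = 0
    · simp [hx]
    · have := hcon x hx
      have h4 : (x - 1) * (x + 1) = 0 := by linear_combination this
      rcases mul_eq_zero.mp h4 with h | h
      · have : x = 1 := by linear_combination h
        simp [this]
      · have : x = -1 := by linear_combination h
        simp [this]
  have h2 := Finset.card_le_card h1
  have h3 : ({0, 1, -1} : Finset K).card ≤ 3 := Finset.card_le_three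
  rw [Finset.card_univ] at h2
  omega

namespace CommData

variable {X : BNData D K} (T : CommData X)

theorem big_orbit {O : List ℕ} (hO : O ∈ T.orbs) {j0 : ℕ}
    (hcyc : O = (List.range O.length).map (fun k => T.ρ^[k] j0)) (hj0 : T.ρ^[O.length] j0 = j0)
    (hfix : ∀ x, T.f^[O.length] x = x)
    (hcart : ∀ j ∈ O, ∀ i ∈ O, D.cartan i (D.simple j) = if i = j then 2 else 0)
    (hcartn : ∀ j ∈ O, ∀ i ∈ O, D.cartan i (nsimple D j) = if i = j then -2 else 0)
    (hl : ∃ l : K, l ≠ 0 ∧ l ^ 2 ≠ 1) {R : ℕ → ℕ} (hR : R = D.simple ∨ R = nsimple D)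
    {s : ℕ → K} (hs : T.Compat O s) : X.hB.yl R O s ∈ derT T.G1 := by
  obtain ⟨l, hl0, hl2⟩ := hl
  set c : ℕ → K := fun j => T.f^[O.idxOf j] l with hc
  have hcc : T.Compat O c := T.compat_iter hO hcyc hj0 (hfix l)
  have hinj : ∀ k, Function.Injective (T.f^[k]) := fun k => T.f.injective.iterate k
  have hc0 : ∀ i ∈ O, c i ≠ 0 := by
    intro i _ h
    apply hl0
    apply hinj (O.idxOf i)
    rw [iterate_map_zero]
    exact h
  have hc2 : ∀ i ∈ O, c i ^ 2 ≠ 1 := by
    intro i _ h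
    apply hl2
    apply hinj (O.idxOf i)
    rw [iterate_map_one, iterate_map_pow]
    exact h
  have hnd := (T.orth O hO).nodup
  rcases hR with rfl | rfl
  · refine T.yl_mem_derT hO hO (Or.inl rfl) hcc hc0 (χ := fun j => c j ^ 2) ?_ ?_ hc2 hs
    · intro j hj
      rw [chiL_of_mem c O hnd _ j 2 (hcart j hj) hj]
      exact zpow_ofNat _ 2
    · intro j hj
      show c (T.ρ j) ^ 2 = T.f (c j ^ 2)
      rw [hcc j hj, map_pow]
  · refine T.yl_mem_derT hO hO (Or.inr rfl) hcc hc0 (χ := fun j => (c j ^ 2)⁻¹) ?_ ?_ ?_ hs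
    · intro j hj
      rw [chiL_of_mem c O hnd _ j (-2) (hcartn j hj) hj, _root_.zpow_neg]
      exact congrArg _ (zpow_ofNat _ 2)
    · intro j hj
      show (c (T.ρ j) ^ 2)⁻¹ = T.f (c j ^ 2)⁻¹
      rw [hcc j hj, map_inv₀, map_pow]
    · intro j hj h
      exact hc2 j hj (inv_eq_one.mp h)

end CommData

theorem cartE6 : ∀ O ∈ orbsE6, ∀ j ∈ O, ∀ i ∈ O, chevE6.cartan i (chevE6.simple j) = if i = j then 2 else 0 := by
  decide +kernel

theorem cartnE6 : ∀ O ∈ orbsE6, ∀ j ∈ O, ∀ i ∈ O,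
    chevE6.cartan i (CommData.nsimple chevE6 j) = if i = j then -2 else 0 := by
  decide +kernel

theorem cartD4 : ∀ O ∈ orbsD4, ∀ j ∈ O, ∀ i ∈ O, chevD4.cartan i (chevD4.simple j) = if i = j then 2 else 0 := by
  decide +kernel

theorem cartnD4 : ∀ O ∈ orbsD4, ∀ j ∈ O, ∀ i ∈ O,
    chevD4.cartan i (CommData.nsimple chevD4 j) = if i = j then -2 else 0 := by
  decide +kernel

theorem perfect_E6 [Fintype K] {q : ℕ} (hq : IsPrimePow q) (hK : Fintype.card K = q ^ 2) :
    commutator ↥(twistedE6 K q) = ⊤ := by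
  obtain ⟨T, hG, hf, hO, hρ, -, -⟩ := exists_commData_E6 hq hK
  rw [← hG]
  apply commutator_eq_top_of_le_derT
  have h1 : [1] ∈ T.orbs := by rw [hO]; decide
  have h3 : [3] ∈ T.orbs := by rw [hO]; decide
  have hq2 : 2 ≤ q := hq.two_le
  have hl := exists_sq_ne_one (K := K) (by rw [hK]; nlinarith)
  have hfix2 : ∀ x, T.f^[2] x = x := by
    intro x
    rw [T.f_iter hf, ← hK, FiniteField.pow_card]
  have s1 : chevE6.simple 1 = 46 := by decide +kernel
  have s3 : chevE6.simple 3 = 39 := by decide +kernel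
  have n1 : chevE6.neg 46 = 25 := by decide +kernel
  have n3 : chevE6.neg 39 = 32 := by decide +kernel
  have w1 : wAct chevE6 [1] 39 = 47 := by decide +kernel
  have w2 : wAct chevE6 [1] 32 = 24 := by decide +kernel
  have F46 : T.FixRoot 46 := s1 ▸ T.fixRoot_simple h1
  have F39 : T.FixRoot 39 := s3 ▸ T.fixRoot_simple h3
  have F25 : T.FixRoot 25 := by have := T.fixRoot_nsimple h1; rwa [s1, n1] at this
  have F32 : T.FixRoot 32 := by have := T.fixRoot_nsimple h3; rwa [s3, n3] at this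
  have F47 : T.FixRoot 47 := w1 ▸ T.fixRoot_wAct F39 h1
  have F24 : T.FixRoot 24 := w2 ▸ T.fixRoot_wAct F32 h1
  have D46 : ∀ v, T.f v = v → (bnData_of_mem K memE6).hB.xg 46 v ∈ derT T.G1 :=
    fun v hv => T.xg_mem_derT_of_comm (ε := -1) F47 F32 (by decide +kernel) hv
  have D39 : ∀ v, T.f v = v → (bnData_of_mem K memE6).hB.xg 39 v ∈ derT T.G1 :=
    fun v hv => T.xg_mem_derT_of_comm (ε := 1) F47 F25 (by decide +kernel) hv
  have D32 : ∀ v, T.f v = v → (bnData_of_mem K memE6).hB.xg 32 v ∈ derT T.G1 :=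
    fun v hv => T.xg_mem_derT_of_comm (ε := -1) F24 F46 (by decide +kernel) hv
  have D25 : ∀ v, T.f v = v → (bnData_of_mem K memE6).hB.xg 25 v ∈ derT T.G1 :=
    fun v hv => T.xg_mem_derT_of_comm (ε := 1) F24 F39 (by decide +kernel) hv
  show Subgroup.closure T.genSet ≤ derT T.G1
  rw [Subgroup.closure_le]
  rintro g ⟨O, hOm, t, ht, hg⟩
  have hOm' : O ∈ orbsE6 := hO ▸ hOm
  have hbig : O.length = 2 → g ∈ derT T.G1 := by
    intro hlen
    obtain ⟨j0, -, hcyc, hj0, -⟩ := cycE6 O hOm'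
    rw [← hρ] at hcyc hj0
    rcases hg with rfl | rfl
    · exact T.big_orbit hOm hcyc hj0 (hlen ▸ hfix2) (cartE6 O hOm') (cartnE6 O hOm') hl (Or.inl rfl) ht
    · exact T.big_orbit hOm hcyc hj0 (hlen ▸ hfix2) (cartE6 O hOm') (cartnE6 O hOm') hl (Or.inr rfl) ht
  simp only [orbsE6, List.mem_cons, List.not_mem_nil, or_false] at hOm'
  rcases hOm' with rfl | rfl | rfl | rfl
  · have hv : T.f (t 1) = t 1 := by
      have := ht 1 (by simp)
      rw [hρ, TwE6.r1] at this
      exact this.symm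
    rcases hg with rfl | rfl
    · simpa [s1] using D46 _ hv
    · simpa [CommData.nsimple, s1, n1] using D25 _ hv
  · have hv : T.f (t 3) = t 3 := by
      have := ht 3 (by simp)
      rw [hρ, TwE6.r3] at this
      exact this.symm
    rcases hg with rfl | rfl
    · simpa [s3] using D39 _ hv
    · simpa [CommData.nsimple, s3, n3] using D32 _ hv
  · exact hbig rfl
  · exact hbig rfl

theorem perfect_D4 [Fintype K] {q : ℕ} (hq : IsPrimePow q) (hK : Fintype.card K = q ^ 3) :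
    commutator ↥(twistedD4 K q) = ⊤ := by
  obtain ⟨T, hG, hf, hO, hρ, -, -⟩ := exists_commData_D4 hq hK
  rw [← hG]
  apply commutator_eq_top_of_le_derT
  have h1 : [1] ∈ T.orbs := by rw [hO]; decide
  have h3 : [0, 2, 3] ∈ T.orbs := by rw [hO]; decide
  have hq2 : 2 ≤ q := hq.two_le
  have hl := exists_sq_ne_one (K := K) (by
    rw [hK]
    calc 4 ≤ 2 ^ 3 := by norm_num
      _ ≤ q ^ 3 := Nat.pow_le_pow_left hq2 3)
  have hfix3 : ∀ x, T.f^[3] x = x := by
    intro x
    rw [T.f_iter hf, ← hK, FiniteField.pow_card]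
  have s1 : chevD4.simple 1 = 14 := by decide +kernel
  have n1 : chevD4.neg 14 = 9 := by decide +kernel
  have w1 : wAct chevD4 [0, 2, 3] 14 = 22 := by decide +kernel
  have w2 : wAct chevD4 [1] 22 = 23 := by decide +kernel
  have w3 : wAct chevD4 [0, 2, 3] 9 = 1 := by decide +kernel
  have w4 : wAct chevD4 [1] 1 = 0 := by decide +kernel
  have F14 : T.FixRoot 14 := s1 ▸ T.fixRoot_simple h1
  have F9 : T.FixRoot 9 := by have := T.fixRoot_nsimple h1; rwa [s1, n1] at this
  have F22 : T.FixRoot 22 := w1 ▸ T.fixRoot_wAct F14 h3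
  have F23 : T.FixRoot 23 := w2 ▸ T.fixRoot_wAct F22 h1
  have F1 : T.FixRoot 1 := w3 ▸ T.fixRoot_wAct F9 h3
  have F0 : T.FixRoot 0 := w4 ▸ T.fixRoot_wAct F1 h1
  have D14 : ∀ v, T.f v = v → (bnData_of_mem K memD4).hB.xg 14 v ∈ derT T.G1 :=
    fun v hv => T.xg_mem_derT_of_comm (ε := 1) F23 F1 (by decide +kernel) hv
  have D9 : ∀ v, T.f v = v → (bnData_of_mem K memD4).hB.xg 9 v ∈ derT T.G1 :=
    fun v hv => T.xg_mem_derT_of_comm (ε := -1) F0 F22 (by decide +kernel) hv
  show Subgroup.closure T.genSet ≤ derT T.G1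
  rw [Subgroup.closure_le]
  rintro g ⟨O, hOm, t, ht, hg⟩
  have hOm' : O ∈ orbsD4 := hO ▸ hOm
  have hbig : O.length = 3 → g ∈ derT T.G1 := by
    intro hlen
    obtain ⟨j0, -, hcyc, hj0, -⟩ := cycD4 O hOm'
    rw [← hρ] at hcyc hj0
    rcases hg with rfl | rfl
    · exact T.big_orbit hOm hcyc hj0 (hlen ▸ hfix3) (cartD4 O hOm') (cartnD4 O hOm') hl (Or.inl rfl) ht
    · exact T.big_orbit hOm hcyc hj0 (hlen ▸ hfix3) (cartD4 O hOm') (cartnD4 O hOm') hl (Or.inr rfl) ht
  simp only [orbsD4, List.mem_cons, List.not_mem_nil, or_false] at hOm'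
  rcases hOm' with rfl | rfl
  · have hv : T.f (t 1) = t 1 := by
      have := ht 1 (by simp)
      rw [hρ, TwD4.r1] at this
      exact this.symm
    rcases hg with rfl | rfl
    · simpa [s1] using D14 _ hv
    · simpa [CommData.nsimple, s1, n1] using D9 _ hv
  · exact hbig rfl

end Cfsg.Agent.Lib.Helper18
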